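import Cfsg.Agent.MaxSub.TensorPowSp.Lie

/-!
Elements sending site transvections to site elements are pure tensors times permutations of sites.
-/

set_option autoImplicit false
set_option linter.unusedSectionVars false
set_option linter.unusedSimpArgs false

namespace Cfsg.Agent.MaxSub.TensorPowSp

open Matrix Cfsg.Agent.NotMax Cfsg.Agent.GeoClasses

variable {F : Type*} [Field F] {k t : ℕ}

lemma conjMat_refl (Z : Matrix (Fin t → Fin k) (Fin t → Fin k) F) :
    conjMat (LinearEquiv.refl F ((Fin t → Fin k) → F)) Z = Z := by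
  have : LinearEquiv.conjAlgEquiv F (LinearEquiv.refl F ((Fin t → Fin k) → F))
      (Matrix.toLinAlgEquiv' Z) = Matrix.toLinAlgEquiv' Z := rfl
  simp only [conjMat, AlgEquiv.trans_apply, this, LinearMap.toMatrixAlgEquiv'_toLinAlgEquiv']

/-- A site as an algebra map. -/
noncomputable def siteHom (i : Fin t) :
    Matrix (Fin k) (Fin k) F →ₐ[F] Matrix (Fin t → Fin k) (Fin t → Fin k) F :=
  AlgHom.ofLinearMap
    { toFun := site i
      map_add' := site_add i
      map_smul' := fun c X => site_smul i c X }
    (site_one i) (fun X Y => (site_mul i X Y).symm)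

lemma siteHom_apply (i : Fin t) (X : Matrix (Fin k) (Fin k) F) : siteHom i X = site i X := rfl

lemma site_injective [NeZero k] (i : Fin t) : Function.Injective (site (F := F) (k := k) i) := by
  intro X X' e
  ext p q
  have := congrArg (fun D => blk i D p q) e
  simp only [blk_site, Matrix.map_apply] at this
  exact (algebraMap F (Matrix (Rest k i) (Rest k i) F)).injective this

lemma iSup_range_eq_top [NeZero k] :
    (⨆ i : Fin t, (siteHom (F := F) (k := k) i).range) = ⊤ := by
  classical
  set A := ⨆ i : Fin t, (siteHom (F := F) (k := k) i).range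
  have hpure : ∀ Ys : Fin t → Matrix (Fin k) (Fin k) F, pureMat Ys ∈ A := by
    intro Ys
    suffices h : ∀ U : Finset (Fin t), pureMat (fun i => if i ∈ U then Ys i else 1) ∈ A by
      simpa using h Finset.univ
    intro U
    induction U using Finset.induction with
    | empty => simp [pureMat_one, one_mem]
    | insert j U hj ih =>
      have : pureMat (fun i => if i ∈ insert j U then Ys i else 1) =
          site j (Ys j) * pureMat (fun i => if i ∈ U then Ys i else 1) := by
        rw [site, pureMat_mul]
        congr 1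
        funext i
        by_cases hi : i = j
        · subst hi; simp [hj]
        · simp [hi]
      rw [this]
      exact mul_mem ((le_iSup (fun i : Fin t => (siteHom (F := F) (k := k) i).range) j) ⟨Ys j, rfl⟩) ih
  rw [eq_top_iff]
  rintro B -
  rw [Matrix.matrix_eq_sum_single B]
  refine sum_mem fun x _ => sum_mem fun y _ => ?_
  have : Matrix.single x y (B x y) = B x y • pureMat fun i => Matrix.single (x i) (y i) (1 : F) := by
    ext a b
    rw [Matrix.smul_apply, smul_eq_mul, pureMat]
    by_cases hab : x = a ∧ y = b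
    · obtain ⟨rfl, rfl⟩ := hab
      simp
    · rw [Matrix.single_apply, if_neg hab]
      rcases not_and_or.1 hab with e | e <;> obtain ⟨i, hi⟩ := Function.ne_iff.1 e
      · rw [Finset.prod_eq_zero (Finset.mem_univ i) (by simp [hi]), mul_zero]
      · rw [Finset.prod_eq_zero (Finset.mem_univ i) (by simp [hi]), mul_zero]
  rw [this]
  exact Subalgebra.smul_mem _ (hpure _) _

variable {G : Matrix (Fin k) (Fin k) F} {M : Subgroup (GL (Fin t → Fin k) F)}

lemma Sys.span_E (h : Sys G M) (A : Subalgebra F (Matrix (Fin k) (Fin k) F))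
    (hA : ∀ z, E G z ∈ A) : A = ⊤ := by
  have hne : ∀ z u : Fin k → F, fG G z u ≠ 0 → vecMulVec z (u ᵥ* G) ∈ A := by
    intro z u hzu
    have := A.smul_mem (mul_mem (hA z) (hA u)) (fG G z u)⁻¹
    rwa [E, E, vec_mul_vec, smul_smul, inv_mul_cancel₀ hzu, one_smul] at this
  have hall : ∀ z u : Fin k → F, vecMulVec z (u ᵥ* G) ∈ A := by
    intro z u
    by_cases hz : z = 0
    · rw [hz, zero_vecMulVec]; exact zero_mem A
    by_cases hzu : fG G z u = 0
    · obtain ⟨w, hw⟩ := h.exists_fG_eq_one hz
      have h1 := sub_mem (hne z (u + w) (by rw [fG_add_right, hzu, hw, zero_add]; exact one_ne_zero))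
        (hne z w (by rw [hw]; exact one_ne_zero))
      rwa [add_vecMul, vecMulVec_add, add_sub_cancel_right] at h1
    · exact hne z u hzu
  rw [eq_top_iff]
  rintro X -
  rw [Matrix.matrix_eq_sum_single X]
  refine sum_mem fun p _ => sum_mem fun q _ => ?_
  have := hall (Pi.single p (X p q)) (Pi.single q 1 ᵥ* G⁻¹)
  rw [vecMul_vecMul, Matrix.nonsing_inv_mul _ h.det, vecMul_one] at this
  convert this using 1
  ext a b
  by_cases ha : p = a <;> by_cases hb : q = b <;> simp [Matrix.vecMulVec_apply, ha, hb, Ne.symm]

/-- **Elements sending site transvections to site elements lie in the wreath product.** -/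
theorem Sys.pure_of_sites [NeZero k] (h : Sys G M) {g : GL (Fin t → Fin k) F}
    (hg : ∀ i z, ∃ j X, (g : Matrix (Fin t → Fin k) (Fin t → Fin k) F) * site i (E G z) *
      ((g⁻¹ : GL (Fin t → Fin k) F) : Matrix (Fin t → Fin k) (Fin t → Fin k) F) = site j X) :
    ∃ (cs : Fin t → GL (Fin k) F) (π : Equiv.Perm (Fin t)),
      (g : Matrix (Fin t → Fin k) (Fin t → Fin k) F) =
        pureMat (fun i => (cs i : Matrix (Fin k) (Fin k) F)) * factorPerm k π := by
  classical
  haveI : NeZero t := ⟨h.pos.ne'⟩
  choose J X hJ using hg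
  have hc : ∀ Z, conjGL g Z = (g : Matrix (Fin t → Fin k) (Fin t → Fin k) F) * Z *
      ((g⁻¹ : GL (Fin t → Fin k) F) : Matrix (Fin t → Fin k) (Fin t → Fin k) F) := fun Z =>
    conjGL_apply g Z
  have hadj : ∀ i z z', fG G z z' ≠ 0 → J i z = J i z' := by
    intro i z z' hzz'
    by_contra hne
    have hcomm := (site_comm hne (X i z) (X i z'))
    rw [← hJ i z, ← hJ i z', ← hc, ← hc, ← map_mul, ← map_mul, site_mul, site_mul] at hcomm
    have e := site_injective i ((conjGL g).injective hcomm)
    have := congrArg (fun D => D *ᵥ z) e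
    simp only [← mulVec_mulVec, E_mulVec, h.fG_self, zero_smul, mulVec_zero, mulVec_smul] at this
    rw [smul_smul, eq_comm] at this
    rcases smul_eq_zero.1 this.symm with h0 | h0
    · rw [h.fG_swap z z'] at h0
      exact hzz' (mul_self_eq_zero.1 (by first | linear_combination h0 | linear_combination -h0))
    · exact hzz' (by simp [h0, fG])
  have hsame : ∀ i z z', z ≠ 0 → z' ≠ 0 → J i z = J i z' := by
    intro i z z' hz hz'
    obtain ⟨u, hu⟩ := h.exists_fG_eq_one hz
    obtain ⟨u', hu'⟩ := h.exists_fG_eq_one hz'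
    have key : ∀ w, fG G z w ≠ 0 → fG G z' w ≠ 0 → J i z = J i z' := fun w h1 h2 =>
      (hadj i z w h1).trans (hadj i z' w h2).symm
    by_cases h1 : fG G z' u = 0
    · by_cases h2 : fG G z u' = 0
      · exact key (u + u') (by rw [fG_add_right, hu, h2, add_zero]; exact one_ne_zero)
          (by rw [fG_add_right, hu', h1, zero_add]; exact one_ne_zero)
      · exact key u' h2 (by rw [hu']; exact one_ne_zero)
    · exact key u (by rw [hu]; exact one_ne_zero) h1
  set z₀ : Fin k → F := Pi.single ⟨0, Nat.pos_of_ne_zero (NeZero.ne k)⟩ 1 with hz₀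
  have hz₀0 : z₀ ≠ 0 := by simp [hz₀]
  set σ : Fin t → Fin t := fun i => J i z₀
  have hrange : ∀ i, ∀ Z ∈ (siteHom (F := F) (k := k) i).range,
      conjGL g Z ∈ (siteHom (F := F) (k := k) (σ i)).range := by
    intro i
    let A : Subalgebra F (Matrix (Fin k) (Fin k) F) :=
      ((siteHom (F := F) (k := k) (σ i)).range).comap ((conjGL g).toAlgHom.comp (siteHom i))
    have hA : A = ⊤ := h.span_E A fun z => by
      suffices hz' : conjGL g (site i (E G z)) ∈ (siteHom (F := F) (k := k) (σ i)).range from hz'
      by_cases hz : z = 0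
      · rw [hz, E, zero_vecMulVec, site_zero, map_zero]; exact zero_mem _
      · rw [hc, hJ, hsame i z z₀ hz hz₀0]; exact ⟨_, rfl⟩
    rintro _ ⟨Z, rfl⟩
    exact (hA ▸ Algebra.mem_top : Z ∈ A)
  have hinj : Function.Injective σ := by
    intro i i' e
    by_contra hne
    have hsur : ∀ i, ∀ Y, ∃ Z, conjGL g (site i Z) = site (σ i) Y := by
      intro i
      have hex : ∀ Z, ∃ W, site (σ i) W = conjGL g (site i Z) := fun Z => hrange i (site i Z) ⟨Z, rfl⟩
      choose θ hθ using hex
      let L : Matrix (Fin k) (Fin k) F →ₗ[F] Matrix (Fin k) (Fin k) F :=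
        { toFun := θ
          map_add' := fun a b => site_injective (σ i) (by
            rw [hθ, site_add, map_add, ← hθ, ← hθ, site_add])
          map_smul' := fun c a => site_injective (σ i) (by
            rw [hθ, site_smul, map_smul, ← hθ, RingHom.id_apply, site_smul]) }
      have hL : Function.Injective L := fun a b hab => site_injective i ((conjGL g).injective (by
        rw [← hθ, ← hθ]; exact congrArg _ hab))
      intro Y
      obtain ⟨Z, hZ⟩ := (LinearMap.injective_iff_surjective.1 hL) Y
      exact ⟨Z, by rw [← hθ, ← hZ]; rfl⟩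
    have hcen : ∀ Y, Commute Y (X i' z₀) := by
      intro Y
      obtain ⟨Z, hZ⟩ := hsur i Y
      apply site_injective (σ i)
      rw [← site_mul, ← site_mul, ← hZ, show site (σ i) (X i' z₀) = conjGL g (site i' (E G z₀)) by
        rw [hc, hJ]; exact congrArg (fun l => site l (X i' z₀)) e, ← map_mul, ← map_mul, site_comm hne]
    obtain ⟨a, ha⟩ := Matrix.mem_range_scalar_iff_commute_single'.2 (fun p q => hcen (Matrix.single p q 1))
    have h1 : conjGL g (site i' (E G z₀)) = algebraMap F _ a := by
      rw [hc, hJ, ← ha, Matrix.scalar_apply, ← Matrix.smul_one_eq_diagonal, site_eq_smul_one]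
    have h2 : site i' (E G z₀) = site i' (a • 1) := by
      rw [site_eq_smul_one]
      exact (conjGL g).injective (h1.trans (AlgEquiv.commutes _ a).symm)
    have h3 := site_injective i' h2
    have h4 := h.E_sq z₀
    rw [h3, smul_mul_smul_comm, one_mul, smul_eq_zero] at h4
    rcases h4 with h4 | h4
    · exact h.E_ne_zero hz₀0 (by rw [h3, mul_self_eq_zero.1 h4, zero_smul])
    · exact one_ne_zero h4
  let π : Equiv.Perm (Fin t) := Equiv.ofBijective σ (Finite.injective_iff_bijective.1 hinj)
  have hL : ∀ i Y, siteHom (F := F) (k := k) i Y =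
      conjMat (LinearEquiv.refl F ((Fin t → Fin k) → F)) (pureMat (Function.update 1 i Y)) := by
    intro i Y
    rw [siteHom_apply, conjMat_refl, site]
  obtain ⟨cs, hcs⟩ := normaliser_pure (Nat.pos_of_ne_zero (NeZero.ne k)) hL iSup_range_eq_top
    (fun i => site_injective i) π hrange
  refine ⟨cs, π, hcs.trans ?_⟩
  rw [conjMat_refl]

end Cfsg.Agent.MaxSub.TensorPowSp
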