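import Cfsg.Agent.MaxSub.TensorPowSp.Sandwich

/-!
Reduction of a root element with a maximal set of transvection sites to a pure shape.
-/

set_option autoImplicit false
set_option linter.unusedSectionVars false
set_option linter.unusedSimpArgs false

namespace Cfsg.Agent.MaxSub.TensorPowSp

open Matrix Cfsg.Agent.NotMax Cfsg.Agent.GeoClasses

variable {F : Type*} [Field F] {k t : ℕ}

lemma pureMat_update_mul (Ys : Fin t → Matrix (Fin k) (Fin k) F) {j : Fin t} (hj : Ys j = 1)
    (Y : Matrix (Fin k) (Fin k) F) :
    pureMat (Function.update Ys j Y) = site j Y * pureMat Ys := by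
  rw [site, pureMat_mul]
  congr 1
  funext i
  by_cases hi : i = j
  · subst hi; simp [hj]
  · simp [hi]

lemma commute_pure {N : Matrix (Fin t → Fin k) (Fin t → Fin k) F} (S : Finset (Fin t))
    (hN : ∀ i ∈ S, ∀ X, Commute (site i X) N) (Ys : Fin t → Matrix (Fin k) (Fin k) F)
    (hY : ∀ i, i ∉ S → Ys i = 1) : Commute (pureMat Ys) N := by
  classical
  induction S using Finset.induction generalizing Ys with
  | empty =>
    rw [show Ys = fun _ => 1 from funext fun i => hY i (Finset.notMem_empty i), pureMat_one]
    exact Commute.one_left _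
  | insert j S hj ih =>
    have := pureMat_update_mul (Function.update Ys j 1) (Function.update_self j 1 Ys) (Ys j)
    rw [Function.update_idem, Function.update_eq_self] at this
    rw [this]
    refine (hN j (Finset.mem_insert_self j S) _).mul_left
      (ih (fun i hi => hN i (Finset.mem_insert_of_mem hi)) _ fun i hi => ?_)
    by_cases hij : i = j
    · subst hij; simp
    · rw [Function.update_of_ne hij]; exact hY i (by simp [hij, hi])

lemma site_comm_pure (j : Fin t) (X : Matrix (Fin k) (Fin k) F)
    (Ys : Fin t → Matrix (Fin k) (Fin k) F) (h : Ys j = 1) : Commute (site j X) (pureMat Ys) := by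
  unfold Commute SemiconjBy
  rw [site, pureMat_mul, pureMat_mul]
  congr 1
  funext i
  by_cases hi : i = j
  · subst hi; simp [h]
  · simp [hi]

lemma eq_zero_of_site_mul [NeZero k] {j : Fin t} {X : Matrix (Fin k) (Fin k) F} (hX : X ≠ 0)
    {W : Matrix (Fin t → Fin k) (Fin t → Fin k) F} (hW : ∀ Z, Commute (site j Z) W)
    (e : site j X * W = 0) : W = 0 := by
  obtain ⟨Y, rfl⟩ := exists_emb_of_commute j hW
  obtain ⟨p, q, hpq⟩ : ∃ p q, X p q ≠ 0 := by
    by_contra hno
    push Not at hno
    exact hX (Matrix.ext hno)
  have := congrArg (fun D => blk j D p q) e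
  simp only [blk_site_mul_emb, map_zero, Matrix.zero_apply] at this
  rw [(smul_eq_zero.1 this).resolve_left hpq, map_zero]

lemma eq_zero_of_pure_mul [NeZero k] (S : Finset (Fin t)) :
    ∀ (Ys : Fin t → Matrix (Fin k) (Fin k) F), (∀ i, Ys i ≠ 0) → (∀ i, i ∉ S → Ys i = 1) →
      ∀ W, (∀ i ∈ S, ∀ Z, Commute (site i Z) W) → pureMat Ys * W = 0 → W = 0 := by
  classical
  induction S using Finset.induction with
  | empty =>
    intro Ys _ hY W _ e
    rwa [show Ys = fun _ => 1 from funext fun i => hY i (Finset.notMem_empty i), pureMat_one, one_mul] at e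
  | insert j S hj ih =>
    intro Ys hne hY W hW e
    have := pureMat_update_mul (Function.update Ys j 1) (Function.update_self j 1 Ys) (Ys j)
    rw [Function.update_idem, Function.update_eq_self] at this
    rw [this, mul_assoc] at e
    have h1 := eq_zero_of_site_mul (hne j) (fun Z =>
      (site_comm_pure j Z _ (Function.update_self j 1 Ys)).mul_right
        (hW j (Finset.mem_insert_self j S) Z)) e
    refine ih _ (fun i => ?_) (fun i hi => ?_) W (fun i hi => hW i (Finset.mem_insert_of_mem hi)) h1
    · by_cases hij : i = j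
      · subst hij
        rw [Function.update_self]
        exact one_ne_zero
      · rw [Function.update_of_ne hij]; exact hne i
    · by_cases hij : i = j
      · subst hij; simp
      · rw [Function.update_of_ne hij]; exact hY i (by simp [hij, hi])

lemma commute_of_site_mul [NeZero k] {m i : Fin t} (him : i ≠ m) {X Z : Matrix (Fin k) (Fin k) F}
    (hX : X ≠ 0) {W : Matrix (Fin t → Fin k) (Fin t → Fin k) F} (hW : ∀ V, Commute (site m V) W)
    (hc : Commute (site i Z) (site m X * W)) : Commute (site i Z) W := by
  have hcm : ∀ V, Commute (site m V) (site i Z) := fun V => site_comm him.symm V Z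
  refine sub_eq_zero.1 (eq_zero_of_site_mul hX
    (fun V => ((hcm V).mul_right (hW V)).sub_right ((hW V).mul_right (hcm V))) ?_)
  rw [mul_sub, ← mul_assoc, (hcm X).eq, mul_assoc, hc.eq, mul_assoc, sub_self]

variable {G : Matrix (Fin k) (Fin k) F} {M : Subgroup (GL (Fin t → Fin k) F)}

/-- A square zero element of the other half of the adjoint module. -/
structure IsW (G : Matrix (Fin k) (Fin k) F) (W : Matrix (Fin k) (Fin k) F) : Prop where
  sq : W * W = 0
  adj : Wᵀ * G = G * W
  ne : W ≠ 0

/-- A root element with transvection shape at the sites of `T`. -/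
def Cand (G : Matrix (Fin k) (Fin k) F) (M : Subgroup (GL (Fin t → Fin k) F)) (T : Finset (Fin t)) :
    Prop :=
  T.Nonempty ∧ ∃ (z : Fin t → Fin k → F) (N : Matrix (Fin t → Fin k) (Fin t → Fin k) F),
    (∀ i ∈ T, z i ≠ 0) ∧ N ≠ 0 ∧ (∀ i ∈ T, ∀ X, Commute (site i X) N) ∧
    (2 ≤ T.card ∨ ∀ a : F, N ≠ a • 1) ∧
    Root F M (pureMat (fun i => if i ∈ T then E G (z i) else 1) * N)

/-- The bilinear compression. -/
noncomputable def bcomp (G : Matrix (Fin k) (Fin k) F) (m : Fin t) (a b : Fin k → F)
    (B : Matrix (Fin t → Fin k) (Fin t → Fin k) F) : Matrix (Rest k m) (Rest k m) F :=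
  ∑ q, ∑ r, ((a ᵥ* G) q * b r) • blk m B q r

lemma bcomp_self (m : Fin t) (a : Fin k → F) (B : Matrix (Fin t → Fin k) (Fin t → Fin k) F) :
    bcomp G m a a B = comp G m a B := rfl

lemma bcomp_add_left (m : Fin t) (a a' b : Fin k → F) (B : Matrix (Fin t → Fin k) (Fin t → Fin k) F) :
    bcomp G m (a + a') b B = bcomp G m a b B + bcomp G m a' b B := by
  simp only [bcomp, add_vecMul, Pi.add_apply, add_mul, add_smul, Finset.sum_add_distrib]

lemma bcomp_add_right (m : Fin t) (a b b' : Fin k → F) (B : Matrix (Fin t → Fin k) (Fin t → Fin k) F) :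
    bcomp G m a (b + b') B = bcomp G m a b B + bcomp G m a b' B := by
  simp only [bcomp, Pi.add_apply, mul_add, add_smul, Finset.sum_add_distrib]

lemma bcomp_smul_left (m : Fin t) (c : F) (a b : Fin k → F)
    (B : Matrix (Fin t → Fin k) (Fin t → Fin k) F) : bcomp G m (c • a) b B = c • bcomp G m a b B := by
  simp only [bcomp, smul_vecMul, Pi.smul_apply, smul_eq_mul, Finset.smul_sum, smul_smul, mul_assoc]

lemma bcomp_smul_right (m : Fin t) (c : F) (a b : Fin k → F)
    (B : Matrix (Fin t → Fin k) (Fin t → Fin k) F) : bcomp G m a (c • b) B = c • bcomp G m a b B := by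
  simp only [bcomp, Pi.smul_apply, smul_eq_mul, Finset.smul_sum, smul_smul, mul_left_comm, mul_assoc]

lemma site_E_sandwich (m : Fin t) (a b : Fin k → F) (B : Matrix (Fin t → Fin k) (Fin t → Fin k) F) :
    site m (E G a) * B * site m (E G b) = site m (vecMulVec a (b ᵥ* G)) * emb m (bcomp G m a b B) := by
  apply (blk m).injective
  rw [blk_site_mul_emb, map_mul, map_mul, blk_site, blk_site]
  funext p s
  simp only [Matrix.mul_apply, Matrix.map_apply, E, Matrix.vecMulVec_apply, bcomp, Finset.sum_mul,
    Finset.smul_sum]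
  rw [Finset.sum_comm]
  refine Finset.sum_congr rfl fun q _ => Finset.sum_congr rfl fun r _ => ?_
  rw [mul_assoc, ← Algebra.commutes (R := F) (b r * (b ᵥ* G) s), ← mul_assoc, ← map_mul, smul_smul,
    ← Algebra.smul_def]
  congr 1; ring

namespace Sys

variable [NeZero k] (h : Sys G M)
include h

lemma pureShape_ne_zero {S : Finset (Fin t)} {z : Fin t → Fin k → F} (hz : ∀ i ∈ S, z i ≠ 0) (i : Fin t) :
    (if i ∈ S then E G (z i) else 1) ≠ 0 := by
  split_ifs with hi
  · exact h.E_ne_zero (hz i hi)
  · exact one_ne_zero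

lemma exists_common {a b : Fin k → F} (ha : a ≠ 0) (hb : b ≠ 0) :
    ∃ w, fG G a w ≠ 0 ∧ fG G b w ≠ 0 := by
  obtain ⟨u, hu⟩ := h.exists_fG_eq_one ha
  obtain ⟨u', hu'⟩ := h.exists_fG_eq_one hb
  by_cases h1 : fG G b u = 0
  · by_cases h2 : fG G a u' = 0
    · exact ⟨u + u', by rw [fG_add_right, hu, h2, add_zero]; exact one_ne_zero,
        by rw [fG_add_right, hu', h1, zero_add]; exact one_ne_zero⟩
    · exact ⟨u', h2, by rw [hu']; exact one_ne_zero⟩
  · exact ⟨u, by rw [hu]; exact one_ne_zero, h1⟩

/-- A matrix with vanishing sandwiches at a site which does not commute with the site has a non-zero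
orthogonal bilinear compression. -/
lemma exists_orth {m : Fin t} {N : Matrix (Fin t → Fin k) (Fin t → Fin k) F}
    (hzero : ∀ v, comp G m v N = 0) (hN : ¬ ∀ X, Commute (site m X) N) :
    ∃ a b, fG G a b = 0 ∧ bcomp G m a b N ≠ 0 := by
  by_contra hno
  push Not at hno
  apply hN
  have hanti : ∀ a b, bcomp G m a b N = -bcomp G m b a N := fun a b => by
    have := hzero (a + b)
    rw [← bcomp_self, bcomp_add_left, bcomp_add_right, bcomp_add_right, bcomp_self, bcomp_self,
      hzero a, hzero b, zero_add, add_zero] at this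
    exact eq_neg_of_add_eq_zero_left this
  have hex : ∀ a, ∃ K, ∀ y, bcomp G m a y N = fG G a y • K := by
    intro a
    rcases eq_or_ne a 0 with rfl | ha
    · exact ⟨0, fun y => by simp [bcomp]⟩
    obtain ⟨u, hu⟩ := h.exists_fG_eq_one ha
    refine ⟨bcomp G m a u N, fun y => ?_⟩
    have h1 : bcomp G m a (y + -fG G a y • u) N = 0 :=
      hno a _ (by rw [fG_add_right, fG_smul_right, hu, mul_one, add_neg_cancel])
    rw [bcomp_add_right, bcomp_smul_right, neg_smul, add_neg_eq_zero] at h1
    exact h1
  choose K hK using hex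
  have hKe : ∀ a y, fG G a y ≠ 0 → K a = K y := by
    intro a y hay
    have := hanti a y
    rw [hK, hK, h.fG_swap a y, neg_smul, neg_neg] at this
    exact smul_right_injective _ hay this
  have hconst : ∀ a a', a ≠ 0 → a' ≠ 0 → K a = K a' := fun a a' ha ha' => by
    obtain ⟨w, h1, h2⟩ := h.exists_common ha ha'
    exact (hKe a w h1).trans (hKe a' w h2).symm
  set p0 : Fin k := ⟨0, Nat.pos_of_ne_zero (NeZero.ne k)⟩
  intro X
  have hblk : ∀ q r, blk m N q r = (if q = r then K (Pi.single p0 1) else 0) := by
    intro q r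
    set a := Pi.single q (1 : F) ᵥ* G⁻¹ with ha
    have haG : a ᵥ* G = Pi.single q 1 := by
      rw [ha, vecMul_vecMul, Matrix.nonsing_inv_mul _ h.det, vecMul_one]
    have ha0 : a ≠ 0 := fun e => by
      have := congrFun haG q
      simp [e] at this
    have := hK a (Pi.single r 1)
    rw [hconst a (Pi.single p0 1) ha0 (by simp), fG, haG] at this
    simp [bcomp, haG, Pi.single_apply] at this
    rw [this]
    simp [eq_comm]
  have : blk m N = Matrix.scalar (Fin k) (K (Pi.single p0 1)) := by
    ext q r : 1
    rw [hblk]; simp [Matrix.diagonal_apply]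
  rw [show N = emb m (K (Pi.single p0 1)) from (blk m).injective (by rw [blk_emb, this])]
  exact site_comm_emb m X _

/-- Pure shapes. -/
theorem exists_shape {T : Finset (Fin t)} (hT : Cand G M T)
    (hmax : ∀ T', Cand G M T' → T'.card ≤ T.card) :
    ∃ (l : F) (z : Fin t → Fin k → F) (D : Finset (Fin t)) (X : Fin t → Matrix (Fin k) (Fin k) F),
      l ≠ 0 ∧ (∀ i ∈ T, z i ≠ 0) ∧ Disjoint T D ∧ (∀ i ∈ T, X i = E G (z i)) ∧
      (∀ i ∈ D, IsW G (X i)) ∧ (∀ i, i ∉ T → i ∉ D → X i = 1) ∧ (2 ≤ T.card ∨ D.Nonempty) ∧
      Root F M (l • pureMat X) := by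
  classical
  obtain ⟨⟨j, hjT⟩, z, N0, hz, hN0, hcom0, hsize0, hroot0⟩ := hT
  suffices key : ∀ R : Finset (Fin t), ∃ (D : Finset (Fin t)) (X : Fin t → Matrix (Fin k) (Fin k) F)
      (N : Matrix (Fin t → Fin k) (Fin t → Fin k) F),
      D ⊆ R ∧ Disjoint T D ∧ (∀ i ∈ T, X i = E G (z i)) ∧
      (∀ i ∈ D, IsW G (X i)) ∧ (∀ i, i ∉ T → i ∉ D → X i = 1) ∧ N ≠ 0 ∧
      (∀ i ∈ T ∪ R, ∀ Z, Commute (site i Z) N) ∧
      (2 ≤ T.card ∨ D.Nonempty ∨ ∀ a : F, N ≠ a • 1) ∧ Root F M (pureMat X * N) by
    obtain ⟨D, X, N, -, hdis, hXT, hXD, hX1, hN, hcom, hsize, hroot⟩ := key Finset.univ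
    haveI : NeZero t := ⟨h.pos.ne'⟩
    obtain ⟨a, rfl⟩ : ∃ a : F, N = a • 1 := by
      have hc : ∀ B, Commute B N := by
        intro B
        have : (⨆ i : Fin t, (siteHom (F := F) (k := k) i).range) ≤ Subalgebra.centralizer F {N} := by
          refine iSup_le fun i => ?_
          rintro _ ⟨Z, rfl⟩
          rw [Subalgebra.mem_centralizer_iff]
          rintro _ rfl
          exact (hcom i (by simp) Z).eq.symm
        have := Subalgebra.mem_centralizer_iff (R := F) |>.1
          (this (iSup_range_eq_top (F := F) (k := k) (t := t) ▸ (Algebra.mem_top : B ∈ _))) N rfl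
        exact this.symm
      obtain ⟨a, ha⟩ := (Matrix.mem_range_scalar_iff_commute_single' (M := N)).2 fun p q => hc _
      exact ⟨a, by rw [← ha, Matrix.scalar_apply, ← Matrix.smul_one_eq_diagonal]⟩
    refine ⟨a, z, D, X, fun ha => hN (by rw [ha, zero_smul]), hz, hdis, hXT, hXD, hX1, ?_, ?_⟩
    · rcases hsize with e | e | e
      exacts [Or.inl e, Or.inr e, absurd rfl (e a)]
    · rwa [mul_smul_comm, mul_one] at hroot
  intro R
  induction R using Finset.induction with
  | empty =>
    exact ⟨∅, fun i => if i ∈ T then E G (z i) else 1, N0, Finset.Subset.refl _, Finset.disjoint_empty_right _,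
      fun i hi => if_pos hi, by simp, fun i hi _ => if_neg hi, hN0, by simpa using hcom0,
      hsize0.imp_right Or.inr, hroot0⟩
  | insert m R hmR ih =>
    obtain ⟨D, X, N, hDR, hdis, hXT, hXD, hX1, hN, hcom, hsize, hroot⟩ := ih
    by_cases hcm : ∀ Z, Commute (site m Z) N
    · refine ⟨D, X, N, hDR.trans (Finset.subset_insert _ _), hdis, hXT, hXD, hX1, hN, fun i hi => ?_,
        hsize, hroot⟩
      rcases Finset.mem_union.1 hi with hi | hi
      · exact hcom i (Finset.mem_union_left _ hi)
      rcases Finset.mem_insert.1 hi with rfl | hi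
      · exact hcm
      · exact hcom i (Finset.mem_union_right _ hi)
    have hmT : m ∉ T := fun e => hcm (hcom m (Finset.mem_union_left _ e))
    have hmD : m ∉ D := fun e => hmR (hDR e)
    have hXm : X m = 1 := hX1 m hmT hmD
    have hXne : ∀ i, X i ≠ 0 := fun i => by
      by_cases hiT : i ∈ T
      · rw [hXT i hiT]; exact h.E_ne_zero (hz i hiT)
      by_cases hiD : i ∈ D
      · exact (hXD i hiD).ne
      rw [hX1 i hiT hiD]; exact one_ne_zero
    have hX1' : ∀ i, i ∉ T ∪ R → X i = 1 := fun i hi => by
      simp only [Finset.mem_union, not_or] at hi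
      exact hX1 i hi.1 fun e => hi.2 (hDR e)
    have hXX : pureMat X * pureMat X = 0 := by
      rw [pureMat_mul]
      exact pureMat_eq_zero _ (i := j) (by rw [hXT j hjT, h.E_sq])
    have hA : ∀ v, Commute (site m (E G v)) (pureMat X) := fun v => site_comm_pure m _ X hXm
    -- the general step
    have hstep : ∀ N' : Matrix (Fin t → Fin k) (Fin t → Fin k) F,
        (∀ i ∈ T ∪ R, ∀ Z, Commute (site i Z) N') → Root F M (pureMat X * N') → ∀ v,
        Root F M (pureMat X * (site m (E G v) * N' - N' * site m (E G v))) ∧
          Root F M (pureMat X * (site m (E G v) * N' * site m (E G v))) := by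
      intro N' hN' hr v
      have hXN : Commute (pureMat X) N' := commute_pure _ hN' X hX1'
      obtain ⟨r1, r2⟩ := hr.diff h.two (h.rootE m v) (by rw [site_mul, h.E_sq, site_zero])
        (by rw [mul_assoc, ← mul_assoc N', ← hXN.eq, mul_assoc, ← mul_assoc (pureMat X), hXX, zero_mul])
        (by
          have hc : Commute (N' * site m (E G v)) (pureMat X) := hXN.symm.mul_left (hA v)
          rw [mul_assoc (pureMat X) N', mul_assoc, ← mul_assoc (N' * site m (E G v)), hc.eq, mul_assoc,
            ← mul_assoc (pureMat X), hXX, zero_mul])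
      constructor
      · convert r1 using 1
        rw [mul_sub, ← mul_assoc (site m (E G v)) (pureMat X) N', (hA v).eq, mul_assoc, mul_assoc]
      · convert r2 using 1
        rw [← mul_assoc (site m (E G v)) (pureMat X) N', (hA v).eq, mul_assoc (pureMat X),
          mul_assoc (pureMat X)]
    -- sandwiches vanish by maximality
    have hzero : ∀ v, comp G m v N = 0 := by
      intro v
      by_contra hne
      rcases eq_or_ne v 0 with rfl | hv
      · exact hne (by simp [comp])
      obtain ⟨-, r2⟩ := hstep N hcom hroot v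
      set Xoff : Fin t → Matrix (Fin k) (Fin k) F := fun i => if i ∈ T then 1 else X i with hXoff
      set C := emb m (comp G m v N) with hC
      have hcomC : ∀ i ∈ T, ∀ Z, Commute (site i Z) C := by
        intro i hi Z
        have him : i ≠ m := fun e => hmT (e ▸ hi)
        refine commute_of_site_mul him (h.E_ne_zero hv) (fun V => site_comm_emb m V _) (X := E G v) ?_
        rw [(site_comm_emb m (E G v) _).eq, ← site_mul_site_E]
        exact ((show Commute (site i Z) (site m (E G v)) from site_comm him _ _).mul_right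
          (hcom i (Finset.mem_union_left _ hi) Z)).mul_right
          (show Commute (site i Z) (site m (E G v)) from site_comm him _ _)
      have hC0 : C ≠ 0 := fun e => hne (emb_injective m (e.trans (map_zero _).symm))
      have hne' : ∀ i, Xoff i ≠ 0 := fun i => by
        by_cases hi : i ∈ T <;> simp [Xoff, hi, hXne i]
      have hcand : Cand G M (insert m T) := by
        refine ⟨Finset.insert_nonempty _ _, Function.update z m v, pureMat Xoff * C, fun i hi => ?_,
          fun e => ?_, fun i hi Z => ?_, Or.inl ?_, ?_⟩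
        · rcases Finset.mem_insert.1 hi with rfl | hi
          · simpa using hv
          · rw [Function.update_of_ne (fun e : i = m => hmT (e ▸ hi))]; exact hz i hi
        · refine hC0 (eq_zero_of_pure_mul (T ∪ R) Xoff hne' (fun i hi => ?_) C (fun i hi Z => ?_) e)
          · simp only [Finset.mem_union, not_or] at hi
            simp [Xoff, hi.1, hX1' i (by simp [hi.1, hi.2])]
          · have him : i ≠ m := fun e => by
              subst e
              rcases Finset.mem_union.1 hi with e | e
              exacts [hmT e, hmR e]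
            refine commute_of_site_mul him (h.E_ne_zero hv) (fun V => site_comm_emb m V _) (X := E G v) ?_
            rw [(site_comm_emb m (E G v) _).eq, ← site_mul_site_E]
            exact ((show Commute (site i Z) (site m (E G v)) from site_comm him _ _).mul_right
              (hcom i hi Z)).mul_right (show Commute (site i Z) (site m (E G v)) from site_comm him _ _)
        · rcases Finset.mem_insert.1 hi with rfl | hi
          · exact (site_comm_pure i Z _ (by simp [Xoff, hmT, hXm])).mul_right (site_comm_emb i Z _)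
          · exact (site_comm_pure i Z _ (by simp [Xoff, hi])).mul_right (hcomC i hi Z)
        · rw [Finset.card_insert_of_notMem hmT]
          have := Finset.card_pos.2 ⟨j, hjT⟩
          omega
        · convert r2 using 1
          rw [site_mul_site_E, hC, ← (site_comm_emb m (E G v) _).eq, ← mul_assoc, ← mul_assoc,
            ← (hA v).eq, site, pureMat_mul, pureMat_mul]
          congr 2
          funext i
          by_cases him : i = m
          · subst him; simp [Xoff, hmT, hXm]
          · by_cases hiT : i ∈ T <;> simp [Xoff, him, hiT, hXT]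
      have := hmax _ hcand
      rw [Finset.card_insert_of_notMem hmT] at this
      omega
    obtain ⟨a, b, hab, hC⟩ := h.exists_orth hzero hcm
    obtain ⟨r1, -⟩ := hstep N hcom hroot b
    have hN1 : ∀ i ∈ T ∪ R, ∀ Z, Commute (site i Z) (site m (E G b) * N - N * site m (E G b)) := by
      intro i hi Z
      have him : i ≠ m := fun e => by
        subst e
        rcases Finset.mem_union.1 hi with e | e
        exacts [hmT e, hmR e]
      have h1 : Commute (site i Z) (site m (E G b)) := site_comm him _ _
      exact (h1.mul_right (hcom i hi Z)).sub_right ((hcom i hi Z).mul_right h1)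
    obtain ⟨r11, -⟩ := hstep _ hN1 r1 a
    have hba : fG G b a = 0 := by rw [h.fG_swap, hab, neg_zero]
    have hCba : bcomp G m b a N = -bcomp G m a b N := by
      have := hzero (a + b)
      rw [← bcomp_self, bcomp_add_left, bcomp_add_right, bcomp_add_right, bcomp_self, bcomp_self,
        hzero a, hzero b, zero_add, add_zero] at this
      exact eq_neg_of_add_eq_zero_right this
    set W : Matrix (Fin k) (Fin k) F := vecMulVec a (b ᵥ* G) - vecMulVec b (a ᵥ* G) with hWdef
    set C := emb m (-bcomp G m a b N) with hCdef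
    have hval : site m (E G a) * (site m (E G b) * N - N * site m (E G b)) -
        (site m (E G b) * N - N * site m (E G b)) * site m (E G a) = site m W * C := by
      have hz1 : ∀ c d : Fin k → F, fG G c d = 0 → site m (E G c) * site m (E G d) = 0 := fun c d hcd => by
        rw [site_mul, E, E, vec_mul_vec, hcd, zero_smul, site_zero]
      rw [mul_sub, sub_mul, ← mul_assoc, hz1 a b hab, zero_mul, mul_assoc N, hz1 b a hba, mul_zero,
        sub_zero, ← mul_assoc, site_E_sandwich, site_E_sandwich, hCba, hCdef, map_neg, hWdef,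
        show vecMulVec a (b ᵥ* G) - vecMulVec b (a ᵥ* G) =
          vecMulVec a (b ᵥ* G) + (-1 : F) • vecMulVec b (a ᵥ* G) by simp [sub_eq_add_neg],
        site_add, site_smul]
      simp only [neg_one_smul, zero_sub, mul_neg, add_mul, neg_mul, neg_add, neg_neg]
      abel
    have hW : IsW G W := by
      refine ⟨?_, ?_, fun e => hC ?_⟩
      · simp only [hWdef, sub_mul, mul_sub, vec_mul_vec, hab, hba, h.fG_self, zero_smul, sub_zero]
      · have hGv : ∀ x : Fin k → F, G *ᵥ x = -(x ᵥ* G) := fun x => by
          rw [← vecMul_transpose, h.skew, vecMul_neg]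
        simp only [hWdef, transpose_sub, transpose_vecMulVec, sub_mul, mul_sub, vecMulVec_mul,
          mul_vecMulVec, hGv, neg_vecMulVec]
        abel
      · rcases eq_or_ne b 0 with rfl | hb
        · simp [bcomp]
        obtain ⟨u, hu⟩ := h.exists_fG_eq_one hb
        have := congrArg (fun D => D *ᵥ u) e
        simp only [hWdef, sub_mulVec, vecMulVec_mulVec, zero_mulVec] at this
        have ha : a = fG G a u • b := by
          ext i
          have := congrFun this i
          simp only [Pi.sub_apply, Pi.smul_apply, MulOpposite.smul_eq_mul_unop, MulOpposite.unop_op,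
            Pi.zero_apply, smul_eq_mul] at this ⊢
          rw [show (b ᵥ* G) ⬝ᵥ u = 1 from hu, show (a ᵥ* G) ⬝ᵥ u = fG G a u from rfl] at this
          linear_combination this
        rw [ha, bcomp_smul_left, bcomp_self, hzero, smul_zero]
    rw [hval] at r11
    refine ⟨insert m D, Function.update X m W, C, Finset.insert_subset_insert _ hDR, ?_, ?_, ?_, ?_,
      ?_, ?_, Or.inr (Or.inl (Finset.insert_nonempty _ _)), ?_⟩
    · rw [Finset.disjoint_insert_right]; exact ⟨hmT, hdis⟩
    · intro i hi
      rw [Function.update_of_ne (fun e : i = m => hmT (e ▸ hi)), hXT i hi]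
    · intro i hi
      rcases Finset.mem_insert.1 hi with rfl | hi
      · simpa using hW
      · rw [Function.update_of_ne (fun e : i = m => hmD (e ▸ hi))]; exact hXD i hi
    · intro i h1 h2
      rw [Finset.mem_insert, not_or] at h2
      rw [Function.update_of_ne h2.1]; exact hX1 i h1 h2.2
    · exact fun e => hC (neg_eq_zero.1 (emb_injective m (e.trans (map_zero _).symm)))
    · intro i hi Z
      by_cases him : i = m
      · subst him; exact site_comm_emb i Z _
      have hi' : i ∈ T ∪ R := by
        rcases Finset.mem_union.1 hi with e | e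
        · exact Finset.mem_union_left _ e
        · exact Finset.mem_union_right _ ((Finset.mem_insert.1 e).resolve_left him)
      refine commute_of_site_mul him hW.ne (fun V => site_comm_emb m V _) (X := W) ?_
      rw [← hval]
      have h1 : ∀ c, Commute (site i Z) (site m (E G c)) := fun c => site_comm him _ _
      exact ((h1 a).mul_right (hN1 i hi' Z)).sub_right ((hN1 i hi' Z).mul_right (h1 a))
    · rw [pureMat_update_mul X hXm, (site_comm_pure m W X hXm).eq, mul_assoc]
      exact r11

end Sys

end Cfsg.Agent.MaxSub.TensorPowSp
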