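import Cfsg.Agent.MaxSub.TensorPowSp.Core

/-!
Pure vectors of a tensor power.
-/

set_option autoImplicit false
set_option linter.unusedSectionVars false
set_option linter.unusedSimpArgs false

namespace Cfsg.Agent.MaxSub.TensorPowSp

open Matrix Cfsg.Agent.NotMax Cfsg.Agent.GeoClasses

variable {F : Type*} [Field F] {k t : ℕ}

lemma dotProduct_pureVec (r x : Fin t → Fin k → F) :
    pureVec r ⬝ᵥ pureVec x = ∏ i, r i ⬝ᵥ x i := by
  simp only [pureVec, dotProduct, ← Finset.prod_mul_distrib]
  exact (Fintype.prod_sum fun i (a : Fin k) => r i a * x i a).symm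

lemma pureVec_vecMul (y : Fin t → Fin k → F) (Ys : Fin t → Matrix (Fin k) (Fin k) F) :
    pureVec y ᵥ* pureMat Ys = pureVec fun i => y i ᵥ* Ys i := by
  ext b
  simp only [pureVec, pureMat, Matrix.vecMul, dotProduct, ← Finset.prod_mul_distrib]
  exact (Fintype.prod_sum fun i (a : Fin k) => y i a * Ys i a (b i)).symm

lemma pureMat_E (G : Matrix (Fin k) (Fin k) F) (y : Fin t → Fin k → F) :
    pureMat (fun i => E G (y i)) = vecMulVec (pureVec y) (pureVec y ᵥ* gV G t) := by
  rw [gV, pureVec_vecMul]
  ext a b
  simp [pureMat, pureVec, E, Matrix.vecMulVec_apply, Finset.prod_mul_distrib]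

/-- A vector with two non-zero linear functionals avoiding both kernels. -/
lemma exists_dot_ne_zero {p q : Fin k → F} (hp : p ≠ 0) (hq : q ≠ 0) :
    ∃ y, p ⬝ᵥ y ≠ 0 ∧ q ⬝ᵥ y ≠ 0 := by
  obtain ⟨i, hi⟩ := Function.ne_iff.1 hp
  obtain ⟨j, hj⟩ := Function.ne_iff.1 hq
  by_cases h1 : q i = 0
  · by_cases h2 : p j = 0
    · refine ⟨Pi.single i 1 + Pi.single j 1, ?_, ?_⟩
      · simpa [dotProduct_add, h2] using hi
      · simpa [dotProduct_add, h1] using hj
    · exact ⟨Pi.single j 1, by simpa using h2, by simpa using hj⟩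
  · exact ⟨Pi.single i 1, by simpa using hi, by simpa using h1⟩

/-- Two non-zero functionals are non-zero together on a pure vector. -/
lemma exists_pure_dot [NeZero k] {A B : (Fin t → Fin k) → F} (hA : A ≠ 0) (hB : B ≠ 0) :
    ∃ y : Fin t → Fin k → F, A ⬝ᵥ pureVec y ≠ 0 ∧ B ⬝ᵥ pureVec y ≠ 0 := by
  classical
  set e0 : Fin k → F := Pi.single 0 1 with he0
  suffices key : ∀ U : Finset (Fin t), ∃ y : Fin t → Fin k → F,
      A ᵥ* pureMat (fun i => if i ∈ U then vecMulVec (y i) e0 else 1) ≠ 0 ∧
      B ᵥ* pureMat (fun i => if i ∈ U then vecMulVec (y i) e0 else 1) ≠ 0 by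
    obtain ⟨y, hya, hyb⟩ := key Finset.univ
    have e : pureMat (fun i => if i ∈ (Finset.univ : Finset (Fin t)) then vecMulVec (y i) e0 else 1) =
        vecMulVec (pureVec y) (pureVec fun _ : Fin t => e0) := by
      ext a b
      simp [pureMat, pureVec, Matrix.vecMulVec_apply, Finset.prod_mul_distrib]
    rw [e, Matrix.vecMul_vecMulVec] at hya hyb
    exact ⟨y, fun e => hya (by rw [e, zero_smul]), fun e => hyb (by rw [e, zero_smul])⟩
  intro U
  induction U using Finset.induction with
  | empty =>
    refine ⟨0, ?_, ?_⟩ <;> simpa [pureMat_one] using (by assumption)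
  | insert j U hj ih =>
    obtain ⟨y, hya, hyb⟩ := ih
    set A' := A ᵥ* pureMat (fun i => if i ∈ U then vecMulVec (y i) e0 else 1)
    set B' := B ᵥ* pureMat (fun i => if i ∈ U then vecMulVec (y i) e0 else 1)
    obtain ⟨a, ha⟩ := Function.ne_iff.1 hya
    obtain ⟨b, hb⟩ := Function.ne_iff.1 hyb
    obtain ⟨v, hva, hvb⟩ := exists_dot_ne_zero
      (p := fun p => A' (Function.update a j p)) (q := fun p => B' (Function.update b j p))
      (fun e => ha (by simpa using congrFun e (a j))) (fun e => hb (by simpa using congrFun e (b j)))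
    have hsite : ∀ (C : (Fin t → Fin k) → F) (c : Fin t → Fin k),
        (C ᵥ* site j (vecMulVec v e0)) (Function.update c j 0) =
          (fun p => C (Function.update c j p)) ⬝ᵥ v := by
      intro C c
      rw [Matrix.vecMul, dotProduct, dotProduct]
      refine (Fintype.sum_of_injective (fun p => Function.update c j p)
        (Function.update_injective c j) _ _ (fun x hx => ?_) fun p => ?_).symm
      · obtain ⟨i, hij, hi⟩ : ∃ i, i ≠ j ∧ x i ≠ c i := by
          by_contra hno
          push Not at hno
          refine hx ⟨x j, funext fun i => ?_⟩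
          by_cases hi : i = j
          · subst hi; simp
          · simp [hi, hno i hi]
        rw [site_apply_of_ne _ hij (by simpa [hij] using hi), mul_zero]
      · rw [site_apply_of_eq _ fun i hi => by simp [hi]]
        simp [Matrix.vecMulVec_apply, he0]
    refine ⟨Function.update y j v, ?_, ?_⟩
    all_goals
      have hrw : pureMat (fun i => if i ∈ insert j U then vecMulVec (Function.update y j v i) e0 else 1) =
          pureMat (fun i => if i ∈ U then vecMulVec (y i) e0 else 1) * site j (vecMulVec v e0) := by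
        rw [site, pureMat_mul]
        congr 1
        funext i
        by_cases hi : i = j
        · subst hi; simp [hj]
        · simp [hi]
      rw [hrw, ← Matrix.vecMul_vecMul]
      intro e
    · exact hva ((hsite A' a).symm.trans (congrFun e _))
    · exact hvb ((hsite B' b).symm.trans (congrFun e _))

end Cfsg.Agent.MaxSub.TensorPowSp
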