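import Cfsg.Agent.NotMax.PowerSites

/-!
Block decomposition of the matrices of a tensor power along one site.
-/

set_option autoImplicit false
set_option linter.unusedSectionVars false
set_option linter.unusedSimpArgs false

namespace Cfsg.Agent.MaxSub.TensorPowSp

open Matrix Cfsg.Agent.NotMax Cfsg.Agent.GeoClasses

variable {F : Type*} [Field F] {k t : ℕ}

/-- The index set of the other sites. -/
abbrev Rest (k : ℕ) {t : ℕ} (j : Fin t) : Type := {i : Fin t // i ≠ j} → Fin k

/-- Splitting off one site. -/
def split (j : Fin t) : (Fin t → Fin k) ≃ Fin k × Rest k j := Equiv.funSplitAt j (Fin k)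

lemma split_symm_self (j : Fin t) (p : Fin k) (s : Rest k j) : (split j).symm (p, s) j = p := by
  simp [split]

lemma split_symm_ne {i j : Fin t} (h : i ≠ j) (p : Fin k) (s : Rest k j) :
    (split j).symm (p, s) i = s ⟨i, h⟩ := by
  simp [split, h]

lemma split_symm_update (j : Fin t) (p q : Fin k) (s : Rest k j) :
    Function.update ((split j).symm (p, s)) j q = (split j).symm (q, s) := by
  funext i
  by_cases h : i = j
  · subst h; simp [split_symm_self]
  · simp [h, split_symm_ne h]

lemma split_symm_of (j : Fin t) (a : Fin t → Fin k) (p : Fin k) :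
    (split j).symm (p, fun i => a i.1) = Function.update a j p := by
  funext i
  by_cases h : i = j
  · subst h; simp [split_symm_self]
  · simp [h, split_symm_ne h]

/-- The matrix as a block matrix along the site `j`. -/
noncomputable def blk (j : Fin t) : Matrix (Fin t → Fin k) (Fin t → Fin k) F ≃ₐ[F]
    Matrix (Fin k) (Fin k) (Matrix (Rest k j) (Rest k j) F) :=
  (Matrix.reindexAlgEquiv F F (split j)).trans (Matrix.compAlgEquiv (Fin k) (Rest k j) F F).symm

lemma blk_apply (j : Fin t) (B : Matrix (Fin t → Fin k) (Fin t → Fin k) F) (p q : Fin k)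
    (s s' : Rest k j) :
    blk j B p q s s' = B ((split j).symm (p, s)) ((split j).symm (q, s')) := rfl

lemma blk_site (j : Fin t) (X : Matrix (Fin k) (Fin k) F) :
    blk j (site j X) = X.map (algebraMap F (Matrix (Rest k j) (Rest k j) F)) := by
  ext p q s s'
  rw [blk_apply, Matrix.map_apply, Algebra.algebraMap_eq_smul_one, Matrix.smul_apply, smul_eq_mul]
  by_cases h : s = s'
  · subst h
    rw [site_apply_of_eq X (fun i hi => by rw [split_symm_ne hi, split_symm_ne hi]), split_symm_self,
      split_symm_self, Matrix.one_apply_eq, mul_one]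
  · obtain ⟨⟨i, hi⟩, hne⟩ := Function.ne_iff.1 h
    rw [site_apply_of_ne X hi (by rwa [split_symm_ne hi, split_symm_ne hi]), Matrix.one_apply_ne h,
      mul_zero]

/-- The matrices acting away from the site `j`. -/
noncomputable def emb (j : Fin t) :
    Matrix (Rest k j) (Rest k j) F →ₐ[F] Matrix (Fin t → Fin k) (Fin t → Fin k) F :=
  (blk (F := F) (k := k) j).symm.toAlgHom.comp (Matrix.scalarAlgHom (Fin k) F)

lemma blk_emb (j : Fin t) (Y : Matrix (Rest k j) (Rest k j) F) :
    blk j (emb j Y) = Matrix.scalar (Fin k) Y := by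
  show blk j ((blk j).symm _) = _
  rw [AlgEquiv.apply_symm_apply]
  rfl

lemma emb_injective [NeZero k] (j : Fin t) :
    Function.Injective (emb (F := F) (k := k) j) := by
  intro Y Y' h
  have := congrFun (congrFun (congrArg (blk j) h) 0) 0
  simpa [blk_emb] using this

lemma blk_site_mul_emb (j : Fin t) (X : Matrix (Fin k) (Fin k) F)
    (Y : Matrix (Rest k j) (Rest k j) F) :
    blk j (site j X * emb j Y) = fun p q => X p q • Y := by
  rw [map_mul, blk_site, blk_emb, Matrix.scalar_apply]
  funext p q
  rw [Matrix.mul_diagonal, Matrix.map_apply, ← Algebra.smul_def]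

lemma site_comm_emb (j : Fin t) (X : Matrix (Fin k) (Fin k) F) (Y : Matrix (Rest k j) (Rest k j) F) :
    Commute (site j X) (emb j Y) := by
  apply (blk j).injective
  rw [map_mul, map_mul, blk_site, blk_emb, Matrix.scalar_apply]
  ext p q : 1
  rw [Matrix.mul_diagonal, Matrix.diagonal_mul, Matrix.map_apply, Algebra.commutes]

lemma site_eq_smul_one [NeZero k] (j : Fin t) (c : F) :
    site j (c • (1 : Matrix (Fin k) (Fin k) F)) = algebraMap F _ c := by
  rw [site_smul, site_one, Algebra.algebraMap_eq_smul_one]

/-- Matrices commuting with one site act away from it. -/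
lemma exists_emb_of_commute [NeZero k] (j : Fin t) {B : Matrix (Fin t → Fin k) (Fin t → Fin k) F}
    (h : ∀ X : Matrix (Fin k) (Fin k) F, Commute (site j X) B) :
    ∃ Y, B = emb j Y := by
  have hc : ∀ p q : Fin k, Commute (Matrix.single p q (1 : Matrix (Rest k j) (Rest k j) F)) (blk j B) := by
    intro p q
    have := ((h (Matrix.single p q 1)).map (blk j))
    rw [blk_site] at this
    rwa [Matrix.map_single, map_one] at this
  obtain ⟨Y, hY⟩ := Matrix.mem_range_scalar_iff_commute_single'.2 hc
  refine ⟨Y, (blk j).injective ?_⟩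
  rw [blk_emb, hY]

end Cfsg.Agent.MaxSub.TensorPowSp
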