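import Cfsg.Agent.MaxSub.TensorPowSp.Enlarge

/-!
A group containing the site transvections and the site permutations either preserves the tensor
decomposition or contains the transvection at a pure vector.
-/

set_option autoImplicit false
set_option linter.unusedSectionVars false
set_option linter.unusedSimpArgs false

namespace Cfsg.Agent.MaxSub.TensorPowSp

open Matrix Cfsg.Agent.NotMax Cfsg.Agent.GeoClasses

variable {F : Type*} [Field F] {k t : ℕ} {G : Matrix (Fin k) (Fin k) F}
  {M : Subgroup (GL (Fin t → Fin k) F)}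

/-- **The dichotomy.** -/
theorem Sys.main [Fintype F] [NeZero k] (h : Sys G M) (hodd : Odd t) (hk : Nat.card F = 3 → 4 ≤ k) :
    (∀ g ∈ M, ∃ (cs : Fin t → GL (Fin k) F) (π : Equiv.Perm (Fin t)),
      (g : Matrix (Fin t → Fin k) (Fin t → Fin k) F) =
        pureMat (fun i => (cs i : Matrix (Fin k) (Fin k) F)) * factorPerm k π) ∨
    ∃ (μ : F) (y : Fin t → Fin k → F), μ ≠ 0 ∧ (∀ i, y i ≠ 0) ∧
      Root F M (μ • pureMat fun i => E G (y i)) := by
  classical
  rcases h.param_or_sites hk with ⟨j, c, Y, hc, hY, hroot⟩ | hsites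
  swap
  · exact Or.inl fun g hg => h.pure_of_sites (hsites g hg)
  refine Or.inr ?_
  have hcand : Cand G M {j} := by
    refine ⟨Finset.singleton_nonempty j, fun _ => c, emb j Y, fun _ _ => hc, fun e => ?_,
      fun i hi X => ?_, Or.inr fun a e => ?_, ?_⟩
    · exact hY 0 (emb_injective j (by rw [e, zero_smul, map_zero]))
    · rw [Finset.mem_singleton] at hi
      subst hi
      exact site_comm_emb i X Y
    · exact hY a (emb_injective j (by rw [e, map_smul, map_one]))
    · convert hroot using 2
      rw [site]
      congr 1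
      funext i
      by_cases hi : i = j
      · subst hi; simp
      · simp [hi]
  obtain ⟨T, hT, hmax⟩ := (Finset.univ.filter (Cand G M)).exists_max_image Finset.card
    ⟨{j}, by simp [hcand]⟩
  rw [Finset.mem_filter] at hT
  have hmax' : ∀ T', Cand G M T' → T'.card ≤ T.card := fun T' h' => hmax T' (by simp [h'])
  have hu := h.enlarge hodd hT.2 hmax'
  obtain ⟨l, z, D, X, hl, hz, -, hXT, -, -, -, hr⟩ := h.exists_shape hT.2 hmax'
  subst hu
  exact ⟨l, z, hl, fun i => hz i (Finset.mem_univ i), by
    rwa [show X = fun i => E G (z i) from funext fun i => hXT i (Finset.mem_univ i)] at hr⟩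

end Cfsg.Agent.MaxSub.TensorPowSp
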