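import Cfsg.Agent.MaxSub.TensorPowSp.Main

/-!
The stabiliser of a decomposition of `F^8` as the third tensor power of a symplectic plane is maximal
in `Sp₈(F)`.
-/

set_option autoImplicit false

namespace Cfsg.Agent.MaxSub.TensorPowSp

open Cfsg.Geo
open scoped MatrixGroups

/-- The tensor cube in dimension eight. -/
theorem spGL_tensorCube_maximal {F : Type*} [Field F] [Fintype F] (hodd : Odd (Fintype.card F))
    (h5 : 5 ≤ Fintype.card F) (e : (Fin 4 ⊕ Fin 4) ≃ (Fin 3 → Fin 2)) (P : GL (Fin 4 ⊕ Fin 4) F)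
    (f₁ : (Fin 2 → F) → (Fin 2 → F) → F) (hf₁ : IsSymplecticForm f₁)
    (hT : IsTensorPowerFormStructure id (Cfsg.sympForm 4 F) f₁ e P) :
    IsMaximalIn (Cfsg.spGL 4 F) (tensorWreathSubgroup 2 3 e P ⊓ Cfsg.spGL 4 F) :=
  symplectic_tensorPower_maximal' (by omega) hodd 2 3 (by decide) le_rfl (fun h => by omega) e P f₁
    hf₁ hT

end Cfsg.Agent.MaxSub.TensorPowSp
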