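import Cfsg.Agent.MaxSub.TensorPowSp.Shape

/-!
The set of transvection sites of a pure root element can be enlarged until it is everything.
-/

set_option autoImplicit false
set_option linter.unusedSectionVars false
set_option linter.unusedSimpArgs false

namespace Cfsg.Agent.MaxSub.TensorPowSp

open Matrix Cfsg.Agent.NotMax Cfsg.Agent.GeoClasses

variable {F : Type*} [Field F] {k t : ℕ}

/-- Isometries of one site which lie in the group at every site. -/
structure Good (G : Matrix (Fin k) (Fin k) F) (M : Subgroup (GL (Fin t → Fin k) F))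
    (h : GL (Fin k) F) : Prop where
  iso : ((h : Matrix (Fin k) (Fin k) F))ᵀ * G * (h : Matrix (Fin k) (Fin k) F) = G
  mem : ∀ l : Fin t, glPure (Function.update (1 : Fin t → GL (Fin k) F) l h) ∈ M

lemma glPure_mul (cs ds : Fin t → GL (Fin k) F) : glPure cs * glPure ds = glPure (cs * ds) := by
  apply Units.ext
  show pureMat _ * pureMat _ = pureMat _
  rw [pureMat_mul]
  rfl

lemma glPure_one : glPure (1 : Fin t → GL (Fin k) F) = 1 := by
  apply Units.ext
  show pureMat _ = 1
  exact pureMat_one k t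

variable {G : Matrix (Fin k) (Fin k) F} {M : Subgroup (GL (Fin t → Fin k) F)}

lemma Good.one : Good G M (1 : GL (Fin k) F) :=
  ⟨by simp, fun l => by
    rw [show Function.update (1 : Fin t → GL (Fin k) F) l 1 = 1 from Function.update_eq_self l 1, glPure_one]
    exact one_mem M⟩

lemma Good.mul {a b : GL (Fin k) F} (ha : Good G M a) (hb : Good G M b) : Good G M (a * b) := by
  refine ⟨?_, fun l => ?_⟩
  · rw [Units.val_mul, transpose_mul,
      show (b : Matrix (Fin k) (Fin k) F)ᵀ * (a : Matrix (Fin k) (Fin k) F)ᵀ * G * ((a : Matrix (Fin k) (Fin k) F) * b)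
        = (b : Matrix (Fin k) (Fin k) F)ᵀ * ((a : Matrix (Fin k) (Fin k) F)ᵀ * G * a) * b by
        simp only [mul_assoc], ha.iso, hb.iso]
  · have := mul_mem (ha.mem l) (hb.mem l)
    rwa [glPure_mul, ← Function.update_mul, mul_one] at this

lemma glPure_mem (hs : Fin t → GL (Fin k) F) (h : ∀ i, Good G M (hs i)) : glPure hs ∈ M := by
  classical
  suffices key : ∀ U : Finset (Fin t), glPure (fun i => if i ∈ U then hs i else 1) ∈ M by
    simpa using key Finset.univ
  intro U
  induction U using Finset.induction with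
  | empty =>
    have : (fun i : Fin t => if i ∈ (∅ : Finset (Fin t)) then hs i else 1) = 1 := by funext i; simp
    rw [this, glPure_one]; exact one_mem M
  | insert j U hj ih =>
    have := mul_mem ((h j).mem j) ih
    rw [glPure_mul] at this
    convert this using 2
    funext i
    by_cases hi : i = j
    · subst hi; simp [hj]
    · simp [hi]

namespace Sys

variable [NeZero k] (h : Sys G M)
include h

lemma good_transv (u : Fin k → F) (s : F) :
    ∃ g : GL (Fin k) F, Good G M g ∧ (g : Matrix (Fin k) (Fin k) F) = 1 + s • E G u ∧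
      ((g⁻¹ : GL (Fin k) F) : Matrix (Fin k) (Fin k) F) = 1 - s • E G u := by
  have hsq : (s • E G u) * (s • E G u) = 0 := by rw [smul_mul_smul_comm, h.E_sq, smul_zero]
  let g : GL (Fin k) F :=
    { val := 1 + s • E G u
      inv := 1 - s • E G u
      val_inv := by rw [mul_sub, mul_one, add_mul, one_mul, hsq]; abel
      inv_val := by rw [mul_add, mul_one, sub_mul, one_mul, hsq]; abel }
  refine ⟨g, ⟨?_, fun l => ?_⟩, rfl, rfl⟩
  · have hGv : G *ᵥ u = -(u ᵥ* G) := by rw [← vecMul_transpose, h.skew, vecMul_neg]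
    have e1 : (E G u)ᵀ * G + G * E G u = 0 := by
      rw [E, transpose_vecMulVec, vecMulVec_mul, mul_vecMulVec, hGv, neg_vecMulVec, add_neg_cancel]
    have e2 : (E G u)ᵀ * G * E G u = 0 := by
      rw [eq_neg_of_add_eq_zero_left e1, neg_mul, mul_assoc, h.E_sq, mul_zero, neg_zero]
    show (1 + s • E G u)ᵀ * G * (1 + s • E G u) = G
    rw [transpose_add, transpose_one, transpose_smul, add_mul, one_mul, mul_add, mul_one, add_mul,
      smul_mul_assoc, smul_mul_smul_comm, e2, smul_zero, add_zero, mul_smul_comm, add_assoc,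
      ← smul_add, e1, smul_zero, add_zero]
  · obtain ⟨x, hx, hxe⟩ := h.rootE l u s
    convert hx using 1
    apply Units.ext
    show pureMat _ = _
    rw [hxe, ← site_smul, ← site_one (F := F) (k := k) l, ← site_add, site]
    congr 1
    funext i
    by_cases hi : i = l
    · subst hi; simp [g]
    · simp [hi]

/-- Good isometries act transitively on non-zero vectors. -/
lemma exists_move {z x : Fin k → F} (hz : z ≠ 0) (hx : x ≠ 0) :
    ∃ g : GL (Fin k) F, Good G M g ∧ (g : Matrix (Fin k) (Fin k) F) *ᵥ z = x := by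
  have key : ∀ a b : Fin k → F, fG G a b ≠ 0 →
      ∃ g : GL (Fin k) F, Good G M g ∧ (g : Matrix (Fin k) (Fin k) F) *ᵥ a = b := by
    intro a b hab
    obtain ⟨g, hg, hge, -⟩ := h.good_transv (b - a) (fG G b a)⁻¹
    refine ⟨g, hg, ?_⟩
    rw [hge, add_mulVec, one_mulVec, smul_mulVec, E_mulVec, fG_sub_left, h.fG_self, sub_zero, smul_smul,
      inv_mul_cancel₀ (by rw [h.fG_swap]; exact neg_ne_zero.2 hab), one_smul, add_sub_cancel]
  obtain ⟨w, h1, h2⟩ := h.exists_common hz hx
  obtain ⟨g1, hg1, e1⟩ := key z w h1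
  obtain ⟨g2, hg2, e2⟩ := key w x (by rw [h.fG_swap]; exact neg_ne_zero.2 h2)
  exact ⟨g2 * g1, hg2.mul hg1, by rw [Units.val_mul, ← mulVec_mulVec, e1, e2]⟩

lemma conj_E {g : GL (Fin k) F} (hg : Good G M g) (z : Fin k → F) :
    (g : Matrix (Fin k) (Fin k) F) * E G z * ((g⁻¹ : GL (Fin k) F) : Matrix (Fin k) (Fin k) F) =
      E G ((g : Matrix (Fin k) (Fin k) F) *ᵥ z) := by
  have e : z ᵥ* G = (((g : Matrix (Fin k) (Fin k) F) *ᵥ z) ᵥ* G) ᵥ* (g : Matrix (Fin k) (Fin k) F) := by
    conv_lhs => rw [← hg.iso]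
    rw [← vecMul_vecMul, ← vecMul_vecMul, vecMul_transpose]
  rw [E, E, e, mul_vecMulVec, vecMulVec_mul, vecMul_vecMul, Units.mul_inv, vecMul_one]

lemma fG_adj {Y : Matrix (Fin k) (Fin k) F} (hY : Yᵀ * G = G * Y) (a b : Fin k → F) :
    fG G a (Y *ᵥ b) = fG G (Y *ᵥ a) b := by
  rw [fG, fG, ← vecMul_transpose Y a, vecMul_vecMul, hY, ← vecMul_vecMul, dotProduct_mulVec]

lemma fG_adj_self {Y : Matrix (Fin k) (Fin k) F} (hY : Yᵀ * G = G * Y) (a : Fin k → F) :
    fG G a (Y *ᵥ a) = 0 := by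
  have e : (2 : F) * fG G a (Y *ᵥ a) = 0 := by
    linear_combination h.fG_adj hY a a + h.fG_swap a (Y *ᵥ a)
  exact (mul_eq_zero.1 e).resolve_left h.two

lemma adj_conj {g : GL (Fin k) F} (hg : Good G M g) {Y : Matrix (Fin k) (Fin k) F} (hY : Yᵀ * G = G * Y) :
    ((g : Matrix (Fin k) (Fin k) F) * Y * ((g⁻¹ : GL (Fin k) F) : Matrix (Fin k) (Fin k) F))ᵀ * G =
      G * ((g : Matrix (Fin k) (Fin k) F) * Y * ((g⁻¹ : GL (Fin k) F) : Matrix (Fin k) (Fin k) F)) := by
  set gm := (g : Matrix (Fin k) (Fin k) F)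
  set gi := ((g⁻¹ : GL (Fin k) F) : Matrix (Fin k) (Fin k) F)
  have h1 : gmᵀ * G = G * gi := by
    calc gmᵀ * G = gmᵀ * G * (gm * gi) := by rw [Units.mul_inv, mul_one]
      _ = G * gi := by rw [← mul_assoc, hg.iso]
  have h2 : giᵀ * G = G * gm := by
    calc giᵀ * G = giᵀ * (gmᵀ * G * gm) := by rw [hg.iso]
      _ = (gm * gi)ᵀ * (G * gm) := by rw [transpose_mul]; simp only [mul_assoc]
      _ = G * gm := by rw [Units.mul_inv, transpose_one, one_mul]
  rw [transpose_mul, transpose_mul, mul_assoc, mul_assoc, h1, ← mul_assoc Yᵀ, hY, ← mul_assoc, ← mul_assoc,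
    h2]
  simp only [mul_assoc]

/-- The product conditions at a transvection site against an adjoint site. -/
lemma cross_site {z : Fin k → F} {Y : Matrix (Fin k) (Fin k) F} (hY : Yᵀ * G = G * Y)
    (hY2 : Y * Y = 0 ∨ Y = 1) (hz : z ≠ 0) (hYz : Y *ᵥ z ≠ 0) :
    (E G z * Y * (E G z * Y) = 0 ∧ E G z * Y * (Y * E G z) = 0 ∧ Y * E G z * (E G z * Y) = 0 ∧
      Y * E G z * (Y * E G z) = 0) ∧ E G z * Y * E G z = 0 ∧
    ∃ v, fG G v ((E G z * Y) *ᵥ v) = fG G v ((Y * E G z) *ᵥ v) ∧
      fG G v ((E G z * Y) *ᵥ v) ≠ 0 := by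
  have hEYE : E G z * Y * E G z = 0 := by rw [E_mul_E, h.fG_adj_self hY, zero_smul]
  have hEE : ∀ Z, E G z * (E G z * Z) = 0 := fun Z => by rw [← mul_assoc, h.E_sq, zero_mul]
  refine ⟨⟨?_, ?_, ?_, ?_⟩, hEYE, ?_⟩
  · rw [← mul_assoc, hEYE, zero_mul]
  · rcases hY2 with e | e
    · rw [mul_assoc, ← mul_assoc Y Y, e, zero_mul, mul_zero]
    · rw [e, mul_one, one_mul, h.E_sq]
  · rw [mul_assoc, hEE, mul_zero]
  · rw [mul_assoc, ← mul_assoc (E G z), hEYE, mul_zero]
  obtain ⟨v, h1, h2⟩ := h.exists_common hz hYz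
  have hb : fG G v ((Y * E G z) *ᵥ v) = fG G z v * fG G v (Y *ᵥ z) := by
    rw [← mulVec_mulVec, E_mulVec, mulVec_smul, fG_smul_right]
  have ha : fG G v ((E G z * Y) *ᵥ v) = fG G (Y *ᵥ z) v * fG G v z := by
    rw [← mulVec_mulVec, E_mulVec, fG_smul_right, h.fG_adj hY]
  refine ⟨v, ?_, ?_⟩
  · rw [ha, hb, h.fG_swap v (Y *ᵥ z), h.fG_swap v z]; ring
  · rw [ha]
    exact mul_ne_zero h2 (by rw [h.fG_swap]; exact neg_ne_zero.2 h1)

/-- Equal kinds: the two products have opposite values. -/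
lemma fixed_site {X : Matrix (Fin k) (Fin k) F}
    (hX : (∃ z, z ≠ 0 ∧ X = E G z) ∨ IsW G X) :
    ∃ (g : GL (Fin k) F) (v : Fin k → F), Good G M g ∧
      fG G v ((X * ((g : Matrix (Fin k) (Fin k) F) * X * ((g⁻¹ : GL (Fin k) F) : Matrix (Fin k) (Fin k) F))) *ᵥ v) =
        -fG G v ((((g : Matrix (Fin k) (Fin k) F) * X * ((g⁻¹ : GL (Fin k) F) : Matrix (Fin k) (Fin k) F)) * X) *ᵥ v) ∧
      fG G v ((X * ((g : Matrix (Fin k) (Fin k) F) * X * ((g⁻¹ : GL (Fin k) F) : Matrix (Fin k) (Fin k) F))) *ᵥ v) ≠ 0 := by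
  rcases hX with ⟨z, hz, rfl⟩ | hW
  · obtain ⟨u, hu⟩ := h.exists_fG_eq_one hz
    have hu0 : u ≠ 0 := fun e => by simp [e, fG] at hu
    obtain ⟨g, hg, hge⟩ := h.exists_move hz hu0
    obtain ⟨v, h1, h2⟩ := h.exists_common hz hu0
    refine ⟨g, v, hg, ?_, ?_⟩
    · rw [h.conj_E hg, hge]
      simp only [← mulVec_mulVec, E_mulVec, mulVec_smul, fG_smul_right]
      rw [h.fG_swap z v, h.fG_swap u v, h.fG_swap z u]; ring
    · rw [h.conj_E hg, hge]
      simp only [← mulVec_mulVec, E_mulVec, mulVec_smul, fG_smul_right]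
      rw [hu, h.fG_swap z v]
      exact mul_ne_zero h2 (mul_ne_zero one_ne_zero (neg_ne_zero.2 h1))
  · obtain ⟨u, hu⟩ : ∃ u, X *ᵥ u ≠ 0 := by
      by_contra hno
      push Not at hno
      exact hW.ne (Matrix.ext_of_mulVec_single fun i => by rw [hno, zero_mulVec])
    obtain ⟨g, hg, hge, hgi⟩ := h.good_transv u 1
    obtain ⟨v, hv⟩ := h.exists_fG_eq_one hu
    rw [one_smul] at hge hgi
    have hEXE : E G u * X * E G u = 0 := by rw [E_mul_E, h.fG_adj_self hW.adj, zero_smul]
    have hX' : (g : Matrix (Fin k) (Fin k) F) * X * ((g⁻¹ : GL (Fin k) F) : Matrix (Fin k) (Fin k) F) =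
        X + E G u * X - X * E G u := by
      rw [hge, hgi, add_mul, one_mul, mul_sub, mul_one, add_mul, hEXE]; abel
    have e1 : X * (X + E G u * X - X * E G u) = X * E G u * X := by
      rw [mul_sub, mul_add, hW.sq, ← mul_assoc X X, hW.sq]
      simp [mul_assoc]
    have e2 : (X + E G u * X - X * E G u) * X = -(X * E G u * X) := by
      rw [sub_mul, add_mul, hW.sq, mul_assoc (E G u), hW.sq]
      simp [mul_assoc]
    refine ⟨g, v, hg, ?_, ?_⟩
    · rw [hX', e1, e2, neg_mulVec, show -((X * E G u * X) *ᵥ v) = (-1 : F) • ((X * E G u * X) *ᵥ v) by simp,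
        fG_smul_right]
      ring
    · rw [hX', e1]
      simp only [← mulVec_mulVec, E_mulVec, mulVec_smul, fG_smul_right]
      rw [h.fG_adj hW.adj, hv, one_mul, h.fG_swap (X *ᵥ u) v, hv]
      exact neg_ne_zero.2 one_ne_zero

/-- One step of enlargement along a given involution. -/
theorem enlarge_of_perm {T D U : Finset (Fin t)} {z : Fin t → Fin k → F}
    {X : Fin t → Matrix (Fin k) (Fin k) F} {l : F} (hl : l ≠ 0) (hz : ∀ i ∈ T, z i ≠ 0)
    (hXT : ∀ i ∈ T, X i = E G (z i)) (hXD : ∀ i ∈ D, IsW G (X i))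
    (hX1 : ∀ i, i ∉ T → i ∉ D → X i = 1) (hroot : Root F M (l • pureMat X))
    (π : Equiv.Perm (Fin t)) (hπ : ∀ i, π (π i) = i)
    (hfix : ∀ i ∈ U, π i = i → i ∈ T ∨ i ∈ D)
    (hmove : ∀ i, π i ≠ i → i ∈ U ∧ (i ∈ T ↔ π i ∉ T))
    (hout : ∀ i, i ∉ U → i ∉ T ∧ i ∉ D)
    (hcount : Odd (U.filter fun i => π i = i).card) (j : Fin t) (hj : π j ≠ j) (hjT : j ∈ T) :
    ∃ (μ : F) (v : Fin t → Fin k → F), μ ≠ 0 ∧ (∀ i ∈ U, v i ≠ 0) ∧
      Root F M (μ • pureMat fun i => if i ∈ U then E G (v i) else 1) := by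
  classical
  have hadj : ∀ i, i ∉ T → (X i)ᵀ * G = G * X i ∧ (X i * X i = 0 ∨ X i = 1) ∧ X i ≠ 0 := by
    intro i hiT
    by_cases hiD : i ∈ D
    · exact ⟨(hXD i hiD).adj, Or.inl (hXD i hiD).sq, (hXD i hiD).ne⟩
    · rw [hX1 i hiT hiD]; exact ⟨by simp, Or.inr rfl, one_ne_zero⟩
  let rel := fun (Z Z' : Matrix (Fin k) (Fin k) F) (v : Fin k → F) (fixed : Prop) =>
    (fixed → fG G v ((Z * Z') *ᵥ v) = -fG G v ((Z' * Z) *ᵥ v)) ∧
    (¬ fixed → fG G v ((Z * Z') *ᵥ v) = fG G v ((Z' * Z) *ᵥ v) ∧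
      Z * Z' * (Z * Z') = 0 ∧ Z * Z' * (Z' * Z) = 0 ∧ Z' * Z * (Z * Z') = 0 ∧ Z' * Z * (Z' * Z) = 0) ∧
    fG G v ((Z * Z') *ᵥ v) ≠ 0
  have hchoice : ∀ i, ∃ (g : GL (Fin k) F) (v : Fin k → F), Good G M g ∧
      (i ∈ U → rel (X i) ((g : Matrix (Fin k) (Fin k) F) * X (π i) *
        ((g⁻¹ : GL (Fin k) F) : Matrix (Fin k) (Fin k) F)) v (π i = i)) ∧ (i ∉ U → g = 1) ∧
      (π i ≠ i → i ∈ T → X i * ((g : Matrix (Fin k) (Fin k) F) * X (π i) *
        ((g⁻¹ : GL (Fin k) F) : Matrix (Fin k) (Fin k) F)) * X i = 0) ∧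
      (π i ≠ i → i ∉ T → ((g : Matrix (Fin k) (Fin k) F) * X (π i) *
        ((g⁻¹ : GL (Fin k) F) : Matrix (Fin k) (Fin k) F)) * X i * ((g : Matrix (Fin k) (Fin k) F) * X (π i) *
        ((g⁻¹ : GL (Fin k) F) : Matrix (Fin k) (Fin k) F)) = 0) := by
    intro i
    by_cases hiU : i ∈ U
    swap
    · exact ⟨1, 0, Good.one, fun e => absurd e hiU, fun _ => rfl,
        fun e => absurd (hmove i e).1 hiU, fun e => absurd (hmove i e).1 hiU⟩
    by_cases hif : π i = i
    · have hk : (∃ w, w ≠ 0 ∧ X i = E G w) ∨ IsW G (X i) := by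
        rcases hfix i hiU hif with e | e
        exacts [Or.inl ⟨z i, hz i e, hXT i e⟩, Or.inr (hXD i e)]
      obtain ⟨g, v, hg, e1, e2⟩ := h.fixed_site hk
      rw [hif]
      exact ⟨g, v, hg, fun _ => ⟨fun _ => e1, fun e => absurd rfl e, e2⟩, fun e => absurd hiU e,
        fun e => absurd rfl e, fun e => absurd rfl e⟩
    have hiff := (hmove i hif).2
    by_cases hiT : i ∈ T
    · obtain ⟨hY, hY2, hY0⟩ := hadj _ (hiff.1 hiT)
      obtain ⟨x, hx⟩ : ∃ x, X (π i) *ᵥ x ≠ 0 := by
        by_contra hno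
        push Not at hno
        exact hY0 (Matrix.ext_of_mulVec_single fun a => by rw [hno, zero_mulVec])
      have hx0 : x ≠ 0 := fun e => hx (by rw [e, mulVec_zero])
      obtain ⟨g, hg, hge⟩ := h.exists_move hx0 (hz i hiT)
      set Y := (g : Matrix (Fin k) (Fin k) F) * X (π i) * ((g⁻¹ : GL (Fin k) F) : Matrix (Fin k) (Fin k) F)
        with hYdef
      have hY2' : Y * Y = 0 ∨ Y = 1 := by
        rcases hY2 with e | e
        · left
          simp only [hYdef, mul_assoc, Units.inv_mul_cancel_left]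
          rw [← mul_assoc (X (π i)) (X (π i)), e, zero_mul, mul_zero]
        · right; rw [hYdef, e, mul_one, Units.mul_inv]
      have hYz : Y *ᵥ z i ≠ 0 := by
        rw [hYdef, ← hge, mulVec_mulVec, mul_assoc _ _ (g : Matrix (Fin k) (Fin k) F), Units.inv_mul, mul_one,
          ← mulVec_mulVec]
        intro e
        have := congrArg (((g⁻¹ : GL (Fin k) F) : Matrix (Fin k) (Fin k) F) *ᵥ ·) e
        simp only [mulVec_mulVec, mulVec_zero] at this
        rw [← mul_assoc, Units.inv_mul, one_mul] at this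
        exact hx this
      obtain ⟨⟨p1, p2, p3, p4⟩, hEYE, v, e1, e2⟩ := h.cross_site (h.adj_conj hg hY) hY2' (hz i hiT) hYz
      rw [← hXT i hiT] at p1 p2 p3 p4 hEYE e1 e2
      exact ⟨g, v, hg, fun _ => ⟨fun e => absurd e hif, fun _ => ⟨e1, p1, p2, p3, p4⟩, e2⟩,
        fun e => absurd hiU e, fun _ _ => hEYE, fun _ e => absurd hiT e⟩
    · have hπT : π i ∈ T := by
        by_contra e
        exact hiT (hiff.2 e)
      obtain ⟨hY, hY2, hY0⟩ := hadj i hiT
      obtain ⟨x, hx⟩ : ∃ x, X i *ᵥ x ≠ 0 := by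
        by_contra hno
        push Not at hno
        exact hY0 (Matrix.ext_of_mulVec_single fun a => by rw [hno, zero_mulVec])
      have hx0 : x ≠ 0 := fun e => hx (by rw [e, mulVec_zero])
      obtain ⟨g, hg, hge⟩ := h.exists_move (hz _ hπT) hx0
      obtain ⟨⟨p1, p2, p3, p4⟩, hEYE, v, e1, e2⟩ := h.cross_site hY hY2 hx0 hx
      have he : (g : Matrix (Fin k) (Fin k) F) * X (π i) * ((g⁻¹ : GL (Fin k) F) : Matrix (Fin k) (Fin k) F) =
          E G x := by rw [hXT _ hπT, h.conj_E hg, hge]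
      refine ⟨g, v, hg, fun _ => ?_, fun e => absurd hiU e, fun _ e => absurd e hiT, fun _ _ => ?_⟩
      · rw [he]
        exact ⟨fun e => absurd e hif, fun _ => ⟨e1.symm, p4, p3, p2, p1⟩, e1 ▸ e2⟩
      · rw [he]; exact hEYE
  choose g v hg hrel hone hsandT hsandF using hchoice
  set X' : Fin t → Matrix (Fin k) (Fin k) F := fun i =>
    (g i : Matrix (Fin k) (Fin k) F) * X (π i) * ((g i)⁻¹ : GL (Fin k) F) with hX'
  have hπs : π.symm = π := Equiv.ext fun i => by
    rw [Equiv.symm_apply_eq, hπ]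
  have hroot' : Root F M (l • pureMat X') := by
    have ht3 : 3 ≤ t := by
      obtain ⟨i, hi⟩ := Finset.card_pos.1 hcount.pos
      rw [Finset.mem_filter] at hi
      have h1 : i ≠ j := fun e => hj (e ▸ hi.2)
      have h2 : i ≠ π j := fun e => hj (by have he := hi.2; rw [e, hπ] at he; exact he.symm)
      have hcard : ({i, j, π j} : Finset (Fin t)).card = 3 :=
        Finset.card_eq_three.2 ⟨i, j, π j, h1, h2, Ne.symm hj, rfl⟩
      have := Finset.card_le_univ ({i, j, π j} : Finset (Fin t))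
      rwa [hcard, Fintype.card_fin] at this
    have hm : glPure g * glFactorPerm k π ∈ M := mul_mem (glPure_mem g hg) (h.perm ht3 π)
    have := hroot.conj hm
    convert this using 1
    rw [mul_smul_comm, smul_mul_assoc]
    congr 1
    rw [Units.eq_mul_inv_iff_mul_eq, Units.val_mul]
    show pureMat X' * (pureMat _ * factorPerm k π) = pureMat _ * factorPerm k π * pureMat X
    have hswap : (factorPerm k π : Matrix (Fin t → Fin k) (Fin t → Fin k) F) * pureMat X =
        pureMat (fun i => X (π i)) * factorPerm k π := by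
      rw [pureMat_mul_factorPerm]
      congr 2
      funext i
      rw [hπ]
    rw [mul_assoc (pureMat _) (factorPerm k π), hswap, ← mul_assoc, ← mul_assoc, pureMat_mul, pureMat_mul]
    congr 2
    funext i
    simp [hX', mul_assoc]
  have hjU := (hmove j hj).1
  have hπj : π (π j) ≠ π j := by rw [hπ]; exact fun e => hj e.symm
  have hπjT : π j ∉ T := (hmove j hj).2.1 hjT
  have hπjU := (hmove (π j) hπj).1
  have hneq : ∏ i ∈ U, fG G (v i) ((X i * X' i) *ᵥ v i) ≠ ∏ i ∈ U, fG G (v i) ((X' i * X i) *ᵥ v i) := by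
    have hprod : ∏ i ∈ U, fG G (v i) ((X' i * X i) *ᵥ v i) =
        ∏ i ∈ U, ((if π i = i then (-1 : F) else 1) * fG G (v i) ((X i * X' i) *ᵥ v i)) := by
      refine Finset.prod_congr rfl fun i hi => ?_
      by_cases e : π i = i
      · rw [if_pos e, (hrel i hi).1 e]; ring
      · rw [if_neg e, one_mul]; exact ((hrel i hi).2.1 e).1.symm
    rw [hprod, Finset.prod_mul_distrib, Finset.prod_ite, Finset.prod_const_one, mul_one, Finset.prod_const,
      hcount.neg_one_pow, neg_one_mul]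
    intro e
    have h0 : (2 : F) * ∏ i ∈ U, fG G (v i) ((X i * X' i) *ᵥ v i) = 0 := by linear_combination e
    exact (mul_ne_zero h.two (Finset.prod_ne_zero_iff.2 fun i hi => (hrel i hi).2.2)) h0
  obtain ⟨μ, hμ, hfin⟩ := h.grow hl hroot hroot' U v (fun i hi => by
      obtain ⟨h1, h2⟩ := hout i hi
      have hif : π i = i := by by_contra e; exact hi (hmove i e).1
      simp only [hX', hif, hX1 i h1 h2, hone i hi]
      simp) (p := j) (q := π j) (fun e => hj e.symm)
    (by
      rintro i (rfl | rfl)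
      · exact (((hrel _ hjU).2.1) hj).2
      · exact (((hrel _ hπjU).2.1) hπj).2)
    ⟨j, by rw [hXT j hjT, h.E_sq]⟩
    ⟨π j, by
      simp only [hX', hπ, hXT j hjT, mul_assoc, Units.inv_mul_cancel_left]
      rw [← mul_assoc (E G (z j)), h.E_sq, zero_mul, mul_zero]⟩
    (hsandT j hj hjT) (hsandF (π j) hπj hπjT) hneq
  refine ⟨μ, v, hμ, fun i hi e => ?_, hfin⟩
  exact (hrel i hi).2.2 (by rw [e]; simp [fG])

/-- A pure shape has odd transvection set. -/
lemma odd_card {T D : Finset (Fin t)} {z : Fin t → Fin k → F} {X : Fin t → Matrix (Fin k) (Fin k) F}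
    {l : F} (hl : l ≠ 0) (hz : ∀ i ∈ T, z i ≠ 0) (hXT : ∀ i ∈ T, X i = E G (z i))
    (hXD : ∀ i ∈ D, IsW G (X i)) (hX1 : ∀ i, i ∉ T → i ∉ D → X i = 1)
    (hroot : Root F M (l • pureMat X)) : Odd T.card := by
  classical
  have hside : ∀ i, (X i)ᵀ * G = (if i ∈ T then (-1 : F) else 1) • (G * X i) := by
    intro i
    by_cases hi : i ∈ T
    · have hGv : G *ᵥ z i = -(z i ᵥ* G) := by rw [← vecMul_transpose, h.skew, vecMul_neg]
      rw [if_pos hi, hXT i hi, E, transpose_vecMulVec, vecMulVec_mul, mul_vecMulVec, hGv, neg_vecMulVec,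
        neg_one_smul, neg_neg]
    · rw [if_neg hi, one_smul]
      by_cases hD : i ∈ D
      · exact (hXD i hD).adj
      · rw [hX1 i hi hD]; simp
  have hsk := h.root_skew hroot
  rw [transpose_smul, smul_mul_assoc, mul_smul_comm, ← smul_add, smul_eq_zero] at hsk
  have hs := hsk.resolve_left hl
  rw [gV, pureMat_transpose, pureMat_mul, pureMat_mul] at hs
  simp only [hside] at hs
  rw [pureMat_smul, Finset.prod_ite, Finset.prod_const_one, mul_one, Finset.prod_const] at hs
  simp only [Finset.filter_mem_eq_inter, Finset.univ_inter] at hs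
  by_contra hev
  rw [Nat.not_odd_iff_even] at hev
  rw [hev.neg_one_pow, one_smul, ← two_smul F, smul_eq_zero] at hs
  refine pureMat_ne_zero _ (fun i e => ?_) (hs.resolve_left h.two)
  have hXi : X i = 0 := by
    have := congrArg (fun D => G⁻¹ * D) e
    simpa [← mul_assoc, Matrix.nonsing_inv_mul _ h.det] using this
  by_cases hi : i ∈ T
  · exact h.E_ne_zero (hz i hi) (hXT i hi ▸ hXi)
  by_cases hD : i ∈ D
  · exact (hXD i hD).ne hXi
  exact one_ne_zero (hX1 i hi hD ▸ hXi)

/-- **Enlargement.** -/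
theorem enlarge (hodd : Odd t) {T : Finset (Fin t)} (hT : Cand G M T) (hmax : ∀ T', Cand G M T' → T'.card ≤ T.card) :
    T = Finset.univ := by
  classical
  by_contra hne
  obtain ⟨l, z, D, X, hl, hz, hdis, hXT, hXD, hX1, hsize, hroot⟩ := h.exists_shape hT hmax
  have hr := h.odd_card hl hz hXT hXD hX1 hroot
  obtain ⟨j, hj⟩ := hT.1
  have hfinish : ∀ (U : Finset (Fin t)) (π : Equiv.Perm (Fin t)), (∀ i, π (π i) = i) →
      (∀ i ∈ U, π i = i → i ∈ T ∨ i ∈ D) → (∀ i, π i ≠ i → i ∈ U ∧ (i ∈ T ↔ π i ∉ T)) →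
      (∀ i, i ∉ U → i ∉ T ∧ i ∉ D) → Odd (U.filter fun i => π i = i).card → π j ≠ j →
      T.card < U.card → False := by
    intro U π h1 h2 h3 h4 h5 h6 hU
    obtain ⟨μ, v, hμ, hv, hfin⟩ := h.enlarge_of_perm hl hz hXT hXD hX1 hroot π h1 h2 h3 h4 h5 j h6 hj
    have hTc := Finset.card_pos.2 hT.1
    have := hmax U ⟨Finset.card_pos.1 (by omega), v, μ • 1, hv, smul_ne_zero hμ one_ne_zero,
      fun i _ Z => (Commute.one_right _).smul_right μ, Or.inl (by omega),
      by rwa [mul_smul_comm, mul_one]⟩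
    omega
  have hTD := Finset.card_union_of_disjoint hdis
  have hjD : j ∉ D := Finset.disjoint_left.1 hdis hj
  have hTt : T.card < t := by
    have := Finset.card_lt_card ((Finset.ssubset_univ_iff).2 hne)
    simpa using this
  rcases Nat.even_or_odd D.card with hd | hd
  swap
  · obtain ⟨i, hi⟩ : ∃ i, i ∉ T ∪ D := by
      by_contra hno
      push Not at hno
      have := Finset.eq_univ_of_forall hno
      rw [this, Finset.card_univ, Fintype.card_fin] at hTD
      exact Nat.not_even_iff_odd.2 hodd (hTD ▸ hr.add_odd hd)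
    simp only [Finset.mem_union, not_or] at hi
    have hij : i ≠ j := fun e => hi.1 (e ▸ hj)
    refine hfinish (insert i (T ∪ D)) (Equiv.swap j i) (fun a => Equiv.swap_apply_self _ _ _) ?_ ?_ ?_ ?_ ?_ ?_
    · intro a ha hfx
      rcases Finset.mem_insert.1 ha with rfl | ha
      · simp at hfx; exact absurd hfx.symm hij
      · exact Finset.mem_union.1 ha
    · intro a ha
      rcases eq_or_ne a j with rfl | haj
      · simp [hj, hi.1]
      rcases eq_or_ne a i with rfl | hai
      · simp [hj, hi.1]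
      exact absurd (Equiv.swap_apply_of_ne_of_ne haj hai) ha
    · intro a ha
      simp only [Finset.mem_insert, Finset.mem_union, not_or] at ha
      exact ⟨ha.2.1, ha.2.2⟩
    · have : ((insert i (T ∪ D)).filter fun a => Equiv.swap j i a = a) = (T ∪ D).erase j := by
        ext a
        simp only [Finset.mem_filter, Finset.mem_insert, Finset.mem_erase, Finset.mem_union]
        rcases eq_or_ne a j with rfl | haj
        · simp [hij]
        rcases eq_or_ne a i with rfl | hai
        · simp [hij.symm, hi.1, hi.2]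
        simp [Equiv.swap_apply_of_ne_of_ne haj hai, haj, hai]
      rw [this, Finset.card_erase_of_mem (Finset.mem_union_left _ hj), hTD]
      exact Nat.Even.sub_odd (by have := hr.pos; omega) (hr.add_odd hd) odd_one
    · simp [hij]
    · rw [Finset.card_insert_of_notMem (by simp [hi.1, hi.2]), hTD]; omega
  rcases D.eq_empty_or_nonempty with rfl | hDne
  · have h2T : 2 ≤ T.card := hsize.resolve_right (by simp)
    obtain ⟨j2, hj2, hj2j⟩ := Finset.exists_mem_ne (s := T) (by omega) j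
    have hc : 2 ≤ (Finset.univ \ T).card := by
      rw [Finset.card_univ_diff, Fintype.card_fin]
      rcases hr with ⟨a, ha⟩
      rcases hodd with ⟨b, hb⟩
      omega
    obtain ⟨i, hi, i2, hi2, hii⟩ := Finset.one_lt_card.1 (show 1 < (Finset.univ \ T).card by omega)
    simp only [Finset.mem_sdiff, Finset.mem_univ, true_and] at hi hi2
    have hij : i ≠ j := fun e => hi (e ▸ hj)
    have hi2j : i2 ≠ j := fun e => hi2 (e ▸ hj)
    have hij2 : i ≠ j2 := fun e => hi (e ▸ hj2)
    have hi2j2 : i2 ≠ j2 := fun e => hi2 (e ▸ hj2)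
    set π : Equiv.Perm (Fin t) := Equiv.swap j i * Equiv.swap j2 i2 with hπ
    have pj : π j = i := by
      simp [hπ, Equiv.swap_apply_of_ne_of_ne hj2j.symm hi2j.symm]
    have pi : π i = j := by simp [hπ, Equiv.swap_apply_of_ne_of_ne hij2 hii]
    have pj2 : π j2 = i2 := by simp [hπ, Equiv.swap_apply_of_ne_of_ne hi2j hii.symm]
    have pi2 : π i2 = j2 := by simp [hπ, Equiv.swap_apply_of_ne_of_ne hj2j hij2.symm]
    have po : ∀ a, a ≠ j → a ≠ i → a ≠ j2 → a ≠ i2 → π a = a := fun a a1 a2 a3 a4 => by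
      simp [hπ, Equiv.swap_apply_of_ne_of_ne a3 a4, Equiv.swap_apply_of_ne_of_ne a1 a2]
    refine hfinish (insert i (insert i2 T)) π (fun a => ?_) ?_ ?_ ?_ ?_ (by rw [pj]; exact hij) ?_
    · rcases eq_or_ne a j with rfl | a1
      · rw [pj, pi]
      rcases eq_or_ne a i with rfl | a2
      · rw [pi, pj]
      rcases eq_or_ne a j2 with rfl | a3
      · rw [pj2, pi2]
      rcases eq_or_ne a i2 with rfl | a4
      · rw [pi2, pj2]
      rw [po a a1 a2 a3 a4, po a a1 a2 a3 a4]
    · intro a ha hfx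
      rcases Finset.mem_insert.1 ha with rfl | ha
      · rw [pi] at hfx; exact absurd hfx.symm hij
      rcases Finset.mem_insert.1 ha with rfl | ha
      · rw [pi2] at hfx; exact absurd hfx.symm hi2j2
      exact Or.inl ha
    · intro a ha
      rcases eq_or_ne a j with rfl | a1
      · simp [pj, hj, hi]
      rcases eq_or_ne a i with rfl | a2
      · simp [pi, hj, hi]
      rcases eq_or_ne a j2 with rfl | a3
      · simp [pj2, hj2, hi2]
      rcases eq_or_ne a i2 with rfl | a4
      · simp [pi2, hj2, hi2]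
      exact absurd (po a a1 a2 a3 a4) ha
    · intro a ha
      simp only [Finset.mem_insert, not_or] at ha
      exact ⟨ha.2.2, Finset.notMem_empty a⟩
    · have : ((insert i (insert i2 T)).filter fun a => π a = a) = (T.erase j).erase j2 := by
        ext a
        simp only [Finset.mem_filter, Finset.mem_insert, Finset.mem_erase]
        rcases eq_or_ne a j with rfl | a1
        · simp [pj, hij]
        rcases eq_or_ne a i with rfl | a2
        · simp [pi, hij.symm, hi]
        rcases eq_or_ne a j2 with rfl | a3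
        · simp [pj2, hi2j2]
        rcases eq_or_ne a i2 with rfl | a4
        · simp [pi2, hi2j2.symm, hi2]
        simp [po a a1 a2 a3 a4, a1, a2, a3, a4]
      rw [this, Finset.card_erase_of_mem (by simp [hj2, hj2j]), Finset.card_erase_of_mem hj]
      rcases hr with ⟨a, ha⟩
      exact ⟨a - 1, by omega⟩
    · rw [Finset.card_insert_of_notMem (by simp [hi, hii]), Finset.card_insert_of_notMem hi2]; omega
  obtain ⟨m, hm⟩ := hDne
  have hmT : m ∉ T := fun e => Finset.disjoint_left.1 hdis e hm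
  have hmj : m ≠ j := fun e => hmT (e ▸ hj)
  refine hfinish (T ∪ D) (Equiv.swap j m) (fun a => Equiv.swap_apply_self _ _ _)
    (fun a ha _ => Finset.mem_union.1 ha) ?_ ?_ ?_ ?_ ?_
  · intro a ha
    rcases eq_or_ne a j with rfl | haj
    · simp [hj, hmT]
    rcases eq_or_ne a m with rfl | ham
    · simp [hj, hmT, hm]
    exact absurd (Equiv.swap_apply_of_ne_of_ne haj ham) ha
  · intro a ha
    simpa using ha
  · have : ((T ∪ D).filter fun a => Equiv.swap j m a = a) = ((T ∪ D).erase j).erase m := by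
      ext a
      simp only [Finset.mem_filter, Finset.mem_erase, Finset.mem_union]
      rcases eq_or_ne a j with rfl | haj
      · simp [hmj]
      rcases eq_or_ne a m with rfl | ham
      · simp [hmj.symm]
      simp [Equiv.swap_apply_of_ne_of_ne haj ham, haj, ham]
    rw [this, Finset.card_erase_of_mem (by simp [hmj, hm]),
      Finset.card_erase_of_mem (Finset.mem_union_left _ hj), hTD]
    have := Finset.card_pos.2 ⟨m, hm⟩
    rcases hr with ⟨a, ha⟩
    rcases hd with ⟨b, hb⟩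
    exact ⟨a + b - 1, by omega⟩
  · simp [hmj]
  · rw [hTD]; have := Finset.card_pos.2 ⟨m, hm⟩; omega

end Sys

end Cfsg.Agent.MaxSub.TensorPowSp
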