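import Mathlib
import Cfsg.Agent.RootSub.SL2Gen.Basic

/-!
Two square zero elements `A`, `B` with `A * B * A = C * A`: the group generated by `1 + sA`, `1 + sB`
is parametrised by two by two matrices over a polynomial ring.
-/

set_option autoImplicit false
set_option linter.unusedSectionVars false

namespace Cfsg.Agent.MaxSub.TensorPowSp

open Polynomial Cfsg.Agent.RootSub.SL2Gen

variable {F : Type*} [Field F] {R : Type*} [Ring R] [Algebra F R]

/-- A pair of square zero elements with compression `C`. -/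
structure Pair (A B C : R) : Prop where
  sqA : A * A = 0
  sqB : B * B = 0
  aba : A * B * A = C * A
  comm : Commute C A

/-- Coordinates of a matrix which is scalar unitriangular modulo `X`. -/
structure Co (F : Type*) [Field F] where
  p : F
  a : F[X]
  q : F[X]
  r : F[X]
  d : F[X]

namespace Co

/-- The product of coordinates. -/
noncomputable def mul (S T : Co F) : Co F where
  p := S.p * T.p
  a := S.p • T.a + T.p • S.a + X * (S.a * T.a) + S.q * T.r
  q := S.p • T.q + T.p • S.q + X * (S.a * T.q) + X * (S.q * T.d)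
  r := S.p • T.r + T.p • S.r + X * (S.r * T.a) + X * (S.d * T.r)
  d := S.p • T.d + T.p • S.d + X * (S.d * T.d) + S.r * T.q

/-- The adjugate coordinates. -/
noncomputable def adj (T : Co F) : Co F := ⟨T.p, T.d, -T.q, -T.r, T.a⟩

/-- The matrix. -/
noncomputable def mat (T : Co F) : Matrix (Fin 2) (Fin 2) F[X] :=
  !![Polynomial.C T.p + X * T.a, T.q; X * T.r, Polynomial.C T.p + X * T.d]

lemma mat_mul (S T : Co F) : (S.mul T).mat = S.mat * T.mat := by
  ext i j : 1
  fin_cases i <;> fin_cases j <;>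
    simp [mat, mul, Matrix.mul_apply, Fin.sum_univ_two, Polynomial.smul_eq_C_mul] <;> ring

lemma mat_injective : Function.Injective (mat (F := F)) := by
  rintro ⟨p, a, q, r, d⟩ ⟨p', a', q', r', d'⟩ h
  have h00 : Polynomial.C p + X * a = Polynomial.C p' + X * a' := by
    simpa [mat] using congrFun (congrFun h 0) 0
  have h01 : q = q' := by simpa [mat] using congrFun (congrFun h 0) 1
  have h10 : X * r = X * r' := by simpa [mat] using congrFun (congrFun h 1) 0
  have h11 : Polynomial.C p + X * d = Polynomial.C p' + X * d' := by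
    simpa [mat] using congrFun (congrFun h 1) 1
  have hp : p = p' := by simpa using congrArg (Polynomial.coeff · 0) h00
  subst hp h01
  rw [mul_left_cancel₀ X_ne_zero (add_left_cancel h00), mul_left_cancel₀ X_ne_zero h10,
    mul_left_cancel₀ X_ne_zero (add_left_cancel h11)]

variable (A B : R)

/-- Evaluation. -/
noncomputable def ev (T : Co F) : R :=
  T.p • (1 : R) + aeval (A * B) (X * T.a) + aeval (A * B) T.q * A + aeval (B * A) T.r * B +
    aeval (B * A) (X * T.d)

end Co

variable {A B C : R}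

lemma aeval_semiconj (A B : R) (p : F[X]) : aeval (A * B) p * A = A * aeval (B * A) p := by
  induction p using Polynomial.induction_on' with
  | add a b ha hb => rw [map_add, map_add, add_mul, mul_add, ha, hb]
  | monomial n c =>
    rw [aeval_monomial, aeval_monomial, mul_assoc, ← mul_assoc A, ← Algebra.commutes c A, mul_assoc]
    congr 1
    exact (SemiconjBy.pow_right (show SemiconjBy A (B * A) (A * B) from by
      simp [SemiconjBy, mul_assoc]) n).eq.symm

lemma aeval_eq_divX (U : R) (p : F[X]) :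
    aeval U p = U * aeval U p.divX + p.coeff 0 • (1 : R) := by
  have := congrArg (aeval U) (Polynomial.X_mul_divX_add p)
  rw [map_add, map_mul, aeval_X, aeval_C, Algebra.algebraMap_eq_smul_one] at this
  exact this.symm

lemma mul_aeval_of_mul_eq_zero {U W : R} (h : W * U = 0) (p : F[X]) :
    W * aeval U p = p.coeff 0 • W := by
  rw [aeval_eq_divX, mul_add, ← mul_assoc, h, zero_mul, zero_add, mul_smul_comm, mul_one]

namespace Pair

variable (h : Pair A B C)
include h

lemma pow_mul (n : ℕ) : (A * B) ^ n * A = C ^ n * A := by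
  induction n with
  | zero => simp
  | succ n ih =>
    rw [pow_succ', mul_assoc, ih, (h.comm.pow_left n).eq, ← mul_assoc, h.aba, mul_assoc,
      ← (h.comm.pow_left n).eq, ← mul_assoc, ← pow_succ']

lemma aeval_mul (p : F[X]) : aeval (A * B) p * A = aeval C p * A := by
  induction p using Polynomial.induction_on' with
  | add a b ha hb => rw [map_add, map_add, add_mul, add_mul, ha, hb]
  | monomial n c => rw [aeval_monomial, aeval_monomial, mul_assoc, mul_assoc, h.pow_mul]

lemma ev_mul (S T : Co F) : (S.mul T).ev A B = S.ev A B * T.ev A B := by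
  have hAU : A * (A * B) = 0 := by rw [← mul_assoc, h.sqA, zero_mul]
  have hBV : B * (B * A) = 0 := by rw [← mul_assoc, h.sqB, zero_mul]
  have hUV : A * B * (B * A) = 0 := by rw [mul_assoc, hBV, mul_zero]
  have hVU : B * A * (A * B) = 0 := by rw [mul_assoc, hAU, mul_zero]
  have hUB : A * B * B = 0 := by rw [mul_assoc, h.sqB, mul_zero]
  have hVA : B * A * A = 0 := by rw [mul_assoc, h.sqA, mul_zero]
  have eU : ∀ a : F[X], aeval (A * B) (X * a) = aeval (A * B) a * (A * B) := fun a => by
    rw [mul_comm X a, map_mul, aeval_X]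
  have eV : ∀ a : F[X], aeval (B * A) (X * a) = aeval (B * A) a * (B * A) := fun a => by
    rw [mul_comm X a, map_mul, aeval_X]
  have sA : ∀ p : F[X], aeval (A * B) p * A = A * aeval (B * A) p := aeval_semiconj A B
  have sB : ∀ p : F[X], aeval (B * A) p * B = B * aeval (A * B) p := aeval_semiconj B A
  have t11 : ∀ a a' : F[X], aeval (A * B) (X * a) * aeval (A * B) (X * a') =
      aeval (A * B) (X * (X * (a * a'))) := fun a a' => by
    rw [← map_mul]; congr 1; ring
  have t12 : ∀ a q : F[X], aeval (A * B) (X * a) * (aeval (A * B) q * A) =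
      aeval (A * B) (X * (a * q)) * A := fun a q => by
    rw [← mul_assoc, ← map_mul, mul_assoc X]
  have t13 : ∀ a r : F[X], aeval (A * B) (X * a) * (aeval (B * A) r * B) = 0 := fun a r => by
    rw [eU, mul_assoc, ← mul_assoc (A * B), mul_aeval_of_mul_eq_zero hUV, smul_mul_assoc, hUB,
      smul_zero, mul_zero]
  have t14 : ∀ a d : F[X], aeval (A * B) (X * a) * aeval (B * A) (X * d) = 0 := fun a d => by
    rw [eU, mul_assoc, mul_aeval_of_mul_eq_zero hUV, mul_smul_comm, coeff_X_mul_zero, zero_smul]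
  have t21 : ∀ q a : F[X], aeval (A * B) q * A * aeval (A * B) (X * a) = 0 := fun q a => by
    rw [mul_assoc, mul_aeval_of_mul_eq_zero hAU, coeff_X_mul_zero, zero_smul, mul_zero]
  have t22 : ∀ q q' : F[X], aeval (A * B) q * A * (aeval (A * B) q' * A) = 0 := fun q q' => by
    rw [mul_assoc, ← mul_assoc A, mul_aeval_of_mul_eq_zero hAU, smul_mul_assoc, h.sqA, smul_zero,
      mul_zero]
  have t23 : ∀ q r : F[X], aeval (A * B) q * A * (aeval (B * A) r * B) =
      aeval (A * B) (X * (q * r)) := fun q r => by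
    rw [eU, map_mul, mul_assoc, ← mul_assoc A, ← sA]; simp [mul_assoc]
  have t24 : ∀ q d : F[X], aeval (A * B) q * A * aeval (B * A) (X * d) =
      aeval (A * B) (X * (q * d)) * A := fun q d => by
    rw [mul_assoc, ← sA, ← mul_assoc, ← map_mul]; congr 2; ring
  have t31 : ∀ r a : F[X], aeval (B * A) r * B * aeval (A * B) (X * a) =
      aeval (B * A) (X * (r * a)) * B := fun r a => by
    rw [mul_assoc, ← sB, ← mul_assoc, ← map_mul]; congr 2; ring
  have t32 : ∀ r q : F[X], aeval (B * A) r * B * (aeval (A * B) q * A) =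
      aeval (B * A) (X * (r * q)) := fun r q => by
    rw [eV, map_mul, mul_assoc, ← mul_assoc B, ← sB]; simp [mul_assoc]
  have t33 : ∀ r r' : F[X], aeval (B * A) r * B * (aeval (B * A) r' * B) = 0 := fun r r' => by
    rw [mul_assoc, ← mul_assoc B, mul_aeval_of_mul_eq_zero hBV, smul_mul_assoc, h.sqB, smul_zero,
      mul_zero]
  have t34 : ∀ r d : F[X], aeval (B * A) r * B * aeval (B * A) (X * d) = 0 := fun r d => by
    rw [mul_assoc, mul_aeval_of_mul_eq_zero hBV, coeff_X_mul_zero, zero_smul, mul_zero]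
  have t41 : ∀ d a : F[X], aeval (B * A) (X * d) * aeval (A * B) (X * a) = 0 := fun d a => by
    rw [eV, mul_assoc, mul_aeval_of_mul_eq_zero hVU, mul_smul_comm, coeff_X_mul_zero, zero_smul]
  have t42 : ∀ d q : F[X], aeval (B * A) (X * d) * (aeval (A * B) q * A) = 0 := fun d q => by
    rw [eV, mul_assoc, ← mul_assoc (B * A), mul_aeval_of_mul_eq_zero hVU, smul_mul_assoc, hVA,
      smul_zero, mul_zero]
  have t43 : ∀ d r : F[X], aeval (B * A) (X * d) * (aeval (B * A) r * B) =
      aeval (B * A) (X * (d * r)) * B := fun d r => by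
    rw [← mul_assoc, ← map_mul, mul_assoc X]
  have t44 : ∀ d d' : F[X], aeval (B * A) (X * d) * aeval (B * A) (X * d') =
      aeval (B * A) (X * (X * (d * d'))) := fun d d' => by
    rw [← map_mul]; congr 1; ring
  simp only [Co.ev, Co.mul, add_mul, mul_add, smul_mul_assoc, mul_smul_comm, one_mul, mul_one,
    t11, t12, t13, t14, t21, t22, t23, t24, t31, t32, t33, t34, t41, t42, t43, t44, map_add,
    map_smul, smul_add, add_zero, zero_add]
  module

lemma ev_one : (⟨1, 0, 0, 0, 0⟩ : Co F).ev A B = 1 := by simp [Co.ev]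

lemma ev_uu (c : F) : (⟨1, 0, Polynomial.C c, 0, 0⟩ : Co F).ev A B = 1 + c • A := by
  simp [Co.ev, Algebra.algebraMap_eq_smul_one]

lemma ev_vv (c : F) : (⟨1, 0, 0, Polynomial.C c, 0⟩ : Co F).ev A B = 1 + c • B := by
  simp [Co.ev, Algebra.algebraMap_eq_smul_one]

/-- Every element of the generated group is evaluated inside the given group. -/
lemma exists_co {M : Subgroup Rˣ} (hA : ∀ s : F, ∃ u ∈ M, (u : R) = 1 + s • A)
    (hB : ∀ s : F, ∃ u ∈ M, (u : R) = 1 + s • B) {g : Matrix.SpecialLinearGroup (Fin 2) F[X]}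
    (hg : g ∈ gam F (X : F[X])) :
    ∃ T : Co F, T.p = 1 ∧ (g : Matrix (Fin 2) (Fin 2) F[X]) = T.mat ∧
      ∃ u ∈ M, (u : R) = T.ev A B ∧ ((u⁻¹ : Rˣ) : R) = T.adj.ev A B := by
  induction hg using Subgroup.closure_induction with
  | mem g hg =>
    have key : ∀ T : Co F, T.p = 1 → (g : Matrix (Fin 2) (Fin 2) F[X]) = T.mat →
        T.mul T.adj = ⟨1, 0, 0, 0, 0⟩ → (∃ u ∈ M, (u : R) = T.ev A B) →
        ∃ T : Co F, T.p = 1 ∧ (g : Matrix (Fin 2) (Fin 2) F[X]) = T.mat ∧
          ∃ u ∈ M, (u : R) = T.ev A B ∧ ((u⁻¹ : Rˣ) : R) = T.adj.ev A B := by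
      rintro T hp hm hT ⟨u, hu, hue⟩
      refine ⟨T, hp, hm, u, hu, hue, ?_⟩
      refine Units.inv_eq_of_mul_eq_one_right ?_
      rw [hue, ← h.ev_mul, hT, h.ev_one]
    rcases hg with ⟨c, rfl⟩ | ⟨c, rfl⟩
    · refine key ⟨1, 0, Polynomial.C c, 0, 0⟩ rfl ?_ ?_ (by rw [h.ev_uu]; exact hA c)
      · ext i j : 1; fin_cases i <;> fin_cases j <;> simp [Co.mat]
      · simp [Co.mul, Co.adj]
    · refine key ⟨1, 0, 0, Polynomial.C c, 0⟩ rfl ?_ ?_ (by rw [h.ev_vv]; exact hB c)
      · ext i j : 1; fin_cases i <;> fin_cases j <;> simp [Co.mat, Polynomial.X_mul_C]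
      · simp [Co.mul, Co.adj]
  | one =>
    refine ⟨⟨1, 0, 0, 0, 0⟩, rfl, ?_, 1, one_mem M, by simp [h.ev_one], by simp [Co.adj, h.ev_one]⟩
    ext i j : 1; fin_cases i <;> fin_cases j <;> simp [Co.mat]
  | mul x y _ _ hx hy =>
    obtain ⟨S, hSp, hSm, u, hu, hue, hui⟩ := hx
    obtain ⟨T, hTp, hTm, v, hv, hve, hvi⟩ := hy
    refine ⟨S.mul T, by simp [Co.mul, hSp, hTp], by simp [Co.mat_mul, hSm, hTm], u * v,
      mul_mem hu hv, by simp [hue, hve, h.ev_mul], ?_⟩
    have : (S.mul T).adj = T.adj.mul S.adj := by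
      simp only [Co.adj, Co.mul, hSp, hTp, one_smul, Co.mk.injEq]
      refine ⟨trivial, ?_, ?_, ?_, ?_⟩ <;> ring
    rw [mul_inv_rev, Units.val_mul, hvi, hui, this, h.ev_mul]
  | inv x _ hx =>
    obtain ⟨T, hTp, hTm, u, hu, hue, hui⟩ := hx
    refine ⟨T.adj, hTp, ?_, u⁻¹, inv_mem hu, hui, by simp [hue, Co.adj]⟩
    rw [Matrix.SpecialLinearGroup.coe_inv, hTm, Matrix.adjugate_fin_two]
    ext i j : 1; fin_cases i <;> fin_cases j <;> simp [Co.mat, Co.adj]

end Pair

end Cfsg.Agent.MaxSub.TensorPowSp
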