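import Cfsg.Agent.MaxSub.TensorPowSp.Eval

/-!
Parameters of root elements obtained from exact congruences.
-/

set_option autoImplicit false
set_option linter.unusedSectionVars false

namespace Cfsg.Agent.MaxSub.TensorPowSp

open Polynomial Cfsg.Agent.RootSub.SL2Gen

variable {F : Type*} [Field F] {R : Type*} [Ring R] [Algebra F R]

/-- A value which a unit of `M` takes. -/
def InM (M : Subgroup Rˣ) (x : R) : Prop := ∃ u ∈ M, (u : R) = x

/-- All multiples of `B` give elements of `M`. -/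
def Root (F : Type*) [Field F] {R : Type*} [Ring R] [Algebra F R] (M : Subgroup Rˣ) (B : R) : Prop :=
  ∀ s : F, InM M (1 + s • B)

/-- Commutator of two unipotents. -/
lemma comm_unipotent {X Y : R} (hX : X * X = 0) (hY : Y * Y = 0) (hXYX : X * (Y * X) = 0)
    (hYXY : Y * (X * Y) = 0) :
    (1 + X) * (1 + Y) * (1 - X) * (1 - Y) = 1 + (X * Y - Y * X) := by
  simp only [add_mul, mul_add, sub_mul, mul_sub, one_mul, mul_one, mul_assoc, hX, hY, hXYX, hYXY,
    mul_zero]
  simp only [← mul_assoc, hX, zero_mul]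
  abel

lemma inv_val_one_add {u : Rˣ} {X : R} (hu : (u : R) = 1 + X) (hX : X * X = 0) :
    ((u⁻¹ : Rˣ) : R) = 1 - X := by
  refine Units.inv_eq_of_mul_eq_one_right ?_
  rw [hu, add_mul, one_mul, mul_sub, mul_one, hX]
  abel

lemma InM.comm {M : Subgroup Rˣ} {X Y : R} (hX : InM M (1 + X)) (hY : InM M (1 + Y))
    (hXX : X * X = 0) (hYY : Y * Y = 0) (hXYX : X * (Y * X) = 0) (hYXY : Y * (X * Y) = 0) :
    InM M (1 + (X * Y - Y * X)) := by
  obtain ⟨u, hu, hue⟩ := hX
  obtain ⟨v, hv, hve⟩ := hY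
  refine ⟨u * v * u⁻¹ * v⁻¹, mul_mem (mul_mem (mul_mem hu hv) (inv_mem hu)) (inv_mem hv), ?_⟩
  rw [Units.val_mul, Units.val_mul, Units.val_mul, hue, hve, inv_val_one_add hue hXX,
    inv_val_one_add hve hYY, comm_unipotent hXX hYY hXYX hYXY]

/-- Two short root elements with commutator `A`. -/
structure Short (F : Type*) [Field F] {R : Type*} [Ring R] [Algebra F R] (M : Subgroup Rˣ)
    (A Q Q' : R) : Prop where
  aq : A * Q = 0
  qa : Q * A = 0
  aq' : A * Q' = 0
  q'a : Q' * A = 0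
  sqQ : Q * Q = 0
  sqQ' : Q' * Q' = 0
  qq' : Q * Q' = A
  q'q : Q' * Q = -A
  memQ : Root F M Q
  memQ' : Root F M Q'

namespace Pair

variable {A B C : R} (h : Pair A B C)
include h

lemma smul {s : F} (hs : s ≠ 0) : Pair (s • A) (s⁻¹ • B) C where
  sqA := by rw [smul_mul_smul_comm, h.sqA, smul_zero]
  sqB := by rw [smul_mul_smul_comm, h.sqB, smul_zero]
  aba := by
    rw [smul_mul_smul_comm, mul_inv_cancel₀ hs, one_smul, mul_smul_comm, h.aba, mul_smul_comm]
  comm := h.comm.smul_right s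

lemma aeval_mul_eq_zero {P p : F[X]} (hP : aeval C P = 0) (hp : P ∣ p) :
    aeval (A * B) p * A = 0 := by
  obtain ⟨c, rfl⟩ := hp
  rw [h.aeval_mul, map_mul, hP, zero_mul, zero_mul]

lemma aeval_X_mul_eq_zero {P p : F[X]} (hP : aeval C P = 0) (hp : P ∣ p) :
    aeval (A * B) (X * p) = 0 := by
  rw [mul_comm, map_mul, aeval_X, ← mul_assoc, h.aeval_mul_eq_zero hP hp, zero_mul]

lemma aeval_X_mul_eq_zero' {P p : F[X]} (hP : aeval C P = 0) (hp : P ∣ p) :
    aeval (B * A) (X * p) = 0 := by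
  rw [mul_comm, map_mul, aeval_X, ← mul_assoc, aeval_semiconj B A, mul_assoc,
    h.aeval_mul_eq_zero hP hp, mul_zero]

lemma aeval_XX_mul_eq_zero {P p : F[X]} (hP : aeval C P = 0) (hp : X * P ∣ p) :
    aeval (B * A) p * B = 0 := by
  obtain ⟨c, rfl⟩ := hp
  rw [aeval_semiconj B A, mul_assoc X, h.aeval_X_mul_eq_zero hP (dvd_mul_right _ _), mul_zero]

variable {M : Subgroup Rˣ} (hA : Root F M A) (hB : Root F M B) {P : F[X]} (hP : aeval C P = 0)
  {g : Matrix.SpecialLinearGroup (Fin 2) F[X]} (hg : g ∈ gam F (X : F[X]))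
include hA hB hP hg

lemma param_uu_one {r : F[X]} (h00 : X * P ∣ g 0 0 - 1) (h11 : X * P ∣ g 1 1 - 1)
    (h10 : X * X * P ∣ g 1 0) (h01 : P ∣ g 0 1 - r) : InM M (1 + aeval C r * A) := by
  obtain ⟨T, hp, hm, u, hu, hue, -⟩ := h.exists_co hA hB hg
  simp only [hm, Co.mat, hp] at h00 h11 h10 h01
  simp [mul_assoc] at h00 h11 h10 h01
  rw [mul_dvd_mul_iff_left X_ne_zero] at h00 h11 h10
  refine ⟨u, hu, ?_⟩
  rw [hue, Co.ev, hp, h.aeval_X_mul_eq_zero hP h00, h.aeval_X_mul_eq_zero' hP h11,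
    h.aeval_XX_mul_eq_zero hP h10, one_smul, ← sub_add_cancel T.q r, map_add, add_mul,
    h.aeval_mul_eq_zero hP h01, h.aeval_mul]
  abel

/-- The diagonal of a triangular element is a root parameter, given short roots. -/
lemma param_diag {Q Q' : R} (hQ : Short F M A Q Q') (h10 : X * X * P ∣ g 1 0) (s : F) :
    InM M (1 + s • ((2 : F) • (aeval C (g 0 0) * A))) := by
  obtain ⟨T, hp, hm, u, hu, hue, hui⟩ := h.exists_co hA hB hg
  have h00 : g 0 0 = 1 + X * T.a := by rw [hm]; simp [Co.mat, hp]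
  simp only [hm, Co.mat, hp] at h10
  simp [mul_assoc] at h10
  rw [mul_dvd_mul_iff_left X_ne_zero] at h10
  have hU : ∀ p : F[X], aeval (A * B) (X * p) = A * (B * aeval (A * B) p) := fun p => by
    rw [map_mul, aeval_X, mul_assoc]
  have hV : ∀ p : F[X], aeval (B * A) (X * p) = aeval (B * A) p * B * A := fun p => by
    rw [mul_comm, map_mul, aeval_X, mul_assoc]
  have hr : aeval (B * A) T.r * B = 0 := h.aeval_XX_mul_eq_zero hP h10
  have huA : (u : R) * A = aeval C (g 0 0) * A := by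
    rw [hue, Co.ev, h00, hr, hp, map_add, map_one, hV, one_smul]
    simp only [add_mul, one_mul, zero_mul, mul_assoc, h.sqA, mul_zero, add_zero]
    rw [h.aeval_mul]
  have hAu : A * ((u⁻¹ : Rˣ) : R) = aeval C (g 0 0) * A := by
    rw [hui, Co.ev, Co.adj, h00, hp, map_add, map_one, hU, map_neg, map_neg, neg_mul, neg_mul, hr,
      one_smul]
    simp only [mul_add, add_mul, mul_one, one_mul, mul_neg, ← mul_assoc, h.sqA, zero_mul, mul_zero,
      neg_zero, add_zero]
    rw [mul_aeval_of_mul_eq_zero (show A * (A * B) = 0 by rw [← mul_assoc, h.sqA, zero_mul]),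
      smul_mul_assoc, h.sqA, smul_zero, neg_zero, add_zero, ← aeval_semiconj, h.aeval_mul]
  have hmid : Q' * (u : R) * Q = Q' * Q := by
    rw [hue, Co.ev, hr, hp, hU, hV, one_smul]
    simp only [mul_add, add_mul, mul_one, zero_mul, mul_zero, add_zero]
    rw [← mul_assoc Q' A, hQ.q'a, zero_mul, zero_mul, add_zero]
    simp only [mul_assoc, hQ.aq, mul_zero, add_zero]
  have hmid' : Q * ((u⁻¹ : Rˣ) : R) * Q' = Q * Q' := by
    rw [hui, Co.ev, Co.adj, hp, hU, hV, map_neg, map_neg, neg_mul, neg_mul, hr, one_smul]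
    simp only [mul_add, add_mul, mul_one, zero_mul, mul_zero, neg_zero, add_zero]
    rw [← mul_assoc Q A, hQ.qa, zero_mul, zero_mul, add_zero]
    simp only [mul_assoc, hQ.aq', mul_zero, mul_neg, neg_mul, neg_zero, add_zero]
  set Z : R := u * Q * ((u⁻¹ : Rˣ) : R) with hZ
  have hZZ : Z * Z = 0 := by
    simp only [hZ, mul_assoc, Units.inv_mul_cancel_left]
    rw [← mul_assoc Q Q, hQ.sqQ, zero_mul, mul_zero]
  have hZm : InM M (1 + Z) := by
    obtain ⟨q, hq, hqe⟩ := hQ.memQ 1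
    refine ⟨u * q * u⁻¹, mul_mem (mul_mem hu hq) (inv_mem hu), ?_⟩
    rw [Units.val_mul, Units.val_mul, hqe, one_smul, mul_add, mul_one, add_mul, Units.mul_inv]
  have e1 : Z * Q' = aeval C (g 0 0) * A := by
    rw [hZ, mul_assoc, mul_assoc, ← mul_assoc Q, hmid', hQ.qq', huA]
  have e2 : Q' * Z = -(aeval C (g 0 0) * A) := by
    rw [hZ, ← mul_assoc, ← mul_assoc, hmid, hQ.q'q, neg_mul, hAu]
  have e3 : Z * (Q' * Z) = 0 := by
    rw [e2, mul_neg, hZ, ← huA, mul_assoc, Units.inv_mul_cancel_left, mul_assoc, hQ.qa, mul_zero,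
      neg_zero]
  have e4 : Q' * (Z * Q') = 0 := by
    rw [← mul_assoc, e2, neg_mul, mul_assoc, hQ.aq', mul_zero, neg_zero]
  have := hZm.comm (Y := s • Q') (hQ.memQ' s) hZZ (by rw [smul_mul_smul_comm, hQ.sqQ', smul_zero])
    (by rw [smul_mul_assoc, mul_smul_comm, e3, smul_zero])
    (by rw [mul_smul_comm, smul_mul_smul_comm, e4, smul_zero])
  rw [mul_smul_comm, smul_mul_assoc, e1, e2, smul_neg, sub_neg_eq_add] at this
  rwa [two_smul, smul_add]

end Pair

namespace Pair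

variable {A B C : R} (h : Pair A B C)
include h

/-- Root parameters from exact congruences. -/
lemma param_uu {M : Subgroup Rˣ} (hA : Root F M A) (hB : Root F M B) {P : F[X]}
    (hP : aeval C P = 0) {g : Matrix.SpecialLinearGroup (Fin 2) F[X]} (hg : g ∈ gam F (X : F[X]))
    {r : F[X]} (h00 : X * P ∣ g 0 0 - 1) (h11 : X * P ∣ g 1 1 - 1) (h10 : X * X * P ∣ g 1 0)
    (h01 : P ∣ g 0 1 - r) : Root F M (aeval C r * A) := by
  intro s
  by_cases hs : s = 0
  · exact ⟨1, one_mem M, by simp [hs]⟩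
  have hA' : Root F M (s • A) := fun c => by rw [smul_smul]; exact hA _
  have hB' : Root F M (s⁻¹ • B) := fun c => by rw [smul_smul]; exact hB _
  simpa [mul_smul_comm] using (h.smul hs).param_uu_one hA' hB' hP hg h00 h11 h10 h01

end Pair

end Cfsg.Agent.MaxSub.TensorPowSp
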