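import Mathlib
import Cfsg.Agent.RootSub.SL2Gen.Basic

/-!
Triangular elements of groups generated by `uu 1` and `vv α` in characteristic three.
-/

set_option autoImplicit false
set_option linter.unusedSectionVars false
set_option linter.unusedSimpArgs false
set_option linter.style.haveILetI false

namespace Cfsg.Agent.MaxSub.TensorPowSp

open Cfsg.Agent.RootSub.SL2Gen

variable {L : Type*} [CommRing L]

/-- The central involution. -/
def negI : (Matrix.SpecialLinearGroup (Fin 2) L) := ⟨!![-1, 0; 0, -1], by simp [Matrix.det_fin_two]⟩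

@[simp] lemma coe_negI : ((negI : (Matrix.SpecialLinearGroup (Fin 2) L)) : Matrix (Fin 2) (Fin 2) L) = !![-1, 0; 0, -1] := rfl

lemma negI_comm (g : (Matrix.SpecialLinearGroup (Fin 2) L)) : negI * g = g * negI := by
  apply sl_ext <;> simp [Matrix.mul_apply, Fin.sum_univ_two]

lemma negI_sq : (negI : (Matrix.SpecialLinearGroup (Fin 2) L)) * negI = 1 := by
  apply sl_ext <;> simp [Matrix.mul_apply, Fin.sum_univ_two]

/-- The trace. -/
def tr (g : (Matrix.SpecialLinearGroup (Fin 2) L)) : L := g 0 0 + g 1 1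

lemma tr_conj (g y : (Matrix.SpecialLinearGroup (Fin 2) L)) : tr (y * g * y⁻¹) = tr g := by
  simp [tr, Matrix.mul_apply, Fin.sum_univ_two, Matrix.adjugate_fin_two]
  linear_combination (g 0 0 + g 1 1) * det_eq y

lemma tr_negI_mul (g : (Matrix.SpecialLinearGroup (Fin 2) L)) : tr (negI * g) = -tr g := by
  simp [tr, Matrix.mul_apply, Fin.sum_univ_two]; ring

/-- Membership in `{0, 1, -1}`. -/
def Tri (x : L) : Prop := x = 0 ∨ x = 1 ∨ x = -1

lemma uu_cube (h3 : (3 : L) = 0) (r : L) : (uu r : (Matrix.SpecialLinearGroup (Fin 2) L)) ^ 3 = 1 := by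
  rw [pow_three, uu_add, uu_add, show r + (r + r) = 3 * r by ring, h3, zero_mul, uu_zero]

lemma vv_cube (h3 : (3 : L) = 0) (r : L) : (vv r : (Matrix.SpecialLinearGroup (Fin 2) L)) ^ 3 = 1 := by
  rw [pow_three, vv_add, vv_add, show r + (r + r) = 3 * r by ring, h3, zero_mul, vv_zero]

lemma eq_one_of_cube {G : Type*} [Group G] [Finite G] {x : G} (h : x ^ 3 = 1)
    (hx : ¬ 3 ∣ orderOf x) : x = 1 := by
  rcases (Nat.dvd_prime Nat.prime_three).1 (orderOf_dvd_of_pow_eq_one h) with h1 | h1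
  · exact orderOf_eq_one_iff.1 h1
  · exact absurd (by rw [h1]) hx

section Twist

variable [Finite L] (h3 : (3 : L) = 0) [Nontrivial L] (K : Subgroup (Matrix.SpecialLinearGroup (Fin 2) L)) {h : (Matrix.SpecialLinearGroup (Fin 2) L)} (hh : h ^ 3 = 1)
  (hnorm : ∀ y : (Matrix.SpecialLinearGroup (Fin 2) L), y ∈ K → h * y * h⁻¹ ∈ K)
  (hcen : ∀ y : (Matrix.SpecialLinearGroup (Fin 2) L), y ∈ K → y * h = h * y → y = 1 ∨ y = negI)
include h3 hh hnorm hcen

/-- A fixed point free twist: elements of the coset are conjugates of plus or minus `h`. -/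
lemma coset_eq {x : (Matrix.SpecialLinearGroup (Fin 2) L)} (hx : x ∈ K) :
    ∃ y : (Matrix.SpecialLinearGroup (Fin 2) L), x * h = y * h * y⁻¹ ∨ (negI ∈ K ∧ x * h = negI * (y * h * y⁻¹)) := by
  classical
  letI : Fintype K := Fintype.ofFinite K
  set f : K → K := fun y => ⟨y * (h * (y : (Matrix.SpecialLinearGroup (Fin 2) L))⁻¹ * h⁻¹), mul_mem y.2 (by
    have := hnorm _ (inv_mem y.2); exact this)⟩ with hf
  have hval : ∀ y : K, (f y : (Matrix.SpecialLinearGroup (Fin 2) L)) * h = y * h * (y : (Matrix.SpecialLinearGroup (Fin 2) L))⁻¹ := fun y => by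
    simp [hf, mul_assoc]
  have hfib : ∀ y y' : K, f y = f y' → (y' : (Matrix.SpecialLinearGroup (Fin 2) L)) = y ∨ (negI ∈ K ∧ (y' : (Matrix.SpecialLinearGroup (Fin 2) L)) = negI * (y : (Matrix.SpecialLinearGroup (Fin 2) L))) := by
    intro y y' e
    have e1 : (y : (Matrix.SpecialLinearGroup (Fin 2) L)) * h * (y : (Matrix.SpecialLinearGroup (Fin 2) L))⁻¹ = y' * h * (y' : (Matrix.SpecialLinearGroup (Fin 2) L))⁻¹ := by rw [← hval, ← hval, e]
    have hm : (y : (Matrix.SpecialLinearGroup (Fin 2) L))⁻¹ * y' ∈ K := mul_mem (inv_mem y.2) y'.2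
    have hc : (y : (Matrix.SpecialLinearGroup (Fin 2) L))⁻¹ * y' * h = h * ((y : (Matrix.SpecialLinearGroup (Fin 2) L))⁻¹ * y') := by
      calc (y : (Matrix.SpecialLinearGroup (Fin 2) L))⁻¹ * y' * h = (y : (Matrix.SpecialLinearGroup (Fin 2) L))⁻¹ * (y' * h * (y' : (Matrix.SpecialLinearGroup (Fin 2) L))⁻¹) * y' := by group
        _ = (y : (Matrix.SpecialLinearGroup (Fin 2) L))⁻¹ * (y * h * (y : (Matrix.SpecialLinearGroup (Fin 2) L))⁻¹) * y' := by rw [e1]
        _ = h * ((y : (Matrix.SpecialLinearGroup (Fin 2) L))⁻¹ * y') := by group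
    rcases hcen _ hm hc with h1 | h1
    · left; rwa [inv_mul_eq_one, eq_comm] at h1
    · refine Or.inr ⟨h1 ▸ hm, ?_⟩
      rw [negI_comm, ← h1, mul_inv_cancel_left]
  by_cases hn : negI ∈ K
  · set I : Finset K := Finset.univ.image f
    set J : Finset K := I.image fun z => (⟨negI, hn⟩ : K) * z
    have hcard : (Finset.univ : Finset K).card ≤ 2 * I.card := by
      refine Finset.card_le_mul_card_image _ 2 fun z hz => ?_
      obtain ⟨y, -, rfl⟩ := Finset.mem_image.1 hz
      refine le_trans (Finset.card_le_card (t := {y, ⟨negI, hn⟩ * y}) fun y' hy' => ?_)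
        Finset.card_le_two
      rcases hfib y y' (Finset.mem_filter.1 hy').2.symm with e | ⟨-, e⟩
      · simp [Subtype.ext e]
      · have : y' = ⟨negI, hn⟩ * y := Subtype.ext e
        simp [this]
    have hdisj : Disjoint I J := by
      rw [Finset.disjoint_left]
      intro z hz hz'
      obtain ⟨y, -, rfl⟩ := Finset.mem_image.1 hz
      obtain ⟨w, hw, hwz⟩ := Finset.mem_image.1 hz'
      obtain ⟨y', -, rfl⟩ := Finset.mem_image.1 hw
      have e := congrArg (fun z : K => (z : (Matrix.SpecialLinearGroup (Fin 2) L)) * h) hwz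
      simp only [Subgroup.coe_mul, mul_assoc negI, hval] at e
      have c1 : ((y : (Matrix.SpecialLinearGroup (Fin 2) L)) * h * (y : (Matrix.SpecialLinearGroup (Fin 2) L))⁻¹) ^ 3 = 1 := by simp [conj_pow, hh]
      have c2 : ((y' : (Matrix.SpecialLinearGroup (Fin 2) L)) * h * (y' : (Matrix.SpecialLinearGroup (Fin 2) L))⁻¹) ^ 3 = 1 := by simp [conj_pow, hh]
      rw [← e, (show Commute negI ((y' : (Matrix.SpecialLinearGroup (Fin 2) L)) * h * (y' : (Matrix.SpecialLinearGroup (Fin 2) L))⁻¹) from negI_comm _).mul_pow, c2,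
        mul_one, pow_three, negI_sq, mul_one] at c1
      have := congrArg (fun g : (Matrix.SpecialLinearGroup (Fin 2) L) => g 0 0) c1
      simp at this
      exact one_ne_zero (α := L) (by linear_combination h3 + this)
    have huniv : I ∪ J = Finset.univ := by
      refine Finset.eq_univ_of_card _ (le_antisymm (Finset.card_le_univ _) ?_)
      rw [Finset.card_union_of_disjoint hdisj, Finset.card_image_of_injective _ (mul_right_injective _)]
      rw [Finset.card_univ] at hcard
      omega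
    have := huniv.symm ▸ Finset.mem_univ (⟨x, hx⟩ : K)
    rcases Finset.mem_union.1 this with hz | hz
    · obtain ⟨y, -, e⟩ := Finset.mem_image.1 hz
      exact ⟨y, Or.inl (by rw [← hval, e])⟩
    · obtain ⟨w, hw, e⟩ := Finset.mem_image.1 hz
      obtain ⟨y, -, rfl⟩ := Finset.mem_image.1 hw
      refine ⟨y, Or.inr ⟨hn, ?_⟩⟩
      rw [← hval, ← mul_assoc]
      exact congrArg (fun z : K => (z : (Matrix.SpecialLinearGroup (Fin 2) L)) * h) e.symm
  · have hinj : Function.Injective f := fun y y' e => by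
      rcases hfib y y' e with e1 | ⟨e1, -⟩
      · exact Subtype.ext e1.symm
      · exact absurd e1 hn
    obtain ⟨y, e⟩ := Finite.injective_iff_surjective.1 hinj ⟨x, hx⟩
    exact ⟨y, Or.inl (by rw [← hval, e])⟩

end Twist

variable [Finite L] [Nontrivial L] (h3 : (3 : L) = 0) {α : L} (hα : IsUnit α) {Γ N : Subgroup (Matrix.SpecialLinearGroup (Fin 2) L)}
  (hu : uu 1 ∈ Γ) (hv : vv α ∈ Γ) (hNΓ : N ≤ Γ) (hnor : ∀ g : (Matrix.SpecialLinearGroup (Fin 2) L), g ∈ Γ → ∀ x : (Matrix.SpecialLinearGroup (Fin 2) L), x ∈ N → g * x * g⁻¹ ∈ N)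
  (hpow : ∀ g : (Matrix.SpecialLinearGroup (Fin 2) L), g ∈ Γ → ∃ n : ℕ, g ^ 3 ^ n ∈ N)
  (hB : ∀ g : (Matrix.SpecialLinearGroup (Fin 2) L), g ∈ N → g 1 0 = 0 → g 0 0 = 1 ∨ g 0 0 = -1)
  (hU : ∀ b : L, uu b ∈ N → Tri b)
include h3 hα hu hv hNΓ hnor hpow hB hU

lemma tri_form {g : (Matrix.SpecialLinearGroup (Fin 2) L)} (hg : g ∈ N) (h0 : g 1 0 = (0 : L)) :
    (g 0 0 = 1 ∨ g 0 0 = -1) ∧ g 1 1 = g 0 0 ∧ Tri (g 0 1) ∧ g * uu 1 = uu 1 * g := by
  have he := hB g hg h0
  have hd := det_eq g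
  rw [h0, mul_zero, sub_zero] at hd
  have h11 : g 1 1 = g 0 0 := by
    rcases he with e | e <;> rw [e] at hd ⊢
    · linear_combination hd
    · linear_combination -hd
  refine ⟨he, h11, ?_, ?_⟩
  · have e2 : g * g = uu (2 * g 0 0 * g 0 1) := by
      have : g 0 0 * g 0 0 = 1 := by rcases he with e | e <;> rw [e] <;> ring
      apply sl_ext <;> simp [Matrix.mul_apply, Fin.sum_univ_two, h0, h11, this]
      ring
    have := hU _ (e2 ▸ mul_mem hg hg)
    unfold Tri at this ⊢
    rcases he with e | e <;> rw [e] at this <;> rcases this with t | t | t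
    · left; linear_combination g 0 1 * h3 - t
    · right; right; linear_combination g 0 1 * h3 - t
    · right; left; linear_combination g 0 1 * h3 - t
    · left; linear_combination g 0 1 * h3 + t
    · right; left; linear_combination g 0 1 * h3 + t
    · right; right; linear_combination g 0 1 * h3 + t
  · apply sl_ext <;> simp [Matrix.mul_apply, Fin.sum_univ_two, h0, h11, add_comm]

lemma exists_complement : ∃ K : Subgroup (Matrix.SpecialLinearGroup (Fin 2) L), K ≤ N ∧
    (∀ g : (Matrix.SpecialLinearGroup (Fin 2) L), g ∈ Γ → ∀ x : (Matrix.SpecialLinearGroup (Fin 2) L), x ∈ K → g * x * g⁻¹ ∈ K) ∧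
    (∀ x : (Matrix.SpecialLinearGroup (Fin 2) L), x ∈ K → ¬ 3 ∣ orderOf x) ∧ ∀ g : (Matrix.SpecialLinearGroup (Fin 2) L), g ∈ Γ → ∃ n : ℕ, g ^ 3 ^ n ∈ K := by
  classical
  haveI : Fact (Nat.Prime 3) := ⟨Nat.prime_three⟩
  by_cases hd : 3 ∣ Nat.card N
  swap
  · exact ⟨N, le_rfl, hnor, fun x hx h => hd (h.trans (Subgroup.orderOf_dvd_natCard _ hx)), hpow⟩
  have hu1 : (uu 1 : (Matrix.SpecialLinearGroup (Fin 2) L)) ≠ 1 := fun e => one_ne_zero (α := L) (by
    simpa using congrArg (fun g : (Matrix.SpecialLinearGroup (Fin 2) L) => g 0 1) e)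
  -- elements of three power order commuting with `uu 1`
  have hz : ∀ z ∈ N, z * uu 1 = uu 1 * z → (∃ j : ℕ, z ^ 3 ^ j = 1) → ∃ b, Tri b ∧ z = uu b := by
    intro z hz hc ⟨j, hj⟩
    obtain ⟨h0, -⟩ := of_comm_uu_one z hc
    obtain ⟨he, h11, hb, -⟩ := tri_form h3 hα hu hv hNΓ hnor hpow hB hU hz h0
    rcases he with e | e
    · exact ⟨_, hb, by apply sl_ext <;> simp [h0, h11, e]⟩
    · exfalso
      have e1 : z = negI * uu (-z 0 1) := by
        apply sl_ext <;> simp [Matrix.mul_apply, Fin.sum_univ_two, h0, h11, e]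
      have hn : (negI : (Matrix.SpecialLinearGroup (Fin 2) L)) ^ 3 ^ j = negI := by
        obtain ⟨i, hi⟩ := (Odd.pow (by decide : Odd 3) : Odd (3 ^ j))
        rw [hi, pow_succ, pow_mul, pow_two, negI_sq, one_pow, one_mul]
      rw [e1, (show Commute negI (uu (-z 0 1)) from negI_comm _).mul_pow, hn] at hj
      have := congrArg (fun g : (Matrix.SpecialLinearGroup (Fin 2) L) => g 0 0) hj
      rcases Nat.eq_zero_or_pos j with rfl | hj0
      · simp [Matrix.mul_apply, Fin.sum_univ_two] at this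
        exact one_ne_zero (α := L) (by linear_combination h3 + this)
      · obtain ⟨i, rfl⟩ : ∃ i, j = i + 1 := ⟨j - 1, by omega⟩
        rw [pow_succ', pow_mul, uu_cube h3, one_pow, mul_one] at this
        simp at this
        exact one_ne_zero (α := L) (by linear_combination h3 + this)
  -- a fixed point of order three
  let U := Subgroup.zpowers (uu 1 : (Matrix.SpecialLinearGroup (Fin 2) L))
  have hU3 : IsPGroup 3 U := IsPGroup.of_card (n := 1) (by
    rw [Nat.card_zpowers, pow_one, orderOf_eq_prime (uu_cube h3 1) hu1])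
  have huN : uu 1 ∈ N := by
    letI : MulAction U N :=
      { smul := fun g x => ⟨g * (x : (Matrix.SpecialLinearGroup (Fin 2) L)) * (g : (Matrix.SpecialLinearGroup (Fin 2) L))⁻¹, hnor _ (by
          obtain ⟨g, hg⟩ := g; exact (Subgroup.zpowers_le.2 hu) hg) _ x.2⟩
        one_smul := fun x => Subtype.ext (show (1 : (Matrix.SpecialLinearGroup (Fin 2) L)) * x * (1 : (Matrix.SpecialLinearGroup (Fin 2) L))⁻¹ = x by simp)
        mul_smul := fun g g' x => Subtype.ext (show (g * g' : (Matrix.SpecialLinearGroup (Fin 2) L)) * x * (g * g' : (Matrix.SpecialLinearGroup (Fin 2) L))⁻¹ =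
          g * (g' * x * (g' : (Matrix.SpecialLinearGroup (Fin 2) L))⁻¹) * (g : (Matrix.SpecialLinearGroup (Fin 2) L))⁻¹ by group) }
    have hone : (1 : N) ∈ MulAction.fixedPoints U N := fun g =>
      Subtype.ext (show (g : (Matrix.SpecialLinearGroup (Fin 2) L)) * 1 * (g : (Matrix.SpecialLinearGroup (Fin 2) L))⁻¹ = 1 by simp)
    have hfix := hU3.card_modEq_card_fixedPoints N
    by_contra hcon
    have hsub : MulAction.fixedPoints U N ⊆ (Subtype.val : N → (Matrix.SpecialLinearGroup (Fin 2) L)) ⁻¹' {1, negI} := by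
      intro y hy
      have hc : (y : (Matrix.SpecialLinearGroup (Fin 2) L)) * uu 1 = uu 1 * (y : (Matrix.SpecialLinearGroup (Fin 2) L)) := by
        have := congrArg Subtype.val (hy ⟨uu 1, Subgroup.mem_zpowers _⟩)
        change (uu 1 : (Matrix.SpecialLinearGroup (Fin 2) L)) * (y : (Matrix.SpecialLinearGroup (Fin 2) L)) * (uu 1 : (Matrix.SpecialLinearGroup (Fin 2) L))⁻¹ = (y : (Matrix.SpecialLinearGroup (Fin 2) L)) at this
        exact (mul_inv_eq_iff_eq_mul.1 this).symm
      obtain ⟨h0, -⟩ := of_comm_uu_one _ hc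
      obtain ⟨he, h11, hb, -⟩ := tri_form h3 hα hu hv hNΓ hnor hpow hB hU y.2 h0
      have e2 : (y : (Matrix.SpecialLinearGroup (Fin 2) L)) * y = uu (2 * (y : (Matrix.SpecialLinearGroup (Fin 2) L)) 0 0 * (y : (Matrix.SpecialLinearGroup (Fin 2) L)) 0 1) := by
        have : (y : (Matrix.SpecialLinearGroup (Fin 2) L)) 0 0 * (y : (Matrix.SpecialLinearGroup (Fin 2) L)) 0 0 = 1 := by rcases he with e | e <;> rw [e] <;> ring
        apply sl_ext <;> simp [Matrix.mul_apply, Fin.sum_univ_two, h0, h11, this]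
        ring
      have hb' := mul_mem y.2 y.2
      rw [e2] at hb'
      have hcon' : ∀ r : L, (r = 1 ∨ r = -1) → uu r ∉ N := by
        rintro r (rfl | rfl) h
        · exact hcon h
        · exact hcon (by simpa [uu_inv] using inv_mem h)
      rcases hb with t | t | t
      · rcases he with e | e
        · exact Or.inl (by apply sl_ext <;> simp [h0, h11, e, t])
        · exact Or.inr (by apply sl_ext <;> simp [h0, h11, e, t])
      · refine absurd hb' (hcon' _ ?_)
        rcases he with e | e <;> rw [e, t]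
        · right; linear_combination h3
        · left; linear_combination -h3
      · refine absurd hb' (hcon' _ ?_)
        rcases he with e | e <;> rw [e, t]
        · left; linear_combination -h3
        · right; linear_combination h3
    have hle : Nat.card (MulAction.fixedPoints U N) ≤ 2 := by
      rw [Nat.card_coe_set_eq]
      refine (Set.ncard_le_ncard hsub (Set.toFinite _)).trans ?_
      rw [← Set.ncard_image_of_injective _ Subtype.val_injective]
      refine (Set.ncard_le_ncard (Set.image_preimage_subset _ _) (Set.toFinite _)).trans ?_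
      refine (Set.ncard_insert_le _ _).trans ?_
      rw [Set.ncard_singleton]
    have hpos : 0 < Nat.card (MulAction.fixedPoints U N) :=
      Nat.card_pos_iff.2 ⟨⟨⟨1, hone⟩⟩, inferInstance⟩
    have := Nat.le_of_dvd hpos
      (Nat.modEq_zero_iff_dvd.1 (hfix.symm.trans (Nat.modEq_zero_iff_dvd.2 hd)))
    omega
  -- Burnside transfer in `N`
  set u : N := ⟨uu 1, huN⟩ with hudef
  have hu3 : IsPGroup 3 (Subgroup.zpowers u) := IsPGroup.of_card (n := 1) (by
    rw [Nat.card_zpowers, pow_one, ← Subgroup.orderOf_coe u]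
    exact orderOf_eq_prime (uu_cube h3 1) hu1)
  obtain ⟨P, hP⟩ := hu3.exists_le_sylow
  have huP : u ∈ P := hP (Subgroup.mem_zpowers u)
  have hpz : ∀ y : N, y ∈ P → y * u = u * y → ∃ b, Tri b ∧ (y : (Matrix.SpecialLinearGroup (Fin 2) L)) = uu b := by
    intro y hy hc
    obtain ⟨j, hj⟩ := P.2 ⟨y, hy⟩
    exact hz _ y.2 (congrArg Subtype.val hc)
      ⟨j, congrArg Subtype.val (congrArg Subtype.val hj)⟩
  have hPu : ∀ y : N, y ∈ P → y * u = u * y := by
    haveI : Nontrivial P := ⟨⟨⟨u, huP⟩, 1, fun e => hu1 (congrArg Subtype.val (congrArg Subtype.val e))⟩⟩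
    haveI := P.2.center_nontrivial
    obtain ⟨⟨⟨w, hwP⟩, hwc⟩, hw1⟩ := exists_ne (1 : Subgroup.center P)
    have hwu : w * u = u * w :=
      (congrArg Subtype.val (Subgroup.mem_center_iff.1 hwc ⟨u, huP⟩)).symm
    obtain ⟨b, hb, hwb⟩ := hpz w hwP hwu
    have hcases : w = u ∨ w = u⁻¹ := by
      rcases hb with t | t | t
      · exact absurd (Subtype.ext (Subtype.ext (Subtype.ext (hwb.trans (by rw [t, uu_zero]; rfl))))) hw1
      · exact Or.inl (Subtype.ext (hwb.trans (by rw [t])))
      · exact Or.inr (Subtype.ext (hwb.trans (by rw [t]; simp [u, uu_inv])))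
    intro y hy
    have hyw : Commute y w := congrArg Subtype.val (Subgroup.mem_center_iff.1 hwc ⟨y, hy⟩)
    rcases hcases with e | e
    · exact (e ▸ hyw : Commute y u).eq
    · have := hyw.inv_right
      rw [e, inv_inv] at this
      exact this.eq
  have hnc : Subgroup.normalizer (P : Set N) ≤ Subgroup.centralizer (P : Set N) := by
    intro g hg
    rw [Subgroup.mem_centralizer_iff]
    intro y hy
    obtain ⟨b, hb, hyb⟩ := hpz y hy (hPu y hy)
    have hconj : g * u * g⁻¹ ∈ P := (Subgroup.mem_normalizer_iff.1 hg u).1 huP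
    obtain ⟨b', hb', hgb⟩ := hpz _ hconj (hPu _ hconj)
    simp only [Subgroup.coe_mul, Subgroup.coe_inv, hudef] at hgb
    have hcu' := conj_uu (g : (Matrix.SpecialLinearGroup (Fin 2) L)) 1
    rw [hgb] at hcu'
    have e00 := congrFun (congrFun hcu' 0) 0
    have e01 := congrFun (congrFun hcu' 0) 1
    simp at e00 e01
    have hb0 : b' ≠ 0 := fun e => by
      apply hu1
      rw [e, uu_zero] at hgb
      rwa [mul_inv_eq_one, mul_eq_left] at hgb
    have h10 : (g : (Matrix.SpecialLinearGroup (Fin 2) L)) 1 0 = 0 := by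
      rcases hb' with t | t | t
      · exact absurd t hb0
      · rw [t] at e01; linear_combination (g : (Matrix.SpecialLinearGroup (Fin 2) L)) 0 0 * e00 + (g : (Matrix.SpecialLinearGroup (Fin 2) L)) 1 0 * e01
      · rw [t] at e01; linear_combination -(g : (Matrix.SpecialLinearGroup (Fin 2) L)) 0 0 * e00 - (g : (Matrix.SpecialLinearGroup (Fin 2) L)) 1 0 * e01
    obtain ⟨-, -, -, hgu⟩ := tri_form h3 hα hu hv hNΓ hnor hpow hB hU g.2 h10
    apply Subtype.ext
    show (y : (Matrix.SpecialLinearGroup (Fin 2) L)) * g = g * y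
    rw [hyb]
    rcases hb with t | t | t <;> rw [t]
    · rw [uu_zero, one_mul, mul_one]
    · exact hgu.symm
    · rw [← uu_inv]; exact ((show Commute (g : (Matrix.SpecialLinearGroup (Fin 2) L)) (uu 1) from hgu).inv_right).eq.symm
  set K0 := (MonoidHom.transferSylow P hnc).ker
  have hK0 : ¬ 3 ∣ Nat.card K0 := MonoidHom.not_dvd_card_ker_transferSylow P hnc
  have hK0i : ∀ x : N, x ^ 3 ∈ K0 := by
    intro x
    show MonoidHom.transferSylow P hnc (x ^ 3) = 1
    rw [map_pow]
    obtain ⟨y, hy⟩ : ∃ y, y = MonoidHom.transferSylow P hnc x := ⟨_, rfl⟩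
    rw [← hy]
    obtain ⟨b, -, hb⟩ := hpz y y.2 (hPu _ y.2)
    refine Subtype.ext (Subtype.ext ?_)
    simp [hb, uu_cube h3]
  have hiff : ∀ x : N, x ∈ K0 ↔ ¬ 3 ∣ orderOf x := by
    intro x
    refine ⟨fun hx h => hK0 (h.trans (Subgroup.orderOf_dvd_natCard _ hx)), fun hx => ?_⟩
    have hco : (orderOf x).Coprime 3 :=
      ((Nat.prime_three.coprime_iff_not_dvd).2 hx).symm
    obtain ⟨j, hj⟩ := exists_pow_eq_self_of_coprime hco.symm
    rw [← hj]
    exact pow_mem (hK0i x) j
  refine ⟨K0.map N.subtype, Subgroup.map_subtype_le _, ?_, ?_, fun g hg => ?_⟩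
  · rintro g hg _ ⟨x, hx, rfl⟩
    refine ⟨⟨_, hnor g hg _ x.2⟩, (hiff _).2 ?_, rfl⟩
    rw [← Subgroup.orderOf_coe]
    show ¬ 3 ∣ orderOf (g * (x : (Matrix.SpecialLinearGroup (Fin 2) L)) * g⁻¹)
    rw [← MulAut.conj_apply, MulEquiv.orderOf_eq, Subgroup.orderOf_coe]
    exact (hiff x).1 hx
  · rintro _ ⟨x, hx, rfl⟩
    rw [Subgroup.coe_subtype, Subgroup.orderOf_coe]
    exact (hiff x).1 hx
  · obtain ⟨n, hn⟩ := hpow g hg
    exact ⟨n + 1, ⟨⟨_, hn⟩ ^ 3, hK0i _, by rw [pow_succ 3, pow_mul]; rfl⟩⟩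

/-- The dichotomy for triangular elements. -/
theorem core : (α = 1 ∨ α = -1) ∧ ∃ g : (Matrix.SpecialLinearGroup (Fin 2) L), g ∈ N ∧ g 1 0 = 0 ∧ g ≠ 1 := by
  classical
  obtain ⟨K, hKN, hKnor, hKord, hKpow⟩ := exists_complement h3 hα hu hv hNΓ hnor hpow hB hU
  have hsq : ∀ y ∈ K, ∀ r : L, (y * y = uu r ∨ y * y = vv r) → y * y = 1 := by
    intro y hy r hr
    refine eq_one_of_cube ?_ fun h => hKord y hy (h.trans ?_)
    · rcases hr with e | e <;> rw [e]
      exacts [uu_cube h3 r, vv_cube h3 r]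
    · rw [← pow_two]; exact orderOf_pow_dvd 2
  have hcu : ∀ y ∈ K, y * uu 1 = uu 1 * y → y = 1 ∨ y = negI := by
    intro y hy hc
    obtain ⟨h0, -⟩ := of_comm_uu_one y hc
    obtain ⟨he, h11, -, -⟩ := tri_form h3 hα hu hv hNΓ hnor hpow hB hU (hKN hy) h0
    have h2 : y * y = uu (2 * y 0 0 * y 0 1) := by
      have : y 0 0 * y 0 0 = 1 := by rcases he with e | e <;> rw [e] <;> ring
      apply sl_ext <;> simp [Matrix.mul_apply, Fin.sum_univ_two, h0, h11, this]
      ring
    have hb := congrArg (fun x : (Matrix.SpecialLinearGroup (Fin 2) L) => x 0 1) (h2.symm.trans (hsq y hy _ (Or.inl h2)))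
    simp at hb
    rcases he with e | e <;> rw [e] at hb
    · have hb0 : y 0 1 = 0 := by linear_combination y 0 1 * h3 - hb
      exact Or.inl (by apply sl_ext <;> simp [h0, h11, e, hb0])
    · have hb0 : y 0 1 = 0 := by linear_combination y 0 1 * h3 + hb
      exact Or.inr (by apply sl_ext <;> simp [h0, h11, e, hb0])
  have hcv : ∀ y ∈ K, y * vv α = vv α * y → y = 1 ∨ y = negI := by
    intro y hy hc
    have e00 := congrArg (fun x : (Matrix.SpecialLinearGroup (Fin 2) L) => x 0 0) hc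
    have e10 := congrArg (fun x : (Matrix.SpecialLinearGroup (Fin 2) L) => x 1 0) hc
    simp [Matrix.mul_apply, Fin.sum_univ_two] at e00 e10
    have h01 : y 0 1 = 0 := hα.mul_left_eq_zero.1 (by linear_combination e00)
    have h11 : y 1 1 = y 0 0 := sub_eq_zero.1 (hα.mul_left_eq_zero.1 (by linear_combination e10))
    have h2 : y * y = vv (2 * y 0 0 * y 1 0) := by
      have := det_eq y
      rw [h01, h11, zero_mul, sub_zero] at this
      apply sl_ext <;> simp [Matrix.mul_apply, Fin.sum_univ_two, h01, h11, this]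
      ring
    have hb := congrArg (fun x : (Matrix.SpecialLinearGroup (Fin 2) L) => x 1 0) (h2.symm.trans (hsq y hy _ (Or.inr h2)))
    simp at hb
    have hsq1 : y 0 0 * y 0 0 = 1 := by
      have := det_eq y
      rwa [h01, h11, zero_mul, sub_zero] at this
    have h10 : y 1 0 = 0 := by
      linear_combination (y 1 0) * h3 - y 0 0 * hb + 2 * y 1 0 * hsq1
    exact hcu y hy (tri_form h3 hα hu hv hNΓ hnor hpow hB hU (hKN hy) h10).2.2.2
  have htr : ∀ h ∈ Γ, h ^ 3 = 1 → tr h = 2 →
      (∀ y ∈ K, y * h = h * y → y = 1 ∨ y = negI) →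
      ∀ x ∈ K, tr (x * h) = -1 ∨ (negI ∈ K ∧ tr (x * h) = 1) := by
    intro h hh h1 h2 hc x hx
    obtain ⟨y, e | ⟨hn, e⟩⟩ := coset_eq h3 K h1 (hKnor h hh) hc hx
    · left; rw [e, tr_conj, h2]; linear_combination h3
    · refine Or.inr ⟨hn, ?_⟩
      rw [e, tr_negI_mul, tr_conj, h2]; linear_combination -h3
  have hc_inv : ∀ h : (Matrix.SpecialLinearGroup (Fin 2) L), (∀ y ∈ K, y * h = h * y → y = 1 ∨ y = negI) →
      ∀ y ∈ K, y * h⁻¹ = h⁻¹ * y → y = 1 ∨ y = negI :=
    fun h hh y hy e => hh y hy (by simpa using (show Commute y h⁻¹ from e).inv_right.eq)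
  by_cases htriv : ∀ x ∈ K, x = 1 ∨ x = negI
  · exfalso
    have key : ∀ g ∈ Γ, IsNilpotent (((g * g : (Matrix.SpecialLinearGroup (Fin 2) L)) : Matrix (Fin 2) (Fin 2) L).trace - 2) := by
      intro g hg
      obtain ⟨n, hn⟩ := hKpow g hg
      haveI : CharP L 3 := (CharP.charP_iff_prime_eq_zero Nat.prime_three).2 (by exact_mod_cast h3)
      have h1 : (g * g) ^ 3 ^ n = 1 := by
        rw [(Commute.refl g).mul_pow]
        rcases htriv _ hn with e | e <;> rw [e]
        exacts [mul_one 1, negI_sq]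
      have hnil : IsNilpotent (((g * g : (Matrix.SpecialLinearGroup (Fin 2) L)) : Matrix (Fin 2) (Fin 2) L) - 1) := by
        refine ⟨3 ^ n, ?_⟩
        haveI : Fact (Nat.Prime 3) := ⟨Nat.prime_three⟩
        haveI : CharP (Matrix (Fin 2) (Fin 2) L) 3 := Matrix.charP 3
        rw [sub_pow_char_pow_of_commute _ _ (Commute.one_right _), one_pow,
          ← Matrix.SpecialLinearGroup.coe_pow, h1, Matrix.SpecialLinearGroup.coe_one, sub_self]
      have := Matrix.isNilpotent_trace_of_isNilpotent hnil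
      simpa using this
    obtain ⟨i, hi⟩ := key _ (mul_mem hu hv)
    obtain ⟨j, hj⟩ := key _ (mul_mem hu (inv_mem hv))
    have hsum := (Commute.all _ _).isNilpotent_add ⟨i, hi⟩ ⟨j, hj⟩
    simp [vv_inv, Matrix.trace_fin_two, Matrix.mul_apply, Fin.sum_univ_two] at hsum
    have he : IsUnit (2 * α * α) :=
      ((IsUnit.of_mul_eq_one (a := (2 : L)) (2 : L) (by linear_combination h3)).mul hα).mul hα
    refine he.not_isNilpotent ?_
    convert hsum using 1; linear_combination (0 : L) * h3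
  push Not at htriv
  obtain ⟨x, hx, hx1, hx2⟩ := htriv
  have hs : ∀ y ∈ K, y ≠ 1 → y ≠ negI → (α = 1 ∨ α = -1) ∧ negI ∈ K := by
    intro y hy hy1 hy2
    have step : ∀ z ∈ K, z 1 0 = y 1 0 → z 1 0 ≠ 0 ∧ negI ∈ K ∧ (z 1 0 = 1 ∨ z 1 0 = -1) ∧
        (α * z 0 1 = 1 ∨ α * z 0 1 = -1) ∧ z 0 0 + z 1 1 = 0 := by
      intro z hz hzy
      have hy0 : z 1 0 ≠ 0 := by
        rw [hzy]
        intro e
        rcases hcu y hy (tri_form h3 hα hu hv hNΓ hnor hpow hB hU (hKN hy) e).2.2.2 with t | t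
        exacts [hy1 t, hy2 t]
      have a1 := htr _ hu (uu_cube h3 1) (by simp [tr]; norm_num) hcu z hz
      have a2 := htr _ (inv_mem hu) (by rw [inv_pow, uu_cube h3, inv_one])
        (by simp [tr, uu_inv]; norm_num) (hc_inv _ hcu) z hz
      have b1 := htr _ hv (vv_cube h3 α) (by simp [tr]; norm_num) hcv z hz
      have b2 := htr _ (inv_mem hv) (by rw [inv_pow, vv_cube h3, inv_one])
        (by simp [tr, vv_inv]; norm_num) (hc_inv _ hcv) z hz
      simp [tr, uu_inv, vv_inv, Matrix.mul_apply, Fin.sum_univ_two] at a1 a2 b1 b2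
      have hne : (1 : L) ≠ -1 := fun e => one_ne_zero (α := L) (by linear_combination h3 - e)
      have hT : z 0 0 + z 1 1 = 0 ∧ (z 1 0 = 1 ∨ z 1 0 = -1) ∧ negI ∈ K := by
        rcases a1 with p | ⟨hn, p⟩ <;> rcases a2 with q | ⟨hn', q⟩
        · exact absurd (by linear_combination q - p + z 1 0 * h3) hy0
        · exact ⟨by linear_combination (z 0 0 + z 1 1) * h3 - p - q, Or.inr (by
            linear_combination z 1 0 * h3 + q - p + h3), hn'⟩
        · exact ⟨by linear_combination (z 0 0 + z 1 1) * h3 - p - q, Or.inl (by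
            linear_combination z 1 0 * h3 + q - p - h3), hn⟩
        · exact absurd (by linear_combination q - p + z 1 0 * h3) hy0
      refine ⟨hy0, hT.2.2, hT.2.1, ?_, hT.1⟩
      rcases b1 with p | ⟨-, p⟩
      · right; linear_combination p - hT.1
      · left; linear_combination p - hT.1
    obtain ⟨-, hn, hc, hb0, hT⟩ := step y hy rfl
    have m1 := hKnor _ hu y hy
    have m2 := hKnor _ hu _ m1
    obtain ⟨-, -, -, hb1, -⟩ := step _ m1 (by
      simp [Matrix.mul_apply, Fin.sum_univ_two, uu_inv, Matrix.vecMul, dotProduct])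
    obtain ⟨-, -, -, hb2, -⟩ := step _ m2 (by
      simp [Matrix.mul_apply, Fin.sum_univ_two, uu_inv, Matrix.vecMul, dotProduct])
    simp [Matrix.mul_apply, Fin.sum_univ_two, uu_inv, Matrix.vecMul, dotProduct] at hb1 hb2
    refine ⟨?_, hn⟩
    have key : α * y 1 0 = α * y 0 1 + (α * (-(y 0 0) - y 1 0 + (y 0 1 + y 1 1))) +
        (α * (-(y 0 0) - 2 * y 1 0 + (y 0 1 + 2 * y 1 1) - (y 0 0 + 2 * y 1 0))) := by
      linear_combination α * (y 0 0 + 2 * y 1 0 - y 0 1 - y 1 1) * h3
    have hval : α * y 1 0 = 0 ∨ α * y 1 0 = 1 ∨ α * y 1 0 = -1 := by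
      rcases hb0 with p | p <;> rcases hb1 with q | q <;> rcases hb2 with r | r
      all_goals first
        | (left; linear_combination key + p + q + r + h3)
        | (left; linear_combination key + p + q + r - h3)
        | (right; left; linear_combination key + p + q + r)
        | (right; right; linear_combination key + p + q + r)
    rcases hval with v | v | v
    · rcases hc with e | e <;> rw [e] at v <;> simp at v <;> exact absurd (v ▸ hα) not_isUnit_zero
    · rcases hc with e | e <;> rw [e] at v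
      · left; simpa using v
      · right; linear_combination -v
    · rcases hc with e | e <;> rw [e] at v
      · right; simpa using v
      · left; linear_combination -v
  obtain ⟨h1, hn⟩ := hs x hx hx1 hx2
  refine ⟨h1, negI, hKN hn, rfl, fun e => ?_⟩
  have := congrArg (fun g : (Matrix.SpecialLinearGroup (Fin 2) L) => g 0 0) e
  simp at this
  exact one_ne_zero (α := L) (by linear_combination h3 + this)

end Cfsg.Agent.MaxSub.TensorPowSp
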