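import Cfsg.Agent.MaxSub.TensorPowSp.Nilpotent
import Cfsg.Agent.MaxSub.TensorPowSp.Three
import Cfsg.Agent.RootSub.SL2Gen.Ring

/-!
A non-scalar compression gives a non-scalar root parameter.
-/

set_option autoImplicit false
set_option linter.unusedSectionVars false
set_option linter.unusedSimpArgs false
set_option linter.style.haveILetI false

namespace Cfsg.Agent.MaxSub.TensorPowSp

open Polynomial Cfsg.Agent.RootSub.SL2Gen

variable {F : Type*} [Field F]

lemma eval_gam {g : Matrix.SpecialLinearGroup (Fin 2) F[X]} (hg : g ∈ gam F (X : F[X])) :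
    ∃ c : F, Matrix.SpecialLinearGroup.map (evalRingHom (0 : F)) g = uu c := by
  induction hg using Subgroup.closure_induction with
  | mem g hg =>
    rcases hg with ⟨c, rfl⟩ | ⟨c, rfl⟩
    · exact ⟨c, by simp [map_uu]⟩
    · exact ⟨0, by simp [map_vv, vv_zero, uu_zero]⟩
  | one => exact ⟨0, by rw [map_one, uu_zero]⟩
  | mul x y _ _ hx hy =>
    obtain ⟨c, hc⟩ := hx
    obtain ⟨d, hd⟩ := hy
    exact ⟨c + d, by rw [map_mul, hc, hd, uu_add]⟩
  | inv x _ hx =>
    obtain ⟨c, hc⟩ := hx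
    exact ⟨-c, by rw [map_inv, hc, uu_inv]⟩

/-- Congruence to the identity modulo `X ^ n`. -/
noncomputable def cong (n : ℕ) : Subgroup (Matrix.SpecialLinearGroup (Fin 2) F[X]) :=
  (Matrix.SpecialLinearGroup.map (n := Fin 2) (Ideal.Quotient.mk (Ideal.span {(X : F[X]) ^ n}))).ker

lemma mem_cong {n : ℕ} {g : Matrix.SpecialLinearGroup (Fin 2) F[X]} :
    g ∈ cong n ↔ X ^ n ∣ g 0 0 - 1 ∧ X ^ n ∣ g 0 1 ∧ X ^ n ∣ g 1 0 ∧ X ^ n ∣ g 1 1 - 1 := by
  rw [cong, MonoidHom.mem_ker, RootSub.SL2Gen.map_eq_one_iff]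
  simp [Ideal.mem_span_singleton]

lemma pow_mem_cong [Fintype F] {p : ℕ} [CharP F p] (hp : p.Prime) {n : ℕ}
    {g : Matrix.SpecialLinearGroup (Fin 2) F[X]} (hg : g ∈ gam F (X : F[X])) :
    g ^ p ^ (2 * n) ∈ cong n := by
  haveI : Fact p.Prime := ⟨hp⟩
  haveI : CharP (Matrix (Fin 2) (Fin 2) F[X]) p := Matrix.charP p
  set Z : Matrix (Fin 2) (Fin 2) F[X] := (g : Matrix (Fin 2) (Fin 2) F[X]) - 1 with hZ
  have hdvd : ∀ i j, X ∣ (Z * Z) i j := by
    intro i j
    obtain ⟨c, hc⟩ := eval_gam hg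
    have hval : (evalRingHom (0 : F)).mapMatrix (g : Matrix (Fin 2) (Fin 2) F[X]) = !![1, c; 0, 1] :=
      congrArg Subtype.val hc
    have h0 : (evalRingHom (0 : F)).mapMatrix (Z * Z) = 0 := by
      rw [map_mul, hZ, map_sub, map_one, hval]
      ext i j
      fin_cases i <;> fin_cases j <;> simp [Matrix.mul_apply, Fin.sum_univ_two]
    have := congrFun (congrFun h0 i) j
    rw [X_dvd_iff, coeff_zero_eq_eval_zero]
    simpa using this
  choose Y hY using hdvd
  have hZZ : Z * Z = (X : F[X]) • Matrix.of Y := by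
    ext i j : 1
    rw [hY]; simp
  have hpow : ∀ i j, X ^ n ∣ (Z ^ p ^ (2 * n)) i j := by
    intro i j
    have hle : 2 * n ≤ p ^ (2 * n) := (Nat.lt_pow_self hp.one_lt).le
    obtain ⟨r, hr⟩ := Nat.exists_eq_add_of_le hle
    rw [hr, pow_add, pow_mul, pow_two, hZZ, _root_.smul_pow, smul_mul_assoc, Matrix.smul_apply, smul_eq_mul]
    exact dvd_mul_right _ _
  have hgpow : ((g ^ p ^ (2 * n) : Matrix.SpecialLinearGroup (Fin 2) F[X]) :
      Matrix (Fin 2) (Fin 2) F[X]) - 1 = Z ^ p ^ (2 * n) := by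
    rw [Matrix.SpecialLinearGroup.coe_pow, hZ, sub_pow_char_pow_of_commute _ _ (Commute.one_right _),
      one_pow]
  rw [mem_cong]
  refine ⟨?_, ?_, ?_, ?_⟩
  · simpa [← hgpow] using hpow 0 0
  · simpa [← hgpow] using hpow 0 1
  · simpa [← hgpow] using hpow 1 0
  · simpa [← hgpow] using hpow 1 1

lemma tri_of_card_three [Fintype F] (h : Nat.card F = 3) (c : F) : c = 0 ∨ c = 1 ∨ c = -1 := by
  have := FiniteField.pow_card c
  rw [← Nat.card_eq_fintype_card, h] at this
  have h0 : c * ((c - 1) * (c + 1)) = 0 := by linear_combination this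
  rcases mul_eq_zero.1 h0 with e | e
  · exact Or.inl e
  rcases mul_eq_zero.1 e with e | e
  · exact Or.inr (Or.inl (sub_eq_zero.1 e))
  · exact Or.inr (Or.inr (eq_neg_of_add_eq_zero_left e))

variable [Fintype F] {R : Type*} [Ring R] [Algebra F R] [FiniteDimensional F R] {A B C : R}
  {M : Subgroup Rˣ}

/-- **Non-scalar compressions give non-scalar parameters.** -/
theorem Pair.exists_param (h : Pair A B C) (hA : Root F M A) (hB : Root F M B) (h2 : (2 : F) ≠ 0)
    (hshort : Nat.card F = 3 → ∃ Q Q', Short F M A Q Q')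
    (hC : ∀ c : F, C ≠ algebraMap F R c) :
    ∃ r : F[X], (∀ c : F, aeval C r ≠ algebraMap F R c) ∧ Root F M (aeval C r * A) := by
  classical
  obtain ⟨p, hpc⟩ := CharP.exists F
  haveI := hpc
  have hp : p.Prime := by
    rcases CharP.char_is_prime_or_zero F p with hp | hp
    · exact hp
    · subst hp
      haveI := CharP.charP_to_charZero F
      exact (not_finite F).elim
  haveI : Fact p.Prime := ⟨hp⟩
  set P := minpoly F C with hPdef
  have hint : IsIntegral F C := Algebra.IsIntegral.isIntegral C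
  have hP : aeval C P = 0 := minpoly.aeval F C
  have hscal : ∀ {r : F[X]} {c : F}, aeval C r = algebraMap F R c → P ∣ r - Polynomial.C c :=
    fun {r c} e => minpoly.dvd F C (by rw [map_sub, aeval_C, e, sub_self])
  obtain ⟨P1, hP1, hX⟩ :=
    Polynomial.exists_eq_pow_rootMultiplicity_mul_and_not_dvd P (minpoly.ne_zero hint) (0 : F)
  rw [map_zero, sub_zero] at hP1 hX
  set a := P.rootMultiplicity 0
  have hP1ne : P1 ≠ 0 := fun e => hX (e ▸ dvd_zero _)
  rcases Nat.eq_zero_or_pos P1.natDegree with hdeg | hdeg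
  · obtain ⟨u, hu, rfl⟩ := natDegree_eq_zero.1 hdeg |>.imp fun u hu => (And.intro hu hu.symm)
    have hu0 : u ≠ 0 := fun e => hP1ne (by rw [e, map_zero])
    have hCa : C ^ a = 0 := by
      rw [hP1] at hP
      simpa [Algebra.algebraMap_eq_smul_one, hu0] using hP
    have ha : 2 ≤ a := by
      by_contra hlt
      push Not at hlt
      refine hC 0 ?_
      rw [map_zero]
      interval_cases a
      · rw [pow_zero] at hCa
        rw [← mul_one C, hCa, mul_zero]
      · rwa [pow_one] at hCa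
    obtain ⟨n, hn⟩ : ∃ n, a = n + 1 := ⟨a - 1, by omega⟩
    refine ⟨X ^ n, fun c e => ?_, ?_⟩
    · have hd := hscal e
      rw [hP1, hn] at hd
      obtain ⟨w, hw⟩ := dvd_trans (dvd_mul_right _ _) hd
      have h0 := congrArg (Polynomial.eval 0) hw
      simp [show n ≠ 0 by omega] at h0
      subst h0
      have := congrArg (fun q : F[X] => q.coeff n) hw
      simp [pow_succ, mul_assoc, coeff_X_pow_mul', coeff_X_mul_zero] at this
    · rw [map_pow, aeval_X]
      exact h.param_nilpotent hA hB h2 (by omega) (hn ▸ hCa)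
  -- the quotient by the prime to `X` part
  have hcop : IsCoprime (X : F[X]) P1 := (irreducible_X.coprime_iff_not_dvd).2 hX
  have hcop2 : IsCoprime ((X : F[X]) ^ (a + 2)) P1 := hcop.pow_left
  haveI : Module.Finite F (AdjoinRoot P1) := (AdjoinRoot.powerBasis hP1ne).finite
  haveI : Finite (AdjoinRoot P1) := Module.finite_of_finite F
  haveI : Nontrivial (AdjoinRoot P1) :=
    AdjoinRoot.nontrivial P1 (natDegree_pos_iff_degree_pos.1 hdeg).ne'
  set π : F[X] →ₐ[F] AdjoinRoot P1 := aeval (AdjoinRoot.root P1) with hπ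
  have hπ0 : ∀ q : F[X], π q = 0 ↔ P1 ∣ q := fun q => by
    rw [hπ, AdjoinRoot.aeval_eq, AdjoinRoot.mk_eq_zero]
  have hπeq : ∀ {q : F[X]} {c : F}, π q = algebraMap F _ c ↔ P1 ∣ q - Polynomial.C c := fun {q c} => by
    rw [← hπ0, map_sub, sub_eq_zero, hπ, aeval_C]
  set α := AdjoinRoot.root P1 with hα
  have hπX : π X = α := by rw [hπ, aeval_X]
  obtain ⟨u1, v1, hbez⟩ := hcop
  have hαu : IsUnit α := IsUnit.of_mul_eq_one (π u1) (by
    have := congrArg π hbez
    rw [map_add, map_mul, map_mul, (hπ0 P1).2 dvd_rfl, mul_zero, add_zero, map_one, hπX] at this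
    rw [mul_comm]; exact this)
  have hgen : ∀ r : AdjoinRoot P1, ∃ q : F[X], aeval α q = r := fun r => by
    obtain ⟨q, rfl⟩ := AdjoinRoot.mk_surjective r
    exact ⟨q, AdjoinRoot.aeval_eq q⟩
  have hmap : (gam F (X : F[X])).map (Matrix.SpecialLinearGroup.map (π : F[X] →+* AdjoinRoot P1)) =
      gam F α := by rw [map_gam F π X, hπX]
  obtain ⟨uE, vE, hE⟩ := hcop2
  set e : F[X] := uE * X ^ (a + 2) with he
  have hπe : π e = 1 := by
    rw [← map_one π, ← hE, map_add, map_mul π vE, (hπ0 P1).2 dvd_rfl, mul_zero, add_zero]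
  have hnd : ∀ {q : F[X]}, X ^ (a + 2) ∣ q → P1 ∣ q → X * X * P ∣ q := by
    intro q h1 h2'
    rw [hP1, show X * X * (X ^ a * P1) = X ^ (a + 2) * P1 by ring]
    exact IsCoprime.mul_dvd ⟨uE, vE, hE⟩ h1 h2'
  have hnd1 : ∀ {q : F[X]}, X ^ (a + 2) ∣ q → P1 ∣ q → X * P ∣ q := fun h1 h2' =>
    (mul_dvd_mul_right (dvd_mul_right X X) P).trans (hnd h1 h2')
  have hnd0 : ∀ {q : F[X]}, X ^ (a + 2) ∣ q → P1 ∣ q → P ∣ q := fun h1 h2' =>
    (dvd_mul_left P X).trans (hnd1 h1 h2')
  have hXP : 1 ≤ a → (X : F[X]) ∣ P := fun ha => by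
    rw [hP1]; exact (dvd_pow_self X (by omega)).mul_right _
  have hzero : 1 ≤ a → ∀ {r : F[X]} {c : F}, X ∣ r → aeval C r = algebraMap F R c → c = 0 := by
    intro ha r c hr e
    have := (dvd_sub hr ((hXP ha).trans (hscal e)))
    rw [sub_sub_cancel, X_dvd_iff, coeff_C_zero] at this
    exact this
  have hαscal : a = 0 → ∀ c : F, α ≠ algebraMap F _ c := by
    intro ha c e
    apply hC c
    have hd : P1 ∣ X - Polynomial.C c := hπeq.1 (hπX.trans e)
    have hPd : P ∣ X - Polynomial.C c := by rw [hP1, ha, pow_zero, one_mul]; exact hd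
    obtain ⟨w, hw⟩ := hPd
    have := congrArg (aeval C) hw
    rw [map_mul, hP, zero_mul, map_sub, aeval_X, aeval_C, sub_eq_zero] at this
    exact this
  by_cases h3 : Nat.card F = 3
  · -- three elements
    haveI : CharP F 3 := by
      have h0 : ((Fintype.card F : ℕ) : F) = 0 := Nat.cast_card_eq_zero F
      rw [← Nat.card_eq_fintype_card, h3] at h0
      exact (CharP.charP_iff_prime_eq_zero Nat.prime_three).2 h0
    obtain ⟨Q, Q', hQ⟩ := hshort h3
    by_contra hno
    push Not at hno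
    set Γ := gam F α
    set N : Subgroup (Matrix.SpecialLinearGroup (Fin 2) (AdjoinRoot P1)) :=
      (gam F (X : F[X]) ⊓ cong (a + 2)).map
        (Matrix.SpecialLinearGroup.map (π : F[X] →+* AdjoinRoot P1))
    have hdiag : ∀ g ∈ gam F (X : F[X]) ⊓ cong (a + 2), π (g 1 0) = 0 →
        ∃ c : F, π (g 0 0) = algebraMap F _ c ∧ (1 ≤ a → c = 1) := by
      intro g hg h10
      obtain ⟨hg1, hg2⟩ := Subgroup.mem_inf.1 hg
      obtain ⟨c00, -, c10, -⟩ := mem_cong.1 hg2
      have hparam := h.param_diag hA hB hP hg1 hQ (hnd c10 ((hπ0 _).1 h10))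
      have hroot : Root F M (aeval C (g 0 0) * A) := fun s => by
        have := hparam (s / 2)
        rwa [smul_smul, div_mul_cancel₀ _ h2] at this
      by_contra hcon
      push Not at hcon
      refine hno (g 0 0) (fun c e => ?_) hroot
      have hc := hcon c (hπeq.2 ((dvd_mul_left _ _).trans (hP1 ▸ hscal e)))
      refine hc.2 ?_
      have h0 : aeval C (g 0 0 - 1) = algebraMap F R (c - 1) := by
        rw [map_sub, e, map_one, map_sub, map_one]
      have := hzero hc.1 ((dvd_pow_self X (by omega)).trans c00) h0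
      exact sub_eq_zero.1 this
    have hupper : ∀ g ∈ gam F (X : F[X]) ⊓ cong (a + 2), π (g 1 0) = 0 → π (g 0 0) = 1 →
        π (g 1 1) = 1 → ∃ c : F, π (g 0 1) = algebraMap F _ c ∧ (1 ≤ a → c = 0) := by
      intro g hg h10 h00 h11
      obtain ⟨hg1, hg2⟩ := Subgroup.mem_inf.1 hg
      obtain ⟨c00, c01, c10, c11⟩ := mem_cong.1 hg2
      have hroot := h.param_uu hA hB hP hg1 (r := g 0 1)
        (hnd1 c00 ((hπ0 _).1 (by rw [map_sub, h00, map_one, sub_self])))
        (hnd1 c11 ((hπ0 _).1 (by rw [map_sub, h11, map_one, sub_self])))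
        (hnd c10 ((hπ0 _).1 h10)) (by rw [sub_self]; exact dvd_zero _)
      by_contra hcon
      push Not at hcon
      refine hno (g 0 1) (fun c e => ?_) hroot
      have hc := hcon c (hπeq.2 ((dvd_mul_left _ _).trans (hP1 ▸ hscal e)))
      exact hc.2 (hzero hc.1 ((dvd_pow_self X (by omega)).trans c01) e)
    have h3L : (3 : AdjoinRoot P1) = 0 := by
      rw [← map_ofNat (algebraMap F (AdjoinRoot P1)) 3, show (3 : F) = 0 from by
        exact_mod_cast CharP.cast_eq_zero F 3, map_zero]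
    have htri : ∀ g ∈ gam F (X : F[X]) ⊓ cong (a + 2), π (g 1 0) = 0 →
        (π (g 0 0) = 1 ∨ π (g 0 0) = -1) ∧ (1 ≤ a → π (g 0 0) = 1 ∧ π (g 1 1) = 1) := by
      intro g hg h10
      obtain ⟨c, hc, hc1⟩ := hdiag g hg h10
      have hd := congrArg π (det_eq g)
      rw [map_sub, map_mul, map_mul, h10, mul_zero, sub_zero, map_one, hc] at hd
      refine ⟨?_, fun ha => ?_⟩
      · rcases tri_of_card_three h3 c with t | t | t <;> rw [t] at hc hd <;> simp at hc hd
        · exact Or.inl hc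
        · exact Or.inr hc
      · rw [hc1 ha, map_one] at hc hd
        exact ⟨hc, by rwa [one_mul] at hd⟩
    obtain ⟨hαc, g', hg', h10', hne⟩ := core (Γ := Γ) (N := N) h3L hαu
      (by simpa using uu_mem_gam F α 1) (by simpa using vv_mem_gam F α 1)
      (by rw [← hmap]; exact Subgroup.map_mono inf_le_left)
      (by
        rintro g hg _ ⟨x, hx, rfl⟩
        rw [← hmap] at hg
        obtain ⟨g1, hg1, rfl⟩ := hg
        obtain ⟨hx1, hx2⟩ := Subgroup.mem_inf.1 hx
        exact ⟨g1 * x * g1⁻¹, Subgroup.mem_inf.2 ⟨mul_mem (mul_mem hg1 hx1) (inv_mem hg1),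
          (MonoidHom.normal_ker _).conj_mem x hx2 g1⟩, by simp⟩)
      (by
        intro g hg
        rw [← hmap] at hg
        obtain ⟨g1, hg1, rfl⟩ := hg
        exact ⟨2 * (a + 2), g1 ^ 3 ^ (2 * (a + 2)),
          Subgroup.mem_inf.2 ⟨pow_mem hg1 _, pow_mem_cong Nat.prime_three hg1⟩, by simp⟩)
      (by
        rintro _ ⟨g, hg, rfl⟩ h10
        have := (htri g hg (by simpa using h10)).1
        simpa using this)
      (by
        rintro b ⟨g, hg, hgb⟩
        have e00 := congrArg (fun x : Matrix.SpecialLinearGroup (Fin 2) _ => x 0 0) hgb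
        have e01 := congrArg (fun x : Matrix.SpecialLinearGroup (Fin 2) _ => x 0 1) hgb
        have e10 := congrArg (fun x : Matrix.SpecialLinearGroup (Fin 2) _ => x 1 0) hgb
        have e11 := congrArg (fun x : Matrix.SpecialLinearGroup (Fin 2) _ => x 1 1) hgb
        simp at e00 e01 e10 e11
        obtain ⟨c, hc, -⟩ := hupper g hg e10 e00 e11
        rw [← e01, hc]
        rcases tri_of_card_three h3 c with t | t | t <;> simp [t, Tri])
    rcases Nat.eq_zero_or_pos a with ha | ha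
    · rcases hαc with t | t
      · exact hαscal ha 1 (by rw [t, map_one])
      · exact hαscal ha (-1) (by rw [t, map_neg, map_one])
    · obtain ⟨g, hg, rfl⟩ := hg'
      have h10 : π (g 1 0) = 0 := by simpa using h10'
      obtain ⟨-, hstrong⟩ := htri g hg h10
      obtain ⟨e00, e11⟩ := hstrong ha
      obtain ⟨c, hc, hc0⟩ := hupper g hg h10 e00 e11
      rw [hc0 ha, map_zero] at hc
      exact hne (by apply sl_ext <;> simp [e00, e11, h10, hc])
  · -- at least five elements
    have hfull : upperSet (gam F α) = ⊤ := upperSet_eq_top h2 h3 α hαu hgen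
    have hu' : ∀ r, uu r ∈ gam F α := fun r => by
      rw [← mem_upperSet, hfull]; exact AddSubgroup.mem_top r
    have hv' : ∀ r, vv r ∈ gam F α := vv_mem_of_upperSet hαu hfull
    obtain ⟨μ, hμ0, hμ1⟩ := exists_sq_ne_one (five_le_card h2 h3)
    set ι := algebraMap F (AdjoinRoot P1)
    set d := uu (ι μ) * vv (-ι μ⁻¹) * uu (ι μ) * (uu 1 * vv (-1) * uu (1 : AdjoinRoot P1))⁻¹
      with hd
    have hμi : ι μ * ι μ⁻¹ = 1 := by rw [← map_mul, mul_inv_cancel₀ hμ0, map_one]
    have hd00 : d 0 0 = ι μ := by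
      simp [hd, Matrix.mul_apply, Fin.sum_univ_two, Matrix.adjugate_fin_two]
      linear_combination -(ι μ) * hμi
    have hd10 : d 1 0 = 0 := by
      simp [hd, Matrix.mul_apply, Fin.sum_univ_two, Matrix.adjugate_fin_two]
      linear_combination -hμi
    have hdm : d ∈ (gam F (X : F[X])).map
        (Matrix.SpecialLinearGroup.map (π : F[X] →+* AdjoinRoot P1)) := by
      rw [hmap]
      exact mul_mem (mul_mem (mul_mem (hu' _) (hv' _)) (hu' _))
        (inv_mem (mul_mem (mul_mem (hu' _) (hv' _)) (hu' _)))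
    obtain ⟨τ, hτ, hτd⟩ := hdm
    have hdn : ∀ n : ℕ, (d ^ n) 1 0 = 0 ∧ (d ^ n) 0 0 = ι μ ^ n := by
      intro n
      induction n with
      | zero => simp
      | succ n ih =>
        constructor <;> rw [pow_succ] <;> simp only [Matrix.SpecialLinearGroup.coe_mul,
          Matrix.mul_apply, Fin.sum_univ_two, ih.1, ih.2, hd10, hd00]
        · ring
        · ring
    set N := p ^ (2 * (a + 2)) with hN
    set μ' := μ ^ N with hμ'
    have hμ'1 : μ' * μ' - 1 ≠ 0 := by
      intro e0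
      apply hμ1
      have e2 : (μ * μ - 1) ^ N = 0 := by rw [hN, sub_pow_char_pow, one_pow, mul_pow, ← hN]; exact e0
      exact sub_eq_zero.1 (eq_zero_of_pow_eq_zero e2)
    set r : F[X] := if a = 0 then X * e else e with hr
    set s : AdjoinRoot P1 := ι (μ' * μ' - 1)⁻¹ * π r
    have hs : uu s ∈ (gam F (X : F[X])).map
        (Matrix.SpecialLinearGroup.map (π : F[X] →+* AdjoinRoot P1)) := hmap ▸ hu' s
    obtain ⟨hh, hhm, hhs⟩ := hs
    set g := τ ^ N * hh * (τ ^ N)⁻¹ * hh⁻¹ with hg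
    have hgm : g ∈ gam F (X : F[X]) :=
      mul_mem (mul_mem (mul_mem (pow_mem hτ _) hhm) (inv_mem (pow_mem hτ _))) (inv_mem hhm)
    have hg0 : g ∈ cong (a + 2) := by
      have := pow_mem_cong (n := a + 2) hp hτ
      have h2' := (MonoidHom.normal_ker _).conj_mem _ (inv_mem this) hh
      have := mul_mem this h2'
      rwa [show τ ^ N * (hh * (τ ^ N)⁻¹ * hh⁻¹) = g by rw [hg]; group] at this
    have hπg : Matrix.SpecialLinearGroup.map (π : F[X] →+* AdjoinRoot P1) g = uu (π r) := by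
      simp only [hg, map_mul, map_inv, map_pow, hτd, hhs]
      rw [conj_uu_of_upper _ _ (hdn N).1, (hdn N).2, uu_inv, uu_add]
      congr 1
      have : ι (μ' * μ' - 1) * ι (μ' * μ' - 1)⁻¹ = 1 := by
        rw [← map_mul, mul_inv_cancel₀ hμ'1, map_one]
      simp only [s, hμ', map_sub, map_mul, map_pow, map_one] at this ⊢
      linear_combination π r * this
    obtain ⟨c00, c01, c10, c11⟩ := mem_cong.1 hg0
    have e00 := congrArg (fun x : Matrix.SpecialLinearGroup (Fin 2) _ => x 0 0) hπg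
    have e01 := congrArg (fun x : Matrix.SpecialLinearGroup (Fin 2) _ => x 0 1) hπg
    have e10 := congrArg (fun x : Matrix.SpecialLinearGroup (Fin 2) _ => x 1 0) hπg
    have e11 := congrArg (fun x : Matrix.SpecialLinearGroup (Fin 2) _ => x 1 1) hπg
    simp at e00 e01 e10 e11
    have hre : X ^ (a + 2) ∣ r := by
      rw [hr]; split_ifs
      · exact (dvd_mul_left _ _).mul_left _
      · exact dvd_mul_left _ _
    refine ⟨r, fun c hc => ?_, h.param_uu hA hB hP hgm (r := r)
      (hnd1 c00 ((hπ0 _).1 (by rw [map_sub, e00, map_one, sub_self])))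
      (hnd1 c11 ((hπ0 _).1 (by rw [map_sub, e11, map_one, sub_self])))
      (hnd c10 ((hπ0 _).1 e10)) (hnd0 (dvd_sub c01 hre)
        ((hπ0 _).1 (by rw [map_sub, e01, sub_self])))⟩
    have hc' : π r = algebraMap F _ c := hπeq.2 ((dvd_mul_left _ _).trans (hP1 ▸ hscal hc))
    rcases Nat.eq_zero_or_pos a with ha | ha
    · rw [hr, if_pos ha, map_mul, hπe, mul_one, hπX] at hc'
      exact hαscal ha c hc'
    · have hc0 := hzero ha ((dvd_pow_self X (by omega)).trans hre) hc
      rw [hr, if_neg (by omega), hπe, hc0, map_zero] at hc'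
      exact one_ne_zero hc'

end Cfsg.Agent.MaxSub.TensorPowSp
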