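import Cfsg.Agent.MaxSub.TensorPowSp.Setup

/-!
Root elements all of whose compressions are scalar lie in the Lie algebra of the sites, hence are
supported on one site.
-/

set_option autoImplicit false
set_option linter.unusedSectionVars false
set_option linter.unusedSimpArgs false
set_option maxHeartbeats 800000

namespace Cfsg.Agent.MaxSub.TensorPowSp

open Matrix Cfsg.Agent.NotMax Cfsg.Agent.GeoClasses

variable {F : Type*} [Field F] {k t : ℕ}

lemma pureMat_update_apply (Ys : Fin t → Matrix (Fin k) (Fin k) F) (j : Fin t) (a c : Fin t → Fin k)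
    (p q : Fin k) :
    pureMat Ys (Function.update a j p) (Function.update c j q) =
      Ys j p q * ∏ i ∈ Finset.univ.erase j, Ys i (a i) (c i) := by
  rw [pureMat, ← Finset.mul_prod_erase Finset.univ _ (Finset.mem_univ j), Function.update_self,
    Function.update_self]
  congr 1
  refine Finset.prod_congr rfl fun i hi => ?_
  rw [Function.update_of_ne (Finset.ne_of_mem_erase hi), Function.update_of_ne (Finset.ne_of_mem_erase hi)]

/-- A functional of the site applied blockwise. -/
noncomputable def lift (j : Fin t) (φ : Matrix (Fin k) (Fin k) F →ₗ[F] F) :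
    Matrix (Fin t → Fin k) (Fin t → Fin k) F →ₗ[F] Matrix (Rest k j) (Rest k j) F where
  toFun D := ∑ p, ∑ q, φ (Matrix.single p q 1) • blk j D p q
  map_add' D D' := by simp [Finset.sum_add_distrib]
  map_smul' a D := by simp [Finset.smul_sum, smul_comm a]

lemma lift_site_emb (j : Fin t) (φ : Matrix (Fin k) (Fin k) F →ₗ[F] F) (X : Matrix (Fin k) (Fin k) F)
    (Y : Matrix (Rest k j) (Rest k j) F) : lift j φ (site j X * emb j Y) = φ X • Y := by
  show ∑ p, ∑ q, φ (Matrix.single p q 1) • blk j (site j X * emb j Y) p q = _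
  conv_rhs => rw [Matrix.matrix_eq_sum_single X, map_sum, Finset.sum_smul]
  refine Finset.sum_congr rfl fun p _ => ?_
  rw [map_sum, Finset.sum_smul]
  refine Finset.sum_congr rfl fun q _ => ?_
  rw [blk_site_mul_emb, smul_smul, show Matrix.single p q (X p q) = X p q • Matrix.single p q (1 : F) by
    rw [Matrix.smul_single, smul_eq_mul, mul_one], map_smul, smul_eq_mul, mul_comm]

lemma lift_site (j : Fin t) (φ : Matrix (Fin k) (Fin k) F →ₗ[F] F) (X : Matrix (Fin k) (Fin k) F) :
    lift j φ (site j X) = φ X • (1 : Matrix (Rest k j) (Rest k j) F) := by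
  conv_lhs => rw [← mul_one (site j X), ← map_one (emb j)]
  rw [lift_site_emb]

lemma lift_emb (j : Fin t) (φ : Matrix (Fin k) (Fin k) F →ₗ[F] F) (Y : Matrix (Rest k j) (Rest k j) F) :
    lift j φ (emb j Y) = φ 1 • Y := by
  conv_lhs => rw [← one_mul (emb j Y), ← site_one (F := F) (k := k) j]
  rw [lift_site_emb]

lemma exists_functional [NeZero k] {X : Matrix (Fin k) (Fin k) F} (hX : ∀ a : F, X ≠ a • 1) :
    ∃ φ : Matrix (Fin k) (Fin k) F →ₗ[F] F, φ 1 = 0 ∧ φ X = 1 := by
  have hn : X ∉ F ∙ (1 : Matrix (Fin k) (Fin k) F) := fun h => by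
    obtain ⟨a, ha⟩ := Submodule.mem_span_singleton.1 h
    exact hX a ha.symm
  obtain ⟨g, hg, hg0⟩ := Submodule.exists_dual_map_eq_bot_of_notMem hn inferInstance
  refine ⟨(g X)⁻¹ • g, ?_, by simp [hg]⟩
  have : g 1 = 0 := (Submodule.eq_bot_iff _).1 hg0 _ ⟨1, Submodule.mem_span_singleton_self _, rfl⟩
  simp [this]

/-- The Lie algebra of the sites. -/
def IsLie (B : Matrix (Fin t → Fin k) (Fin t → Fin k) F) : Prop :=
  ∃ X : Fin t → Matrix (Fin k) (Fin k) F, B = ∑ i, site i (X i)

lemma exists_emb_sum [NeZero k] (j : Fin t) (X : Fin t → Matrix (Fin k) (Fin k) F) :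
    ∃ W, ∑ i ∈ Finset.univ.erase j, site i (X i) = emb j W :=
  exists_emb_of_commute j fun _ => Commute.sum_right _ _ _ fun _ hi =>
    site_comm (Finset.ne_of_mem_erase hi).symm _ _

variable {G : Matrix (Fin k) (Fin k) F} {M : Subgroup (GL (Fin t → Fin k) F)}

lemma Sys.gV_cancel (h : Sys G M) {X Y : Matrix (Fin t → Fin k) (Fin t → Fin k) F}
    (e : gV G t * X = gV G t * Y) : X = Y := by
  have hl : pureMat (fun _ : Fin t => G⁻¹) * gV G t = 1 := by
    rw [gV, pureMat_mul]
    simp only [Matrix.nonsing_inv_mul _ h.det]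
    exact pureMat_one k t
  rw [← one_mul X, ← one_mul Y, ← hl, mul_assoc, e, mul_assoc]

lemma Sys.root_skew (h : Sys G M) {B : Matrix (Fin t → Fin k) (Fin t → Fin k) F} (hB : Root F M B) :
    Bᵀ * gV G t + gV G t * B = 0 := by
  have key : ∀ s : F, s • (Bᵀ * gV G t + gV G t * B) + (s * s) • (Bᵀ * gV G t * B) = 0 := by
    intro s
    obtain ⟨u, hu, hue⟩ := hB s
    have := h.iso u hu
    rw [hue, transpose_add, transpose_one, transpose_smul, add_mul, one_mul, mul_add, mul_one,
      add_mul, smul_mul_assoc, smul_mul_smul_comm, mul_smul_comm] at this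
    rw [← sub_eq_zero] at this
    rw [← this, smul_add]; abel
  have h1 := key 1
  have h2 := key (-1)
  rw [one_smul, one_mul, one_smul] at h1
  rw [neg_one_smul, neg_one_mul, neg_neg, one_smul] at h2
  have : (2 : F) • (Bᵀ * gV G t + gV G t * B) = 0 := by
    rw [two_smul]
    linear_combination (norm := abel) h1 - h2
  exact (smul_eq_zero.1 this).resolve_left h.two

lemma Sys.gV_transpose (h : Sys G M) : (gV G t)ᵀ = (-1 : F) ^ t • gV G t := by
  rw [gV, pureMat_transpose, h.skew, show (fun _ : Fin t => -G) = fun _ => (-1 : F) • G by simp,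
    pureMat_smul, Finset.prod_const, Finset.card_univ, Fintype.card_fin]

/-- Skew matrices with scalar compressions lie in the Lie algebra of the sites. -/
theorem Sys.lie_of_scalar [NeZero k] (h : Sys G M) {B : Matrix (Fin t → Fin k) (Fin t → Fin k) F}
    (hskew : Bᵀ * gV G t + gV G t * B = 0) (hC : ∀ j c, ∃ a : F, comp G j c B = a • 1) :
    ∃ X : Fin t → Matrix (Fin k) (Fin k) F, (∀ i, (X i)ᵀ * G + G * X i = 0) ∧
      B = ∑ i, site i (X i) := by
  classical
  -- the symmetrised blocks
  have hT : ∀ j p q, ∃ a : F, (∑ r, G p r • blk j B r q) + (∑ r, G q r • blk j B r p) = a • 1 := by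
    intro j p q
    have hc : ∀ c : Fin k → F, comp G j c B = ∑ u, ∑ v, (c u * c v) • ∑ r, G u r • blk j B r v := by
      intro c
      rw [comp, Finset.sum_comm]
      conv_rhs => rw [Finset.sum_comm]
      refine Finset.sum_congr rfl fun v _ => ?_
      simp only [Finset.smul_sum, smul_smul, Matrix.vecMul, dotProduct, Finset.sum_mul, Finset.sum_smul]
      rw [Finset.sum_comm]
      refine Finset.sum_congr rfl fun u _ => Finset.sum_congr rfl fun r _ => ?_
      congr 1; ring
    obtain ⟨a, ha⟩ := hC j (Pi.single p 1)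
    obtain ⟨b, hb⟩ := hC j (Pi.single q 1)
    obtain ⟨d, hd⟩ := hC j (Pi.single p 1 + Pi.single q 1)
    refine ⟨d - a - b, ?_⟩
    rw [hc] at ha hb hd
    simp only [Pi.add_apply, Pi.single_apply, add_mul, mul_add, ite_mul, mul_ite, one_mul, mul_one,
      zero_mul, mul_zero, add_smul, ite_smul, zero_smul, one_smul, Finset.sum_add_distrib,
      Finset.sum_ite_eq', Finset.mem_univ, if_true] at ha hb hd
    rw [sub_smul, sub_smul, ← ha, ← hb, ← hd]; abel
  choose s hs using hT
  have hsym : ∀ j p q, s j p q = s j q p := fun j p q => by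
    have := (hs j p q).symm.trans ((add_comm _ _).trans (hs j q p))
    exact smul_left_injective F (one_ne_zero (α := Matrix (Rest k j) (Rest k j) F)) this
  let S : Fin t → Matrix (Fin k) (Fin k) F := fun i => (2 : F)⁻¹ • Matrix.of (s i)
  let T : Fin t → Matrix (Fin t → Fin k) (Fin t → Fin k) F := fun i =>
    pureMat (Function.update (fun _ => G) i (S i))
  set b := gV G t * B with hb
  set b' := b - ∑ i, T i with hb'
  have hswap : ∀ (j : Fin t) (p q : Fin k) (a c : Fin t → Fin k),
      b' (Function.update a j p) (Function.update c j q) +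
        b' (Function.update a j q) (Function.update c j p) = 0 := by
    intro j p q a c
    have hbj : b (Function.update a j p) (Function.update c j q) +
        b (Function.update a j q) (Function.update c j p) =
        s j p q * ∏ i ∈ Finset.univ.erase j, G (a i) (c i) := by
      set W : Matrix (Rest k j) (Rest k j) F := fun u u' => ∏ i, G (u i) (u' i) with hW
      have hblk : ∀ u v, blk j b u v = W * ∑ r, G u r • blk j B r v := by
        intro u v
        rw [hb, map_mul, Matrix.mul_apply, Finset.mul_sum]
        refine Finset.sum_congr rfl fun r _ => ?_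
        have : blk j (gV G t) u r = G u r • W := by
          ext x y
          rw [blk_apply, gV, pureMat, ← Finset.mul_prod_erase Finset.univ _ (Finset.mem_univ j),
            split_symm_self, split_symm_self, Matrix.smul_apply, smul_eq_mul, hW]
          congr 1
          rw [Finset.prod_subtype (Finset.univ.erase j) (p := fun i => i ≠ j) (fun i => by simp)]
          exact Finset.prod_congr rfl fun i _ => by rw [split_symm_ne i.2, split_symm_ne i.2]
        rw [this, smul_mul_assoc, mul_smul_comm]
      have e : ∀ u v, b (Function.update a j u) (Function.update c j v) =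
          blk j b u v (fun i => a i.1) (fun i => c i.1) := fun u v => by
        rw [blk_apply, split_symm_of, split_symm_of]
      rw [e, e, hblk, hblk, ← Matrix.add_apply, ← mul_add, hs, mul_smul_comm, mul_one, Matrix.smul_apply,
        smul_eq_mul]
      congr 1
      rw [Finset.prod_subtype (Finset.univ.erase j) (p := fun i => i ≠ j) (fun i => by simp)]
    have hTsum : ∀ i, T i (Function.update a j p) (Function.update c j q) +
        T i (Function.update a j q) (Function.update c j p) =
        if i = j then s j p q * ∏ i ∈ Finset.univ.erase j, G (a i) (c i) else 0 := by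
      intro i
      simp only [T, pureMat_update_apply]
      by_cases hij : i = j
      · subst hij
        rw [if_pos rfl, Finset.prod_congr rfl fun l hl => by
          rw [Function.update_of_ne (Finset.ne_of_mem_erase hl)]]
        simp [S, hsym i q p]
        field_simp [h.two]
        ring
      · rw [if_neg hij, Function.update_of_ne (Ne.symm hij), ← add_mul]
        have : G q p = -G p q := by
          simpa using congrFun (congrFun h.skew p) q
        rw [this, add_neg_cancel, zero_mul]
    simp only [hb', Matrix.sub_apply, Matrix.sum_apply]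
    rw [sub_add_sub_comm, hbj, ← Finset.sum_add_distrib, Finset.sum_congr rfl fun i _ => hTsum i]
    simp
  have hmix : ∀ (U : Finset (Fin t)) (a c : Fin t → Fin k),
      b' (fun i => if i ∈ U then c i else a i) (fun i => if i ∈ U then a i else c i) =
        (-1) ^ U.card * b' a c := by
    intro U
    induction U using Finset.induction with
    | empty => intro a c; simp
    | insert j U hj ih =>
      intro a c
      rw [Finset.card_insert_of_notMem hj, pow_succ', mul_assoc, ← ih a c, neg_one_mul,
        eq_neg_iff_add_eq_zero]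
      have := hswap j (c j) (a j) (fun i => if i ∈ U then c i else a i)
        (fun i => if i ∈ U then a i else c i)
      convert this using 3 <;> funext i <;> by_cases hi : i = j
      all_goals first
        | (subst hi; simp [hj]; done)
        | simp [hi]
  have hT' : ∀ i, (T i)ᵀ = (-1 : F) ^ (t - 1) • T i := by
    intro i
    simp only [T, pureMat_transpose]
    rw [show (fun l => (Function.update (fun _ => G) i (S i) l)ᵀ) =
        fun l => (if l = i then (1 : F) else -1) • Function.update (fun _ => G) i (S i) l from ?_,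
      pureMat_smul, ← Finset.mul_prod_erase Finset.univ _ (Finset.mem_univ i), if_pos rfl, one_mul,
      Finset.prod_congr rfl (fun l hl => if_neg (Finset.ne_of_mem_erase hl)), Finset.prod_const,
      Finset.card_erase_of_mem (Finset.mem_univ i), Finset.card_univ, Fintype.card_fin]
    funext l
    by_cases hl : l = i
    · subst hl
      simp only [Function.update_self, if_true, one_smul, S, transpose_smul]
      congr 1
      ext p q
      exact hsym l q p
    · simp [hl, h.skew]
  have hb0 : b' = 0 := by
    have hsg : (-1 : F) ^ t = (-1) ^ (t - 1) * -1 := by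
      rw [← pow_succ, Nat.sub_add_cancel h.pos]
    have hbt : bᵀ = (-1 : F) ^ (t - 1) • b := by
      rw [hb, transpose_mul, h.gV_transpose, mul_smul_comm, eq_neg_of_add_eq_zero_left hskew, hsg,
        mul_smul, neg_one_smul, neg_neg]
    have ht : b'ᵀ = (-1 : F) ^ (t - 1) • b' := by
      rw [hb', transpose_sub, hbt, transpose_sum, Finset.sum_congr rfl fun i _ => hT' i,
        smul_sub, Finset.smul_sum]
    ext a c
    have := hmix Finset.univ a c
    simp only [Finset.mem_univ, if_true, Finset.card_univ, Fintype.card_fin, hsg] at this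
    rw [show b' c a = (-1 : F) ^ (t - 1) * b' a c from congrFun (congrFun ht a) c] at this
    have hu : ((-1 : F) ^ (t - 1)) ≠ 0 := pow_ne_zero _ (neg_ne_zero.2 one_ne_zero)
    have h2 : (2 : F) * b' a c = 0 :=
      (mul_eq_zero.1 (show (-1 : F) ^ (t - 1) * ((2 : F) * b' a c) = 0 by
        linear_combination this)).resolve_left hu
    simpa using (mul_eq_zero.1 h2).resolve_left h.two
  refine ⟨fun i => G⁻¹ * S i, fun i => ?_, h.gV_cancel ?_⟩
  · have e : G * (G⁻¹ * S i) = S i := by rw [← mul_assoc, Matrix.mul_nonsing_inv _ h.det, one_mul]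
    have hSt : (S i)ᵀ = S i := by
      simp only [S, transpose_smul]
      congr 1
      ext p q
      exact hsym i q p
    rw [e, show G = -Gᵀ by rw [h.skew, neg_neg], mul_neg, ← transpose_mul,
      show (-Gᵀ)⁻¹ = G⁻¹ by rw [h.skew, neg_neg], e, hSt, neg_add_cancel]
  · rw [← hb, sub_eq_zero.1 (hb'.symm.trans hb0), Finset.mul_sum]
    refine Finset.sum_congr rfl fun i _ => ?_
    simp only [T, gV, site, pureMat_mul]
    congr 1
    funext l
    by_cases hl : l = i
    · subst hl; simp [← mul_assoc, Matrix.mul_nonsing_inv _ h.det]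
    · simp [hl]

lemma Sys.eq_zero_of_smul_one (h : Sys G M) [NeZero k] {X : Matrix (Fin k) (Fin k) F} {a : F}
    (hX : X = a • 1) (hsp : Xᵀ * G + G * X = 0) : X = 0 := by
  subst hX
  rw [transpose_smul, transpose_one, smul_mul_assoc, one_mul, mul_smul_comm, mul_one, ← add_smul,
    ← two_mul, smul_eq_zero] at hsp
  rcases hsp with e | e
  · rw [(mul_eq_zero.1 e).resolve_left h.two, zero_smul]
  · have := h.det
    rw [e, Matrix.det_zero] at this
    exact absurd this not_isUnit_zero

/-- Square zero elements of the Lie algebra of the sites are supported on one site. -/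
theorem Sys.single_of_sum (h : Sys G M) [NeZero k] {X : Fin t → Matrix (Fin k) (Fin k) F}
    (hsp : ∀ i, (X i)ᵀ * G + G * X i = 0) (hsq : (∑ i, site i (X i)) * (∑ i, site i (X i)) = 0) :
    ∃ j, ∑ i, site i (X i) = site j (X j) := by
  classical
  by_cases h0 : ∀ i, X i = 0
  · exact ⟨⟨0, h.pos⟩, by simp [h0, site_zero]⟩
  push Not at h0
  obtain ⟨j, hj⟩ := h0
  refine ⟨j, ?_⟩
  obtain ⟨φ, hφ1, hφX⟩ := exists_functional (X := X j) fun a e => hj (h.eq_zero_of_smul_one e (hsp j))
  have hsplit : ∑ i, site i (X i) = site j (X j) + ∑ i ∈ Finset.univ.erase j, site i (X i) :=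
    (Finset.add_sum_erase _ _ (Finset.mem_univ j)).symm
  obtain ⟨Y, hY⟩ := exists_emb_sum j X
  rw [hsplit, hY, add_mul, mul_add, mul_add, site_mul, ← (site_comm_emb j (X j) Y).eq,
    ← map_mul (emb j) Y Y] at hsq
  have hl := congrArg (lift j φ) hsq
  rw [map_add, map_add, map_add, lift_site, lift_site_emb, lift_emb, hφ1, hφX, zero_smul, add_zero,
    one_smul, map_zero] at hl
  have hYs : Y = (-(2 : F)⁻¹ * φ (X j * X j)) • 1 := by
    have h2 : (2 : F) • Y = -(φ (X j * X j) • (1 : Matrix (Rest k j) (Rest k j) F)) := by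
      rw [two_smul, eq_neg_iff_add_eq_zero, ← hl]; abel
    have := congrArg (((2 : F)⁻¹) • ·) h2
    simpa [smul_smul, inv_mul_cancel₀ h.two, neg_smul] using this
  set a := -(2 : F)⁻¹ * φ (X j * X j)
  rw [hsplit]
  suffices hz : ∀ i, i ≠ j → X i = 0 by
    rw [Finset.sum_eq_zero fun i hi => by rw [hz i (Finset.ne_of_mem_erase hi), site_zero], add_zero]
  intro i hij
  by_contra hi
  obtain ⟨ψ, hψ1, hψX⟩ := exists_functional (X := X i) fun b e => hi (h.eq_zero_of_smul_one e (hsp i))
  have e2 : site i (X i) + ∑ l ∈ Finset.univ.erase i, site l (Function.update X j 0 l) =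
      ∑ l ∈ Finset.univ.erase j, site l (X l) := by
    have := Finset.add_sum_erase Finset.univ (fun l => site l (Function.update X j 0 l)) (Finset.mem_univ i)
    rw [Function.update_of_ne hij] at this
    rw [this, ← Finset.add_sum_erase Finset.univ _ (Finset.mem_univ j), Function.update_self, site_zero,
      zero_add]
    exact Finset.sum_congr rfl fun l hl => by rw [Function.update_of_ne (Finset.ne_of_mem_erase hl)]
  obtain ⟨W, hW⟩ := exists_emb_sum i (Function.update X j 0)
  rw [hY, hW, hYs, map_smul, map_one] at e2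
  have := congrArg (lift i ψ) e2
  rw [map_add, lift_site, lift_emb, hψ1, hψX, zero_smul, add_zero, one_smul, map_smul,
    ← map_one (emb (F := F) (k := k) i), lift_emb, hψ1, zero_smul, smul_zero] at this
  exact one_ne_zero this

/-- A non-scalar parameter gives an element outside the Lie algebra of the sites. -/
theorem Sys.not_isLie (h : Sys G M) [NeZero k] (j : Fin t) {c : Fin k → F} (hc : c ≠ 0)
    {Y : Matrix (Rest k j) (Rest k j) F} (hY : ∀ a : F, Y ≠ a • 1) :
    ¬ IsLie (site j (E G c) * emb j Y) := by
  rintro ⟨X, hX⟩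
  obtain ⟨φ, hφ1, hφE⟩ := exists_functional (X := E G c) fun a e => by
    have h2 := h.E_sq c
    rw [e, smul_mul_smul_comm, one_mul, smul_eq_zero] at h2
    rcases h2 with h2 | h2
    · exact h.E_ne_zero hc (by rw [e, mul_self_eq_zero.1 h2, zero_smul])
    · exact one_ne_zero h2
  obtain ⟨W, hW⟩ := exists_emb_sum j X
  rw [← Finset.add_sum_erase _ _ (Finset.mem_univ j), hW] at hX
  have := congrArg (lift j φ) hX
  rw [lift_site_emb, map_add, lift_site, lift_emb, hφE, hφ1, one_smul, zero_smul, add_zero] at this
  exact hY _ this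

/-- A parameter outside the sites, or conjugates of site transvections are site elements. -/
theorem Sys.param_or_sites [Fintype F] [NeZero k] (h : Sys G M) (hk : Nat.card F = 3 → 4 ≤ k) :
    (∃ (j : Fin t) (c : Fin k → F) (Y : Matrix (Rest k j) (Rest k j) F),
      c ≠ 0 ∧ (∀ a : F, Y ≠ a • 1) ∧ Root F M (site j (E G c) * emb j Y)) ∨
    ∀ g ∈ M, ∀ i z, ∃ j X, (g : Matrix (Fin t → Fin k) (Fin t → Fin k) F) * site i (E G z) *
      ((g⁻¹ : GL (Fin t → Fin k) F) : Matrix (Fin t → Fin k) (Fin t → Fin k) F) = site j X := by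
  by_cases hex : ∃ (j : Fin t) (c : Fin k → F) (Y : Matrix (Rest k j) (Rest k j) F),
      c ≠ 0 ∧ (∀ a : F, Y ≠ a • 1) ∧ Root F M (site j (E G c) * emb j Y)
  · exact Or.inl hex
  refine Or.inr fun g hg i z => ?_
  set B := (g : Matrix (Fin t → Fin k) (Fin t → Fin k) F) * site i (E G z) *
      ((g⁻¹ : GL (Fin t → Fin k) F) : Matrix (Fin t → Fin k) (Fin t → Fin k) F) with hB
  have hBB : B * B = 0 := by
    simp only [hB, mul_assoc, Units.inv_mul_cancel_left]
    rw [← mul_assoc (site i _) (site i _), site_mul, h.E_sq, site_zero, zero_mul, mul_zero]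
  have hroot : Root F M B := (h.rootE i z).conj hg
  obtain ⟨X, hsp, hX⟩ := h.lie_of_scalar (h.root_skew hroot) fun j c => by
    by_contra hno
    push Not at hno
    obtain ⟨Y, hY, hYr⟩ := h.exists_param hk j c hBB hroot hno
    refine hex ⟨j, c, Y, fun hc => hno 0 ?_, hY, hYr⟩
    simp [comp, hc]
  rw [hX] at hBB ⊢
  obtain ⟨j, hj⟩ := h.single_of_sum hsp hBB
  exact ⟨j, _, hj⟩

end Cfsg.Agent.MaxSub.TensorPowSp
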