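import Cfsg.Agent.MaxSub.TensorPowSp.Vectors
import Cfsg.Agent.NotMax.TensorPower
import Cfsg.Agent.GeoClasses.SympMax

/-!
The stabiliser of a symplectic tensor power is maximal in the symplectic group.
-/

set_option autoImplicit false
set_option linter.unusedSectionVars false
set_option linter.unusedSimpArgs false

namespace Cfsg.Agent.MaxSub.TensorPowSp

open Matrix Cfsg.Geo Cfsg.Agent.NotMax Cfsg.Agent.GeoClasses Cfsg.Agent.ClassicalMax Cfsg.Agent.Forms
open scoped MatrixGroups Matrix

variable {F : Type*} [Field F] {k t : ℕ}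

lemma transv_iso {G : Matrix (Fin k) (Fin k) F} (hskew : Gᵀ = -G) (h2 : (2 : F) ≠ 0) (z : Fin k → F)
    (s : F) : fG G z z = 0 ∧ (1 + s • E G z)ᵀ * G * (1 + s • E G z) = G := by
  have hswap : fG G z z = -fG G z z := by
    conv_lhs => rw [fG, ← dotProduct_mulVec, dotProduct_comm z (G *ᵥ z), ← vecMul_transpose, hskew,
      vecMul_neg, neg_dotProduct]
    rfl
  have h0 : fG G z z = 0 :=
    (mul_eq_zero.1 (show (2 : F) * fG G z z = 0 by linear_combination hswap)).resolve_left h2
  refine ⟨h0, ?_⟩
  have hGv : G *ᵥ z = -(z ᵥ* G) := by rw [← vecMul_transpose, hskew, vecMul_neg]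
  have e1 : (E G z)ᵀ * G + G * E G z = 0 := by
    rw [E, transpose_vecMulVec, vecMulVec_mul, mul_vecMulVec, hGv, neg_vecMulVec, add_neg_cancel]
  have e2 : (E G z)ᵀ * G * E G z = 0 := by
    rw [eq_neg_of_add_eq_zero_left e1, neg_mul, mul_assoc,
      show E G z * E G z = 0 by rw [E, vec_mul_vec, h0, zero_smul], mul_zero, neg_zero]
  rw [transpose_add, transpose_one, transpose_smul, add_mul, one_mul, mul_add, mul_one, add_mul,
    smul_mul_assoc, smul_mul_smul_comm, e2, smul_zero, add_zero, mul_smul_comm, add_assoc,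
    ← smul_add, e1, smul_zero, add_zero]

/-- An element adding a multiple of one pure vector does not permute pure vectors. -/
lemma not_pure_transv {G : Matrix (Fin k) (Fin k) F} {M : Subgroup (GL (Fin t → Fin k) F)}
    (h : Sys G M) (ht : 3 ≤ t) {μ : F} (hμ : μ ≠ 0) {y : Fin t → Fin k → F} (hy : ∀ i, y i ≠ 0)
    (cs : Fin t → GL (Fin k) F) (π : Equiv.Perm (Fin t)) :
    (1 + μ • pureMat fun i => E G (y i) : Matrix (Fin t → Fin k) (Fin t → Fin k) F) ≠
      pureMat (fun i => (cs i : Matrix (Fin k) (Fin k) F)) * factorPerm k π := by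
  classical
  intro e
  choose u hu using fun i => h.exists_fG_eq_one (hy i)
  have hperm : ∀ w : Fin t → Fin k → F,
      (factorPerm k π : Matrix (Fin t → Fin k) (Fin t → Fin k) F) *ᵥ pureVec w =
        pureVec fun i => w (π.symm i) := by
    intro w
    ext x
    simp only [Matrix.mulVec, dotProduct, factorPerm, ite_mul, one_mul, zero_mul, Finset.sum_ite_eq',
      Finset.mem_univ, if_true, pureVec, Function.comp_apply]
    exact Fintype.prod_equiv π _ _ fun i => by simp
  set T : Fin t → Fin k → F := fun i => (cs i : Matrix (Fin k) (Fin k) F) *ᵥ u (π.symm i)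
  have hsum : pureVec u + μ • pureVec y = pureVec T := by
    have := congrArg (fun D => D *ᵥ pureVec u) e
    simp only [add_mulVec, one_mulVec, smul_mulVec, ← mulVec_mulVec, hperm, pureMat_mulVec] at this
    rw [← this]
    congr 2
    rw [show (fun i => E G (y i) *ᵥ u i) = y from funext fun i => by rw [E_mulVec, hu, one_smul]]
  let i0 : Fin t := ⟨0, by omega⟩
  let i1 : Fin t := ⟨1, by omega⟩
  have h01 : i0 ≠ i1 := by simp [i0, i1, Fin.ext_iff]
  set a : Fin t → Fin k → F := fun i => y i ᵥ* G with ha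
  set a' : Fin t → Fin k → F := fun i => -(u i ᵥ* G) with ha'
  have v1 : ∀ i, a i ⬝ᵥ u i = 1 := hu
  have v2 : ∀ i, a i ⬝ᵥ y i = 0 := fun i => h.fG_self (y i)
  have v3 : ∀ i, a' i ⬝ᵥ u i = 0 := fun i => by
    rw [ha', neg_dotProduct, show (u i ᵥ* G) ⬝ᵥ u i = 0 from h.fG_self (u i), neg_zero]
  have v4 : ∀ i, a' i ⬝ᵥ y i = 1 := fun i => by
    rw [ha', neg_dotProduct, show (u i ᵥ* G) ⬝ᵥ y i = fG G (u i) (y i) from rfl, h.fG_swap (y i) (u i), hu,
      neg_neg]
  have hval : ∀ p q : Bool, ∏ i, (if i = i0 then (if p then a' i else a i) else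
      if i = i1 then (if q then a' i else a i) else a i + a' i) ⬝ᵥ T i =
      (if p then 0 else if q then 0 else 1) + μ * (if p then if q then 1 else 0 else 0) := by
    intro p q
    rw [← dotProduct_pureVec, ← hsum, dotProduct_add, dotProduct_smul, smul_eq_mul, dotProduct_pureVec,
      dotProduct_pureVec]
    congr 1
    · cases p <;> cases q
      · simp only [Bool.false_eq_true, if_false]
        exact Finset.prod_eq_one fun i _ => by split_ifs <;> simp [add_dotProduct, v1, v3]
      all_goals simp only [Bool.false_eq_true, if_false, if_true]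
      · exact Finset.prod_eq_zero (Finset.mem_univ i1) (by simp [h01.symm, v3])
      · exact Finset.prod_eq_zero (Finset.mem_univ i0) (by simp [v3])
      · exact Finset.prod_eq_zero (Finset.mem_univ i0) (by simp [v3])
    · congr 1
      cases p <;> cases q
      all_goals simp only [Bool.false_eq_true, if_false, if_true]
      · exact Finset.prod_eq_zero (Finset.mem_univ i0) (by simp [v2])
      · exact Finset.prod_eq_zero (Finset.mem_univ i0) (by simp [v2])
      · exact Finset.prod_eq_zero (Finset.mem_univ i1) (by simp [h01.symm, v2])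
      · exact Finset.prod_eq_one fun i _ => by split_ifs <;> simp [add_dotProduct, v2, v4]
  have hsplit : ∀ p q : Bool, ∏ i, (if i = i0 then (if p then a' i else a i) else
      if i = i1 then (if q then a' i else a i) else a i + a' i) ⬝ᵥ T i =
      ((if p then a' i0 else a i0) ⬝ᵥ T i0) * (((if q then a' i1 else a i1) ⬝ᵥ T i1) *
        ∏ i ∈ (Finset.univ.erase i0).erase i1, (a i + a' i) ⬝ᵥ T i) := by
    intro p q
    rw [← Finset.mul_prod_erase Finset.univ _ (Finset.mem_univ i0),
      ← Finset.mul_prod_erase (Finset.univ.erase i0) _ (Finset.mem_erase.2 ⟨h01.symm, Finset.mem_univ i1⟩),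
      if_pos rfl, if_neg h01.symm, if_pos rfl]
    congr 2
    refine Finset.prod_congr rfl fun i hi => ?_
    simp only [Finset.mem_erase] at hi
    rw [if_neg hi.2.1, if_neg hi.1]
  have c00 := (hsplit false false).symm.trans (hval false false)
  have c11 := (hsplit true true).symm.trans (hval true true)
  have c01 := (hsplit false true).symm.trans (hval false true)
  simp at c00 c11 c01
  rcases c01 with e0 | e0 | e0
  · rw [e0, zero_mul] at c00; exact zero_ne_one c00
  · rw [e0, zero_mul, mul_zero] at c11; exact hμ c11.symm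
  · rw [e0, mul_zero, mul_zero] at c00; exact zero_ne_one c00

variable {m : ℕ}

/-- Centres closed under hyperbolic planes and containing a set meeting every pair of non-zero
functionals contain everything. -/
lemma spCentres_eq_univ {K : Subgroup (GL (Fin m ⊕ Fin m) F)} (h2 : (2 : F) ≠ 0)
    {P : Set (Fin m ⊕ Fin m → F)} (hP : P ⊆ spCentres K)
    (hspan : ∀ v, v ∈ Submodule.span F P)
    (hpair : ∀ a b : Fin m ⊕ Fin m → F, a ≠ 0 → b ≠ 0 →
      ∃ z ∈ P, sympBil m F a z ≠ 0 ∧ sympBil m F b z ≠ 0)
    (v : Fin m ⊕ Fin m → F) : v ∈ spCentres K := by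
  have hzero : (0 : Fin m ⊕ Fin m → F) ∈ spCentres K := fun c => by
    convert one_mem K using 1
    refine gl_ext_mulVec fun x => ?_
    simp [spTau_apply]
  have hplane : ∀ x y z : Fin m ⊕ Fin m → F, x ∈ spCentres K → y ∈ spCentres K → z ∈ spCentres K →
      sympBil m F x y = 0 → sympBil m F x z ≠ 0 → sympBil m F y z ≠ 0 → sympBil m F (x + y) z ≠ 0 →
      x + y ∈ spCentres K := by
    intro x y z hx hy hz hxy h1 h2' h3
    have hxz : x + z ∈ spCentres K := by simpa using plane_mem_spCentres hx hz h1 1 1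
    have hyz : y - z ∈ spCentres K := by
      have := plane_mem_spCentres hy hz h2' 1 (-1)
      simpa [sub_eq_add_neg] using this
    have hval : sympBil m F (x + z) (y - z) = -sympBil m F (x + y) z := by
      simp only [map_add, map_sub, LinearMap.add_apply, LinearMap.BilinForm.IsAlt.self_eq_zero sympBil_isAlt,
        hxy, spB_swap y z]
      ring
    have := plane_mem_spCentres hxz hyz (by rw [hval]; exact neg_ne_zero.2 h3) 1 1
    simpa using this
  have hadd : ∀ x y, x ∈ spCentres K → y ∈ spCentres K → x + y ∈ spCentres K := by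
    intro x y hx hy
    by_cases hxy : sympBil m F x y = 0
    swap
    · simpa using plane_mem_spCentres hx hy hxy 1 1
    rcases eq_or_ne x 0 with rfl | hx0
    · simpa using hy
    rcases eq_or_ne y 0 with rfl | hy0
    · simpa using hx
    rcases eq_or_ne (x + y) 0 with e | hs0
    · rw [e]; exact hzero
    obtain ⟨z, hzP, hzx, hzy⟩ := hpair x y hx0 hy0
    by_cases hzs : sympBil m F (x + y) z = 0
    swap
    · exact hplane x y z hx hy (hP hzP) hxy hzx hzy hzs
    have hz0 : z ≠ 0 := fun e => hzx (by rw [e, map_zero])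
    obtain ⟨w, hwP, hws, hwz⟩ := hpair (x + y) z hs0 hz0
    by_cases hw : sympBil m F x w ≠ 0 ∧ sympBil m F y w ≠ 0
    · exact hplane x y w hx hy (hP hwP) hxy hw.1 hw.2 hws
    set ξ := sympBil m F x z
    set η := sympBil m F y z
    have hη : η = -ξ := by
      simp only [map_add, LinearMap.add_apply] at hzs
      exact eq_neg_of_add_eq_zero_right hzs
    have hcomb : ∀ c : F, c ≠ 0 → z + c • w ∈ spCentres K := fun c hc => by
      simpa using plane_mem_spCentres (hP hzP) (hP hwP) hwz 1 c
    have hsw : ∀ c : F, c ≠ 0 → sympBil m F (x + y) (z + c • w) ≠ 0 := fun c hc => by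
      rw [map_add, hzs, zero_add, map_smul, smul_eq_mul]
      exact mul_ne_zero hc hws
    have hpick : ∀ a b : F, a ≠ 0 → ∃ c : F, c ≠ 0 ∧ a + c * b ≠ 0 := fun a b ha => by
      by_cases h1 : a + 1 * b = 0
      · refine ⟨-1, neg_ne_zero.2 one_ne_zero, fun e => ?_⟩
        exact mul_ne_zero h2 ha (by linear_combination e + h1)
      · exact ⟨1, one_ne_zero, h1⟩
    by_cases hxw : sympBil m F x w = 0
    · obtain ⟨c, hc, hc'⟩ := hpick η (sympBil m F y w) hzy
      exact hplane x y _ hx hy (hcomb c hc) hxy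
        (by rw [map_add, map_smul, hxw, smul_zero, add_zero]; exact hzx)
        (by rw [map_add, map_smul, smul_eq_mul]; exact hc') (hsw c hc)
    · have hyw : sympBil m F y w = 0 := by
        by_contra e; exact hw ⟨hxw, e⟩
      obtain ⟨c, hc, hc'⟩ := hpick ξ (sympBil m F x w) hzx
      exact hplane x y _ hx hy (hcomb c hc) hxy
        (by rw [map_add, map_smul, smul_eq_mul]; exact hc')
        (by rw [map_add, map_smul, hyw, smul_zero, add_zero]; exact hzy) (hsw c hc)
  induction hspan v using Submodule.span_induction with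
  | mem x hx => exact hP hx
  | zero => exact hzero
  | add x y _ _ hx hy => exact hadd x y hx hy
  | smul c x _ hx => exact smul_mem_spCentres hx c

/-- The stabiliser of a symplectic tensor power is maximal, in any dimension. -/
theorem symplectic_tensorPower_maximal' [Fintype F] (hm : 1 ≤ m) (hodd : Odd (Fintype.card F)) (k t : ℕ)
    (ht : Odd t) (ht3 : 3 ≤ t) (hex : ¬ (Fintype.card F = 3 ∧ k = 2))
    (e : (Fin m ⊕ Fin m) ≃ (Fin t → Fin k)) (P : GL (Fin m ⊕ Fin m) F)
    (f₁ : (Fin k → F) → (Fin k → F) → F) (hf₁ : IsSymplecticForm f₁)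
    (hT : IsTensorPowerFormStructure id (Cfsg.sympForm m F) f₁ e P) :
    IsMaximalIn (Cfsg.spGL m F) (tensorWreathSubgroup k t e P ⊓ Cfsg.spGL m F) := by
  classical
  obtain ⟨c₀, hc₀, hform⟩ := hT
  set G := gramMatrix f₁ with hG
  obtain ⟨hGu, hGskew, hGd⟩ := symplecticForm_gram hf₁
  have h2 : (2 : F) ≠ 0 := by
    intro e2
    have : CharP F 2 := (CharP.charP_iff_prime_eq_zero Nat.prime_two).2 e2
    exact (Nat.not_even_iff_odd.2 hodd) (FiniteField.even_card_iff_char_two.1
      (ringChar.eq F 2) |> Nat.even_iff.2)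
  have hcard : 2 * m = k ^ t := by
    have := Fintype.card_congr e
    simp [Fintype.card_sum] at this
    omega
  have hk2 : 2 ≤ k := by
    by_contra hk
    interval_cases k <;> simp [zero_pow (show t ≠ 0 by omega)] at hcard <;> omega
  haveI : NeZero k := ⟨by omega⟩
  have hk3 : Nat.card F = 3 → 4 ≤ k := by
    intro h3
    by_contra hk
    rw [Nat.card_eq_fintype_card] at h3
    have hk3' : k = 3 := by
      by_contra hne
      exact hex ⟨h3, by omega⟩
    have : Even (3 ^ t) := ⟨m, by rw [← hk3']; omega⟩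
    exact (Nat.not_even_iff_odd.2 ((by decide : Odd 3).pow)) this
  set φ := powAlg e P
  set ψ := powVec e P
  set GG := gV G t
  let Φ : GL (Fin t → Fin k) F →* GL (Fin m ⊕ Fin m) F := Units.map (φ : _ →* _)
  have hΦ : ∀ g, (Φ g : Matrix (Fin m ⊕ Fin m) (Fin m ⊕ Fin m) F) = φ g := fun g => rfl
  have hψ : ∀ x y, Cfsg.sympForm m F (ψ x) (ψ y) = c₀ * (x ⬝ᵥ (GG *ᵥ y)) := by
    intro x y
    rw [powVec_apply, powVec_apply, hform]
    congr 1
    simp only [dotProduct, Matrix.mulVec, Finset.mul_sum, id_eq]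
    exact Finset.sum_congr rfl fun a _ => Finset.sum_congr rfl fun b _ => by
      show x a * (∏ i, G (a i) (b i)) * y b = x a * ((∏ i, G (a i) (b i)) * y b)
      ring
  have hmem : ∀ g : GL (Fin t → Fin k) F, Φ g ∈ Cfsg.spGL m F ↔
      (g : Matrix (Fin t → Fin k) (Fin t → Fin k) F)ᵀ * GG * g = GG := by
    intro g
    constructor
    · intro hg
      refine Matrix.ext fun a b => ?_
      have := (GeoClasses.mem_spGL_iff.1 hg) (ψ (Pi.single a 1)) (ψ (Pi.single b 1))
      rw [hΦ, powAlg_mulVec, powAlg_mulVec, sympBil_apply, sympBil_apply, hψ, hψ] at this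
      have h' := mul_left_cancel₀ hc₀ this
      rw [Matrix.mulVec_mulVec, ← Matrix.vecMul_transpose, ← Matrix.dotProduct_mulVec,
        Matrix.mulVec_mulVec, ← mul_assoc] at h'
      simpa [Matrix.mulVec_single_one, single_dotProduct] using h'
    · intro hg
      refine GeoClasses.mem_spGL_iff.2 fun u v => ?_
      obtain ⟨x, rfl⟩ := powVec_surjective e P u
      obtain ⟨y, rfl⟩ := powVec_surjective e P v
      rw [hΦ, powAlg_mulVec, powAlg_mulVec, sympBil_apply, sympBil_apply, hψ, hψ,
        Matrix.mulVec_mulVec, ← Matrix.vecMul_transpose, ← Matrix.dotProduct_mulVec,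
        Matrix.mulVec_mulVec, ← mul_assoc, hg]
  have hwr : ∀ g ∈ tensorWreathStandard k t F, Φ g ∈ tensorWreathSubgroup k t e P := fun g hg =>
    ⟨_, ⟨g, hg, rfl⟩, Units.ext rfl⟩
  have hsurj : Function.Surjective Φ := (Units.mapEquiv φ.toMulEquiv).surjective
  have hSys : ∀ K, tensorWreathSubgroup k t e P ⊓ Cfsg.spGL m F ≤ K → K ≤ Cfsg.spGL m F →
      Sys G (K.comap Φ) := by
    intro K hle hK
    refine ⟨hGskew, (Matrix.isUnit_iff_isUnit_det G).1 hGu, h2, ht.pos, hk2, fun j z s => ?_, fun _ π => ?_,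
      fun g hg => (hmem g).1 (hK hg)⟩
    · obtain ⟨h0, hiso⟩ := transv_iso hGskew h2 z s
      have hsq : (s • E G z) * (s • E G z) = 0 := by
        rw [smul_mul_smul_comm, E, vec_mul_vec, h0, zero_smul, smul_zero]
      let T : GL (Fin k) F :=
        { val := 1 + s • E G z
          inv := 1 - s • E G z
          val_inv := by rw [mul_sub, mul_one, add_mul, one_mul, hsq]; abel
          inv_val := by rw [mul_add, mul_one, sub_mul, one_mul, hsq]; abel }
      set g := glPure (Function.update (1 : Fin t → GL (Fin k) F) j T)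
      have hge : (g : Matrix (Fin t → Fin k) (Fin t → Fin k) F) = 1 + s • site j (E G z) := by
        show pureMat _ = _
        rw [← site_smul, ← site_one (F := F) (k := k) j, ← site_add, site]
        congr 1
        funext i
        by_cases hi : i = j
        · subst hi; simp [T]
        · simp [hi]
      refine ⟨g, hle ⟨hwr g (Subgroup.subset_closure (Or.inl ⟨_, fun x y => rfl⟩)), (hmem g).2 ?_⟩, hge⟩
      show (pureMat _)ᵀ * pureMat _ * pureMat _ = pureMat _
      rw [pureMat_transpose, pureMat_mul, pureMat_mul]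
      congr 1
      funext i
      by_cases hi : i = j
      · subst hi; simpa [T] using hiso
      · simp [hi]
    · refine hle ⟨hwr _ (Subgroup.subset_closure (Or.inr ⟨π, fun x y => rfl⟩)), (hmem _).2 ?_⟩
      show (factorPerm k π)ᵀ * pureMat _ * factorPerm k π = pureMat _
      rw [factorPerm_transpose_mul, mul_assoc, pureMat_mul_factorPerm, ← mul_assoc, factorPerm_mul,
        inv_mul_cancel, factorPerm_one, one_mul]
  have hpureψ : ∀ (μ : F) (y : Fin t → Fin k → F) (x : (Fin t → Fin k) → F),
      ψ ((1 + μ • pureMat fun i => E G (y i)) *ᵥ x) =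
        ψ x + (-(μ / c₀) * Cfsg.sympForm m F (ψ x) (ψ (pureVec y))) • ψ (pureVec y) := by
    intro μ y x
    have hd : (pureVec y ᵥ* GG) ⬝ᵥ x = -(x ⬝ᵥ (GG *ᵥ pureVec y)) := by
      have hgt : GGᵀ = -GG := by
        show (pureMat _)ᵀ = -pureMat _
        rw [pureMat_transpose, hGskew, show (fun _ : Fin t => -G) = fun _ => (-1 : F) • G by simp,
          pureMat_smul, Finset.prod_const, Finset.card_univ, Fintype.card_fin, ht.neg_one_pow, neg_one_smul]
      rw [dotProduct_comm x, ← Matrix.vecMul_transpose, hgt, Matrix.vecMul_neg, neg_dotProduct, neg_neg]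
    rw [add_mulVec, one_mulVec, smul_mulVec, pureMat_E, vecMulVec_mulVec, map_add, map_smul, hψ]
    congr 1
    rw [show MulOpposite.op ((pureVec y ᵥ* GG) ⬝ᵥ x) • pureVec y = ((pureVec y ᵥ* GG) ⬝ᵥ x) • pureVec y by
      ext; simp [mul_comm], map_smul, smul_smul, hd]
    congr 1
    field_simp
  refine ⟨lt_of_le_of_ne inf_le_right ?_, fun K hle hK => ?_⟩
  · intro heq
    have hS := hSys (Cfsg.spGL m F) inf_le_right le_rfl
    obtain ⟨z0, hz0⟩ : ∃ z : Fin k → F, z ≠ 0 := ⟨Pi.single 0 1, by simp⟩
    set y : Fin t → Fin k → F := fun _ => z0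
    obtain ⟨g, hg⟩ := hsurj (spTau (ψ (pureVec y)) (-(1 / c₀)))
    have hval : (g : Matrix (Fin t → Fin k) (Fin t → Fin k) F) = 1 + (1 : F) • pureMat fun i => E G (y i) := by
      refine Matrix.ext_of_mulVec_single fun a => powVec_injective e P ?_
      rw [hpureψ, ← powAlg_mulVec, ← hΦ, hg, spTau_mulVec]
    have hin : spTau (ψ (pureVec y)) (-(1 / c₀)) ∈ tensorWreathSubgroup k t e P := by
      have : spTau (ψ (pureVec y)) (-(1 / c₀)) ∈ tensorWreathSubgroup k t e P ⊓ Cfsg.spGL m F := by
        rw [heq]; exact spTau_mem _ _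
      exact this.1
    obtain ⟨gs, π, hgs⟩ := mem_wreath_powAlg hin
    rw [← hg, hΦ] at hgs
    have hge := φ.injective hgs
    have hunit : ∀ i, IsUnit (gs i).det := by
      intro i
      rw [isUnit_iff_ne_zero]
      intro hdet
      obtain ⟨v, hv, hv0⟩ := Matrix.exists_mulVec_eq_zero_iff.2 hdet
      have hzero : (pureMat gs * factorPerm k π) *
          (factorPerm k π⁻¹ * site i (vecMulVec v v)) = 0 := by
        rw [mul_assoc, ← mul_assoc (factorPerm k π), factorPerm_mul, mul_inv_cancel, factorPerm_one, one_mul,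
          site, pureMat_mul]
        exact pureMat_eq_zero _ (i := i) (by
          rw [Function.update_self, mul_vecMulVec, hv0, zero_vecMulVec])
      rw [← hge] at hzero
      have h1 := congrArg (((g⁻¹ : GL (Fin t → Fin k) F) : Matrix (Fin t → Fin k) (Fin t → Fin k) F) * ·) hzero
      simp only [Units.inv_mul_cancel_left, mul_zero] at h1
      have h2' := congrArg ((factorPerm k π : Matrix (Fin t → Fin k) (Fin t → Fin k) F) * ·) h1
      simp only [← mul_assoc, factorPerm_mul, mul_inv_cancel, factorPerm_one, one_mul, mul_zero] at h2'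
      have h3 := site_injective i (h2'.trans (site_zero i).symm)
      obtain ⟨p, hp⟩ := Function.ne_iff.1 hv
      exact hp (by simpa [Matrix.vecMulVec_apply] using congrFun (congrFun h3 p) p)
    refine not_pure_transv hS ht3 (μ := 1) one_ne_zero (y := y) (fun _ => hz0)
      (fun i => ((Matrix.isUnit_iff_isUnit_det (gs i)).2 (hunit i)).unit) π ?_
    rw [← hval, hge]
    rfl
  have hS := hSys K hle hK
  rcases hS.main ht hk3 with hpure | ⟨μ, y, hμ, hy, hroot⟩
  · left
    refine le_antisymm (fun x hx => ⟨?_, hK hx⟩) hle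
    obtain ⟨g, rfl⟩ := hsurj x
    obtain ⟨cs, π, hg⟩ := hpure g hx
    refine hwr g ?_
    rw [show g = glPure cs * glFactorPerm k π from Units.ext hg]
    exact mul_mem (Subgroup.subset_closure (Or.inl ⟨cs, fun x y => rfl⟩))
      (Subgroup.subset_closure (Or.inr ⟨π, fun x y => rfl⟩))
  right
  refine le_antisymm hK ?_
  refine spGL_le_of_spTau_mem fun v => ?_
  -- the pure vector and its images
  have hy0 : ψ (pureVec y) ∈ spCentres K := by
    intro c
    obtain ⟨g, hg, hge⟩ := hroot (-c * c₀ / μ)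
    have : Φ g = spTau (ψ (pureVec y)) c := by
      refine gl_ext_mulVec fun u => ?_
      obtain ⟨x, rfl⟩ := powVec_surjective e P u
      rw [hΦ, powAlg_mulVec, hge, smul_smul, hpureψ, spTau_mulVec]
      congr 2
      field_simp
      rfl
    rw [← this]; exact hg
  let Pset : Set (Fin m ⊕ Fin m → F) := {v | ∃ w : Fin t → Fin k → F, v = ψ (pureVec w)}
  have hC : Pset ⊆ spCentres K := by
    rintro _ ⟨w, rfl⟩
    by_cases hw : ∀ i, w i ≠ 0
    · choose g hg hge using fun i => hS.exists_move (hy i) (hw i)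
      have hgm := glPure_mem g hg
      have := mulVec_mem_spCentres hy0 (show Φ (glPure g) ∈ K from hgm) (hK hgm)
      rw [hΦ, powAlg_mulVec] at this
      convert this using 2
      show pureVec w = pureMat _ *ᵥ pureVec y
      rw [pureMat_mulVec]
      simp [hge]
    · push Not at hw
      obtain ⟨i, hi⟩ := hw
      have : pureVec w = (0 : (Fin t → Fin k) → F) := by
        ext a; exact Finset.prod_eq_zero (Finset.mem_univ i) (by rw [hi]; rfl)
      rw [this, map_zero]
      have := smul_mem_spCentres hy0 0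
      rwa [zero_smul] at this
  refine spCentres_eq_univ h2 hC (fun u => ?_) (fun a b ha hb => ?_) v
  · obtain ⟨x, rfl⟩ := powVec_surjective e P u
    rw [pi_eq_sum_univ' x, map_sum]
    refine sum_mem fun z _ => ?_
    rw [map_smul]
    exact Submodule.smul_mem _ _ (Submodule.subset_span ⟨_, by rw [single_eq_pureVec]⟩)
  · obtain ⟨xa, rfl⟩ := powVec_surjective e P a
    obtain ⟨xb, rfl⟩ := powVec_surjective e P b
    have hnz : ∀ x, ψ x ≠ 0 → x ᵥ* GG ≠ 0 := fun x hx e' => by
      apply hx
      have := congrArg (· ᵥ* pureMat (fun _ : Fin t => G⁻¹)) e'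
      simp only [zero_vecMul, GG, gV, vecMul_vecMul, pureMat_mul,
        Matrix.mul_nonsing_inv _ ((Matrix.isUnit_iff_isUnit_det G).1 hGu), pureMat_one, vecMul_one] at this
      rw [this, map_zero]
    obtain ⟨w, hwa, hwb⟩ := exists_pure_dot (hnz xa ha) (hnz xb hb)
    refine ⟨_, ⟨w, rfl⟩, ?_, ?_⟩
    · rw [sympBil_apply, hψ, Matrix.dotProduct_mulVec]; exact mul_ne_zero hc₀ hwa
    · rw [sympBil_apply, hψ, Matrix.dotProduct_mulVec]; exact mul_ne_zero hc₀ hwb

/-- The stabiliser of a symplectic tensor power is maximal. -/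
theorem symplectic_tensorPower_maximal [Fintype F] (hm : 7 ≤ m) (hodd : Odd (Fintype.card F)) (k t : ℕ)
    (ht : Odd t) (ht3 : 3 ≤ t) (hex : ¬ (Fintype.card F = 3 ∧ k = 2))
    (e : (Fin m ⊕ Fin m) ≃ (Fin t → Fin k)) (P : GL (Fin m ⊕ Fin m) F)
    (f₁ : (Fin k → F) → (Fin k → F) → F) (hf₁ : IsSymplecticForm f₁)
    (hT : IsTensorPowerFormStructure id (Cfsg.sympForm m F) f₁ e P) :
    IsMaximalIn (Cfsg.spGL m F) (tensorWreathSubgroup k t e P ⊓ Cfsg.spGL m F) :=
  symplectic_tensorPower_maximal' (by omega) hodd k t ht ht3 hex e P f₁ hf₁ hT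

end Cfsg.Agent.MaxSub.TensorPowSp
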