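import Cfsg.Agent.MaxSub.TensorPowSp.Exact

/-!
A deep upper unitriangular element of the group generated by `uu F` and `vv (F X)` in `SL₂ F[X]`.
-/

set_option autoImplicit false
set_option linter.unusedSectionVars false
set_option linter.unusedSimpArgs false

namespace Cfsg.Agent.MaxSub.TensorPowSp

open Polynomial Cfsg.Agent.RootSub.SL2Gen

section Sign

variable {S : Type*} [CommRing S]

/-- The matrix with the off diagonal signs changed. -/
def signFun (g : Matrix.SpecialLinearGroup (Fin 2) S) : Matrix.SpecialLinearGroup (Fin 2) S :=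
  ⟨!![g 0 0, -g 0 1; -g 1 0, g 1 1], by
    rw [Matrix.det_fin_two]; simp; linear_combination det_eq g⟩

@[simp] lemma coe_signFun (g : Matrix.SpecialLinearGroup (Fin 2) S) :
    (signFun g : Matrix (Fin 2) (Fin 2) S) = !![g 0 0, -g 0 1; -g 1 0, g 1 1] := rfl

/-- Conjugation by `diag (1, -1)`. -/
def signHom : Matrix.SpecialLinearGroup (Fin 2) S →* Matrix.SpecialLinearGroup (Fin 2) S where
  toFun := signFun
  map_one' := by apply sl_ext <;> simp
  map_mul' g h := by apply sl_ext <;> simp [Matrix.mul_apply, Fin.sum_univ_two] <;> ring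

@[simp] lemma coe_signHom (g : Matrix.SpecialLinearGroup (Fin 2) S) :
    (signHom g : Matrix (Fin 2) (Fin 2) S) = !![g 0 0, -g 0 1; -g 1 0, g 1 1] := rfl

end Sign

variable {F : Type*} [Field F]

lemma signHom_mem {g : Matrix.SpecialLinearGroup (Fin 2) F[X]} (hg : g ∈ gam F (X : F[X])) :
    signHom g ∈ gam F (X : F[X]) := by
  have : gam F (X : F[X]) ≤ (gam F (X : F[X])).comap (signHom (S := F[X])) := by
    refine (Subgroup.closure_le _).2 ?_
    rintro x (⟨c, rfl⟩ | ⟨c, rfl⟩)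
    · simp only [Subgroup.coe_comap, Set.mem_preimage, SetLike.mem_coe]
      convert uu_mem_gam F (X : F[X]) (-c) using 1
      apply sl_ext <;> simp
    · simp only [Subgroup.coe_comap, Set.mem_preimage, SetLike.mem_coe]
      convert vv_mem_gam F (X : F[X]) (-c) using 1
      apply sl_ext <;> simp
  exact this hg

lemma exists_deep (h2 : (2 : F) ≠ 0) (i : ℕ) :
    ∃ g ∈ gam F (X : F[X]), ∃ β : F, β ≠ 0 ∧ X ^ (i + 1) ∣ g 0 0 - 1 ∧ X ^ (i + 1) ∣ g 1 1 - 1 ∧
      X ^ (2 * i + 2) ∣ g 1 0 ∧ X ^ (i + 1) ∣ g 0 1 - C β * X ^ i := by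
  induction i with
  | zero =>
    exact ⟨uu 1, by simpa using uu_mem_gam F (X : F[X]) 1, 1, one_ne_zero, by simp, by simp, by simp,
      by simp⟩
  | succ i ih =>
    obtain ⟨g, hg, β, hβ, -, ⟨δ, hd⟩, -, ⟨e, hb⟩⟩ := ih
    have hd' : g 1 1 = 1 + X ^ (i + 1) * δ := by linear_combination hd
    have hb' : g 0 1 = X ^ i * (C β + X * e) := by linear_combination hb
    set v : Matrix.SpecialLinearGroup (Fin 2) F[X] := vv X with hvdef
    have hv : v ∈ gam F (X : F[X]) := by simpa using vv_mem_gam F (X : F[X]) 1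
    have hu : (uu 1 : Matrix.SpecialLinearGroup (Fin 2) F[X]) ∈ gam F (X : F[X]) := by
      simpa using uu_mem_gam F (X : F[X]) 1
    set p := g * v * g⁻¹ * v⁻¹ with hpdef
    set K := e * g 1 1 + X ^ i * (C β * δ) + X ^ i * (C β + X * e) ^ 2 with hK
    set P1 := δ * (2 + X ^ (i + 1) * δ) + (C β + X * e) * g 1 1 with hP1
    have hp00 : p 0 0 = 1 + X ^ (i + 1) * (C β + X * K) := by
      have : p 0 0 = 1 + X * g 0 1 * g 1 1 + X * X * g 0 1 * g 0 1 := by
        simp [hpdef, hvdef, vv_inv, Matrix.mul_apply, Fin.sum_univ_two,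
          Matrix.adjugate_fin_two]
        linear_combination det_eq g
      rw [this, hK, hb', hd']; ring
    have hp10 : p 1 0 = X ^ (i + 2) * P1 := by
      have : p 1 0 = X * (g 1 1 * g 1 1 - 1) + X * X * g 0 1 * g 1 1 := by
        simp [hpdef, hvdef, vv_inv, Matrix.mul_apply, Fin.sum_univ_two,
          Matrix.adjugate_fin_two]
        linear_combination -X * det_eq g
      rw [this, hP1, hb', hd']; ring
    have hpm : p ∈ gam F (X : F[X]) := mul_mem (mul_mem (mul_mem hg hv) (inv_mem hg)) (inv_mem hv)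
    set q := p * uu 1 * p⁻¹ * (uu 1)⁻¹ with hqdef
    have hc := conj_uu p 1
    refine ⟨q, mul_mem (mul_mem (mul_mem hpm hu) (inv_mem hpm)) (inv_mem hu), 2 * β,
      mul_ne_zero h2 hβ, ?_, ?_, ?_, ?_⟩
    · refine ⟨-(p 0 0 * P1), ?_⟩
      simp [hqdef, uu_inv, hc, Matrix.mul_apply, Fin.sum_univ_two]
      linear_combination (p 0 0) * hp10
    · refine ⟨p 0 0 * P1 + X ^ (i + 2) * P1 ^ 2, ?_⟩
      simp [hqdef, uu_inv, hc, Matrix.mul_apply, Fin.sum_univ_two]
      linear_combination (p 0 0 + p 1 0 + X ^ (i + 2) * P1) * hp10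
    · refine ⟨-(P1 ^ 2), ?_⟩
      simp [hqdef, uu_inv, hc, Matrix.mul_apply, Fin.sum_univ_two]
      linear_combination (p 1 0 + X ^ (i + 2) * P1) * hp10
    · refine ⟨2 * K + X ^ i * (C β + X * K) ^ 2 + p 0 0 * P1, ?_⟩
      simp [hqdef, uu_inv, hc, Matrix.mul_apply, Fin.sum_univ_two, map_mul, map_ofNat]
      rw [hp10, hp00]
      ring

variable {R : Type*} [Ring R] [Algebra F R] {A B : R} {C : R}

/-- Nilpotent compressions are root parameters. -/
lemma Pair.param_nilpotent (h : Pair A B C) {M : Subgroup Rˣ} (hA : Root F M A) (hB : Root F M B)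
    (h2 : (2 : F) ≠ 0) {n : ℕ} (hn : 1 ≤ n) (hC : C ^ (n + 1) = 0) :
    Root F M (C ^ n * A) := by
  obtain ⟨g, hg, β, hβ, ⟨α, ha⟩, ⟨δ, hd⟩, ⟨γ, hc⟩, ⟨e, hb⟩⟩ := exists_deep h2 n
  have hP : aeval C (X ^ (n + 1) : F[X]) = 0 := by simp [hC]
  have h := h.param_uu hA hB hP (g := signHom g * g⁻¹)
    (mul_mem (signHom_mem hg) (inv_mem hg)) (r := Polynomial.C (-2 * β) * X ^ n) ?_ ?_ ?_ ?_
  · intro s
    have h2β : -2 * β ≠ 0 := mul_ne_zero (neg_ne_zero.2 h2) hβ
    have := h (s / (-2 * β))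
    rwa [map_mul, aeval_C, Algebra.algebraMap_eq_smul_one, smul_one_mul, map_pow, aeval_X,
      smul_mul_assoc, smul_smul, div_mul_cancel₀ _ h2β] at this
  · rw [← pow_succ']
    refine dvd_trans (pow_dvd_pow X (show n + 1 + 1 ≤ 2 * n + 2 by omega)) ⟨2 * g 0 1 * γ, ?_⟩
    simp [Matrix.mul_apply, Fin.sum_univ_two, Matrix.adjugate_fin_two]
    linear_combination det_eq g + 2 * g 0 1 * hc
  · rw [← pow_succ']
    refine dvd_trans (pow_dvd_pow X (show n + 1 + 1 ≤ 2 * n + 2 by omega)) ⟨2 * g 0 1 * γ, ?_⟩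
    simp [Matrix.mul_apply, Fin.sum_univ_two, Matrix.adjugate_fin_two]
    linear_combination det_eq g + 2 * g 0 1 * hc
  · rw [mul_assoc, ← pow_succ', ← pow_succ']
    refine dvd_trans (pow_dvd_pow X (show n + 1 + 1 + 1 ≤ 2 * n + 2 by omega))
      ⟨-2 * g 1 1 * γ, ?_⟩
    simp [Matrix.mul_apply, Fin.sum_univ_two, Matrix.adjugate_fin_two]
    linear_combination -2 * g 1 1 * hc
  · refine ⟨-2 * α * g 0 1 - 2 * e, ?_⟩
    simp [Matrix.mul_apply, Fin.sum_univ_two, Matrix.adjugate_fin_two, map_mul, map_ofNat]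
    linear_combination -2 * g 0 1 * ha - 2 * hb

end Cfsg.Agent.MaxSub.TensorPowSp
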