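import Cfsg.Agent.MaxSub.TensorPow.Tens
import Cfsg.Agent.MaxSub.TensorMax.SympAlg
import Cfsg.Agent.GeoClasses.OrthTotDecomp

/-!
A Siegel transformation at a pure tensor changing one factor, together with the transvections of the
factors, gives the whole Eichler subgroup of the orthogonal group of a symplectic tensor power.
-/

set_option autoImplicit false
set_option linter.unusedSectionVars false
set_option linter.unusedSimpArgs false
set_option linter.style.haveILetI false

namespace Cfsg.Agent.MaxSub.TensorPowSp.Omega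

open Module Matrix QuadraticMap Cfsg.Agent.MaxSub.TensorPow Cfsg.Agent.Classical
open Cfsg.Agent.MaxSub.TensorMax (Alt)
open Cfsg.Agent.MaxSub.ExtField (self_inv_apply)
open Cfsg.Agent.GeoClasses (siegelCentres EQ_le_of_siegel_pair commutator_eq_EQ)

universe u

/-- A quadratic form on a tensor power with polar the product of the alternating forms. -/
structure OData (F : Type u) [Field F] (k t : ℕ) where
  /-- the form on one factor -/
  g : (Fin k → F) →ₗ[F] (Fin k → F) →ₗ[F] F
  /-- the quadratic form -/
  Q : QuadraticForm F (Ten F k t)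
  /-- the multiplier -/
  c : F
  alt : Alt g
  c_ne : c ≠ 0
  polar_pvec : ∀ us vs, polar Q (pvec us) (pvec vs) = c * ∏ i, g (us i) (vs i)
  pure : ∀ us, Q (pvec us) = 0

variable {F : Type u} [Field F] {k t : ℕ} {D : OData F k t}

lemma OData.polar_zero (D : OData F k t) {us vs : Fin t → Fin k → F} (i : Fin t)
    (h : D.g (us i) (vs i) = 0) : polar D.Q (pvec us) (pvec vs) = 0 := by
  rw [D.polar_pvec, Finset.prod_eq_zero (Finset.mem_univ i) h, mul_zero]

lemma OData.g_zero_symm (D : OData F k t) {x y : Fin k → F} (h : D.g x y = 0) : D.g y x = 0 := by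
  rw [D.alt.skew, h, neg_zero]

lemma OData.g_ne_symm (D : OData F k t) {x y : Fin k → F} (h : D.g x y ≠ 0) : D.g y x ≠ 0 :=
  fun h' => h (D.g_zero_symm h')

lemma OData.exists_ne (D : OData F k t) {z : Fin k → F} (hz : z ≠ 0) : ∃ v, D.g z v = 1 := by
  obtain ⟨y, hy⟩ : ∃ y, D.g z y ≠ 0 := by
    by_contra hc; push Not at hc; exact hz (D.alt.nd z hc)
  exact ⟨(D.g z y)⁻¹ • y, by simp [hy]⟩

/-- A vector orthogonal to one vector and not to another independent one. -/
lemma OData.exists_sep (D : OData F k t) {x y : Fin k → F} (hy : y ∉ F ∙ x) :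
    ∃ c, D.g c y ≠ 0 ∧ D.g c x = 0 := by
  obtain ⟨c, h1, h2⟩ := D.alt.exists_pair hy
  exact ⟨c, by rw [h1]; exact one_ne_zero, h2⟩

/-- A vector orthogonal to two vectors off a line, for dimension at least four. -/
lemma OData.exists_perp_avoid (D : OData F k t) (hk : 4 ≤ k) (a b e : Fin k → F) :
    ∃ w, D.g w a = 0 ∧ D.g w b = 0 ∧ w ∉ F ∙ e := by
  let φ : (Fin k → F) →ₗ[F] (Fin 2 → F) := LinearMap.pi ![D.g.flip a, D.g.flip b]
  by_contra hc
  push Not at hc
  have h1 : LinearMap.ker φ ≤ F ∙ e := fun x hx =>
    hc x (congrFun (LinearMap.mem_ker.1 hx) 0) (congrFun (LinearMap.mem_ker.1 hx) 1)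
  have h2 := LinearMap.finrank_range_add_finrank_ker φ
  have h3 : finrank F (LinearMap.range φ) ≤ 2 :=
    (Submodule.finrank_le _).trans (by rw [finrank_fin_fun])
  have h4 := Submodule.finrank_mono h1
  have h5 : finrank F (F ∙ e : Submodule F (Fin k → F)) ≤ 1 := by
    have := finrank_span_le_card (R := F) ({e} : Set (Fin k → F))
    simpa using this
  rw [finrank_fin_fun] at h2
  omega

/-- Pure tensors in a submodule with generic entries at the sites of `S` have arbitrary entries
there. -/
lemma pvec_extend {L : Submodule F (Ten F k t)} (S : Finset (Fin t))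
    (φ : Fin t → (Fin k → F) →ₗ[F] F) (hφ : ∀ i ∈ S, φ i ≠ 0) :
    ∀ v : Fin t → Fin k → F,
      (∀ v', (∀ i, i ∉ S → v' i = v i) → (∀ i ∈ S, φ i (v' i) ≠ 0) → pvec v' ∈ L) →
      pvec v ∈ L := by
  classical
  induction S using Finset.induction with
  | empty => exact fun v h => h v (fun i _ => rfl) (by simp)
  | insert j S hj ih =>
    intro v h
    have key : ∀ x, φ j x ≠ 0 → pvec (Function.update v j x) ∈ L := fun x hx =>
      ih (fun i hi => hφ i (Finset.mem_insert_of_mem hi)) _ fun v' hv' hS => by
        refine h v' (fun i hi => ?_) fun i hi => ?_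
        · rw [Finset.mem_insert, not_or] at hi
          rw [hv' i hi.2, Function.update_of_ne hi.1]
        · rcases Finset.mem_insert.1 hi with rfl | hi
          · rw [hv' i hj, Function.update_self]; exact hx
          · exact hS i hi
    rw [show v = Function.update v j (v j) from (Function.update_eq_self j v).symm]
    by_cases hx : φ j (v j) ≠ 0
    · exact key _ hx
    push Not at hx
    obtain ⟨x₀, hx₀⟩ : ∃ x, φ j x ≠ 0 := by
      by_contra hc; push Not at hc
      exact hφ j (Finset.mem_insert_self j S) (LinearMap.ext hc)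
    have h1 := sub_mem (key (v j + x₀) (by rwa [map_add, hx, zero_add])) (key x₀ hx₀)
    rwa [pvec_update_add, add_sub_cancel_right] at h1

/-- A statement on a hyperplane holds on it if it holds off a line. -/
lemma perp_extend {L : Submodule F (Ten F k t)} (hk : 4 ≤ k) {D : OData F k t} {z : Fin k → F}
    {v : Fin t → Fin k → F} (j : Fin t)
    (h : ∀ x, D.g x z = 0 → x ∉ F ∙ z → pvec (Function.update v j x) ∈ L) {x : Fin k → F}
    (hx : D.g x z = 0) : pvec (Function.update v j x) ∈ L := by
  by_cases hm : x ∈ F ∙ z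
  · obtain ⟨a, ha, -, hza⟩ := D.exists_perp_avoid hk z z z
    have h1 := sub_mem (h (x + a) (by simp [hx, ha]) fun h' => hza ((Submodule.add_mem_iff_right _ hm).1 h'))
      (h a ha hza)
    rwa [pvec_update_add, add_sub_cancel_right] at h1
  · exact h x hx hm

variable (D)

/-- The parameters of the Siegel transformations at the pure tensor of `z` in `M`. -/
def par (M : Subgroup (OQ D.Q)) (z : Fin t → Fin k → F) : Submodule F (Ten F k t) where
  carrier := {y | ∀ a : F, ∃ hy : polar D.Q (pvec z) (a • y) = 0, siegel D.Q (D.pure z) hy ∈ M}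
  zero_mem' a := ⟨by simp, by
    convert one_mem M using 1
    ext v; simp⟩
  add_mem' {x y} hx hy a := by
    obtain ⟨hx, hx'⟩ := hx a
    obtain ⟨hy, hy'⟩ := hy a
    refine ⟨by rw [smul_add, polar_add_right, hx, hy, add_zero], ?_⟩
    convert mul_mem hx' hy' using 1
    rw [siegel_mul]
    exact siegel_congr D.Q _ _ _ _ rfl (smul_add a x y)
  smul_mem' c y hy a := by
    obtain ⟨hy, hy'⟩ := hy (a * c)
    exact ⟨by rwa [smul_smul], by
      convert hy' using 1
      exact siegel_congr D.Q _ _ _ _ rfl (smul_smul a c y)⟩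

variable {D} {M : Subgroup (OQ D.Q)}

lemma map_mem_par {z z' : Fin t → Fin k → F} {m : OQ D.Q} (hm : m ∈ M)
    (hmz : m.1 (pvec z) = pvec z') {y : Ten F k t} (hy : y ∈ par D M z) : m.1 y ∈ par D M z' := by
  intro a
  obtain ⟨hy, hy'⟩ := hy a
  have h0 : polar D.Q (pvec z') (a • m.1 y) = 0 := by rw [← hmz, ← map_smul, OQ_polar, hy]
  refine ⟨h0, ?_⟩
  have h1 := mul_mem (mul_mem hm hy') (inv_mem hm)
  rw [siegel_conj] at h1
  convert h1 using 1
  exact siegel_congr D.Q _ _ _ _ hmz.symm (map_smul m.1 a y).symm

/-- The group contains the transvections of every factor. -/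
def HasSites (M : Subgroup (OQ D.Q)) : Prop :=
  ∀ (j : Fin t) (u : Fin k → F) (s : F), ∃ m ∈ M, ∀ us : Fin t → Fin k → F,
    m.1 (pvec us) = pvec (Function.update us j (us j + (s * D.g (us j) u) • u))

variable (hs : HasSites M)
include hs

/-- Products of site isometries carry any pure tensor to any other one. -/
lemma exists_move {z z' : Fin t → Fin k → F} (hz : ∀ i, z i ≠ 0) (hz' : ∀ i, z' i ≠ 0) :
    ∃ (m : OQ D.Q) (A : Fin t → (Fin k → F) ≃ₗ[F] (Fin k → F)), m ∈ M ∧
      (∀ us, m.1 (pvec us) = pvec fun i => A i (us i)) ∧ (∀ i, A i (z i) = z' i) ∧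
      ∀ i x y, D.g (A i x) (A i y) = D.g x y := by
  classical
  suffices key : ∀ S : Finset (Fin t), ∃ (m : OQ D.Q) (A : Fin t → (Fin k → F) ≃ₗ[F] (Fin k → F)),
      m ∈ M ∧ (∀ us, m.1 (pvec us) = pvec fun i => A i (us i)) ∧
      (∀ i, (i ∈ S → A i (z i) = z' i) ∧ (i ∉ S → A i (z i) = z i)) ∧
      ∀ i x y, D.g (A i x) (A i y) = D.g x y by
    obtain ⟨m, A, hm, h1, h2, h3⟩ := key Finset.univ
    exact ⟨m, A, hm, h1, fun i => (h2 i).1 (Finset.mem_univ i), h3⟩
  intro S
  induction S using Finset.induction with
  | empty =>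
    exact ⟨1, fun _ => LinearEquiv.refl F _, one_mem M, fun us => rfl,
      fun i => ⟨by simp, fun _ => rfl⟩, fun i x y => rfl⟩
  | insert j S hj ih =>
    obtain ⟨m, A, hm, hmA, hA, hiso⟩ := ih
    have hmove : ∀ x x' : Fin k → F, x ≠ 0 → x' ≠ 0 → D.g x x' ≠ 0 → ∀ (us : Fin t → Fin k → F), us j = x →
        ∃ (B : (Fin k → F) ≃ₗ[F] (Fin k → F)) (n : OQ D.Q), n ∈ M ∧
          (∀ vs, n.1 (pvec vs) = pvec (Function.update vs j (B (vs j)))) ∧ B x = x' ∧
          ∀ a b, D.g (B a) (B b) = D.g a b := by
      intro x x' _ _ hxx us _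
      set u := x' - x with hu
      set s := (D.g x u)⁻¹ with hs'
      obtain ⟨n, hn, hnx⟩ := hs j u s
      have hxu : D.g x u = D.g x x' := by rw [hu, map_sub, D.alt.alt, sub_zero]
      let B₀ : (Fin k → F) →ₗ[F] (Fin k → F) := LinearMap.id + s • (D.g.flip u).smulRight u
      let B₁ : (Fin k → F) →ₗ[F] (Fin k → F) := LinearMap.id - s • (D.g.flip u).smulRight u
      have e1 : B₀ ∘ₗ B₁ = LinearMap.id := LinearMap.ext fun a => by
        simp [B₀, B₁, D.alt.alt]
      have e2 : B₁ ∘ₗ B₀ = LinearMap.id := LinearMap.ext fun a => by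
        simp [B₀, B₁, D.alt.alt]
      have hB : ∀ a, B₀ a = a + (s * D.g a u) • u := fun a => by simp [B₀, smul_smul]
      refine ⟨LinearEquiv.ofLinearMap B₀ B₁ e1 e2, n, hn, fun vs => ?_, ?_, fun a b => ?_⟩
      · rw [hnx]
        congr 2
        exact (hB _).symm
      · show B₀ x = x'
        rw [hB, hs', inv_mul_cancel₀ (by rw [hxu]; exact hxx), one_smul, hu, add_sub_cancel]
      · show D.g (B₀ a) (B₀ b) = _
        rw [hB, hB]
        simp only [map_add, LinearMap.add_apply, map_smul, LinearMap.smul_apply, smul_eq_mul,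
          D.alt.alt, D.alt.skew u b]
        ring
    obtain ⟨v, hv, hv'⟩ : ∃ v, D.g (z j) v ≠ 0 ∧ D.g v (z' j) ≠ 0 := by
      obtain ⟨a, ha⟩ := D.exists_ne (hz j)
      obtain ⟨b, hb⟩ := D.exists_ne (hz' j)
      by_cases h1 : D.g (z' j) a ≠ 0
      · exact ⟨a, by rw [ha]; exact one_ne_zero, D.g_ne_symm h1⟩
      by_cases h2 : D.g (z j) b ≠ 0
      · exact ⟨b, h2, D.g_ne_symm (by rw [hb]; exact one_ne_zero)⟩
      push Not at h1 h2
      exact ⟨a + b, by rw [map_add, ha, h2, add_zero]; exact one_ne_zero,
        D.g_ne_symm (by rw [map_add, h1, hb, zero_add]; exact one_ne_zero)⟩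
    have hv0 : v ≠ 0 := fun h0 => hv (by simp [h0])
    obtain ⟨B₁, n₁, hn₁, hnB₁, hB₁, hiso₁⟩ := hmove _ _ (hz j) hv0 hv z rfl
    obtain ⟨B₂, n₂, hn₂, hnB₂, hB₂, hiso₂⟩ := hmove _ _ hv0 (hz' j) hv' (fun _ => v) rfl
    refine ⟨n₂ * (n₁ * m), Function.update A j ((A j).trans (B₁.trans B₂)),
      mul_mem hn₂ (mul_mem hn₁ hm), fun us => ?_, fun i => ?_, fun i x y => ?_⟩
    · show n₂.1 (n₁.1 (m.1 (pvec us))) = _
      rw [hmA, hnB₁, hnB₂]
      congr 1
      funext i
      rcases eq_or_ne i j with rfl | hi
      · simp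
      · simp [Function.update_of_ne hi]
    · rcases eq_or_ne i j with rfl | hi
      · exact ⟨fun _ => by simp [(hA i).2 hj, hB₁, hB₂], fun h => absurd (Finset.mem_insert_self _ _) h⟩
      · simp only [Finset.mem_insert, hi, false_or, Function.update_of_ne hi]
        exact hA i
    · rcases eq_or_ne i j with rfl | hi
      · simp [hiso₂, hiso₁, hiso]
      · simp [Function.update_of_ne hi, hiso]

variable {o : Fin t}

/-- All changes inside the hyperplane at the site `o`. -/
lemma one_site {z₀ : Fin t → Fin k → F} (hz₀ : ∀ i, z₀ i ≠ 0) {b : Fin k → F}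
    (hb : b ∉ F ∙ z₀ o) (hst : pvec (Function.update z₀ o b) ∈ par D M z₀)
    {z : Fin t → Fin k → F} (hz : ∀ i, z i ≠ 0) {u : Fin k → F} (hu : D.g u (z o) = 0) :
    pvec (Function.update z o u) ∈ par D M z := by
  classical
  have h0 : ∀ u, D.g u (z₀ o) = 0 → D.g b u ≠ 0 → pvec (Function.update z₀ o u) ∈ par D M z₀ := by
    intro u hu hbu
    obtain ⟨m, hm, hmx⟩ := hs o u (D.g b u)⁻¹
    have hfix : m.1 (pvec z₀) = pvec z₀ := by
      rw [hmx, D.g_zero_symm hu, mul_zero, zero_smul, add_zero, Function.update_eq_self]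
    have h1 := sub_mem (map_mem_par hm hfix hst) hst
    rwa [hmx, Function.update_self, Function.update_idem, inv_mul_cancel₀ hbu, one_smul,
      pvec_update_add, add_sub_cancel_left] at h1
  have h1 : ∀ u, D.g u (z₀ o) = 0 → pvec (Function.update z₀ o u) ∈ par D M z₀ := fun u hu => by
    by_cases hbu : D.g b u ≠ 0
    · exact h0 u hu hbu
    push Not at hbu
    obtain ⟨e, he, he'⟩ := D.exists_sep hb
    have h2 := sub_mem (h0 (u + e) (by simp [hu, he'])
      (by rw [map_add, hbu, zero_add]; exact D.g_ne_symm he)) (h0 e he' (D.g_ne_symm he))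
    rwa [pvec_update_add, add_sub_cancel_right] at h2
  obtain ⟨m, A, hm, hmA, hAz, hiso⟩ := exists_move hs hz₀ hz
  obtain ⟨u, rfl⟩ := (A o).surjective u
  have hu' : D.g u (z₀ o) = 0 := by rw [← hiso o, hAz, hu]
  have h3 := map_mem_par hm (z' := z) (by rw [hmA]; congr 1; exact funext hAz) (h1 u hu')
  rw [hmA] at h3
  convert h3 using 2
  funext i
  rcases eq_or_ne i o with rfl | hi
  · simp
  · simp [Function.update_of_ne hi, hAz]

omit hs in
/-- The mover: the Siegel transformation at `w` changing the site `o` to `c`. -/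
lemma move {z w : Fin t → Fin k → F} {c : Fin k → F}
    (hw : pvec (Function.update w o c) ∈ par D M w) (h1 : ∃ i, D.g (w i) (z i) = 0)
    (h2 : ∃ i, D.g (Function.update w o c i) (z i) = 0) {x : Fin t → Fin k → F}
    (hx : pvec x ∈ par D M z) :
    polar D.Q (pvec w) (pvec x) • pvec (Function.update w o c) -
      polar D.Q (pvec (Function.update w o c)) (pvec x) • pvec w ∈ par D M z := by
  obtain ⟨hy, hm⟩ := hw 1
  obtain ⟨i, hi⟩ := h1
  obtain ⟨l, hl⟩ := h2
  have hfix := siegel_fix D.Q (D.pure w) hy (v := pvec z) (D.polar_zero i hi)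
    (by rw [one_smul]; exact D.polar_zero l hl)
  have h3 := sub_mem (map_mem_par hm hfix hx) hx
  convert h3 using 1
  simp [D.pure]
  abel

omit hs in
/-- The mover, when the changed tensor is orthogonal to the parameter. -/
lemma move' {z w : Fin t → Fin k → F} {c : Fin k → F}
    (hw : pvec (Function.update w o c) ∈ par D M w) (h1 : ∃ i, D.g (w i) (z i) = 0)
    (h2 : ∃ i, D.g (Function.update w o c i) (z i) = 0) {x : Fin t → Fin k → F}
    (hx : pvec x ∈ par D M z) (hxy : ∃ i, D.g (Function.update w o c i) (x i) = 0)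
    (hne : ∀ i, D.g (w i) (x i) ≠ 0) : pvec (Function.update w o c) ∈ par D M z := by
  obtain ⟨i, hi⟩ := hxy
  have h3 := move hw h1 h2 hx
  rw [D.polar_zero i hi, zero_smul, sub_zero, D.polar_pvec] at h3
  exact (Submodule.smul_mem_iff _ (mul_ne_zero D.c_ne (Finset.prod_ne_zero_iff.2 fun i _ => hne i))).1 h3

omit hs in
/-- All tensors orthogonal to a pure one are parameters there, given all one site changes. -/
theorem all_perp_of_sites {z : Fin t → Fin k → F} (hz : ∀ i, z i ≠ 0)
    (h : ∀ v : Fin t → Fin k → F, (∃ i, D.g (v i) (z i) = 0) → pvec v ∈ par D M z) (X : Ten F k t)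
    (hX : polar D.Q (pvec z) X = 0) : X ∈ par D M z := by
  classical
  choose d hd using fun i => D.exists_ne (hz i)
  let φ : Ten F k t →ₗ[F] F := D.c⁻¹ • D.Q.polarBilin (pvec z)
  have key : ∀ (S : Finset (Fin t)) (v : Fin t → Fin k → F),
      pvec v - (∏ i ∈ S, D.g (z i) (v i)) • pvec (fun i => if i ∈ S then d i else v i) ∈ par D M z := by
    intro S
    induction S using Finset.induction with
    | empty => intro v; simp
    | insert j S hj ih =>
      intro v
      set v' : Fin t → Fin k → F := fun i => if i ∈ S then d i else v i with hv'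
      have hj' : v' j = v j := by simp [hv', hj]
      have h1 : pvec (Function.update v' j (v j - D.g (z j) (v j) • d j)) ∈ par D M z :=
        h _ ⟨j, by rw [Function.update_self]; exact D.g_zero_symm (by simp [hd])⟩
      rw [sub_eq_add_neg, ← neg_smul, pvec_update_add, pvec_update_smul, ← hj', Function.update_eq_self,
        hj'] at h1
      have e : Function.update v' j (d j) = fun i => if i ∈ insert j S then d i else v i := by
        funext i
        rcases eq_or_ne i j with rfl | hi
        · simp
        · simp [hv', Function.update_of_ne hi, hi]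
      rw [e] at h1
      rw [Finset.prod_insert hj]
      have h2 := add_mem (ih v) (Submodule.smul_mem _ (∏ i ∈ S, D.g (z i) (v i)) h1)
      convert h2 using 1
      module
  have hlin : ∀ Y, Y - φ Y • pvec d ∈ par D M z := by
    intro Y
    have hY : Y ∈ Submodule.span F (Set.range (pvec : _ → Ten F k t)) := by rw [span_pvec]; trivial
    induction hY using Submodule.span_induction with
    | mem Y hY =>
      obtain ⟨v, rfl⟩ := hY
      have := key Finset.univ v
      simp only [Finset.mem_univ, if_true] at this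
      convert this using 3
      simp [φ, D.polar_pvec, D.c_ne]
    | zero => simp
    | add Y Y' _ _ hY hY' =>
      convert add_mem hY hY' using 1
      rw [map_add]; module
    | smul r Y _ hY =>
      convert Submodule.smul_mem _ r hY using 1
      rw [map_smul, smul_eq_mul]; module
  have := hlin X
  rwa [show φ X = 0 by simp [φ, hX], zero_smul, sub_zero] at this

/-- In dimension at least four, the changes at one site give everything at a pure tensor. -/
theorem all_perp (hk : 4 ≤ k) {z₀ : Fin t → Fin k → F} (hz₀ : ∀ i, z₀ i ≠ 0) {b : Fin k → F}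
    (hb : b ∉ F ∙ z₀ o) (hst : pvec (Function.update z₀ o b) ∈ par D M z₀)
    {z : Fin t → Fin k → F} (hz : ∀ i, z i ≠ 0) (v : Fin t → Fin k → F)
    (hv : ∃ i, D.g (v i) (z i) = 0) : pvec v ∈ par D M z := by
  classical
  set L := par D M z with hL
  have hgz : ∀ i, D.g.flip (z i) ≠ 0 := fun i h => by
    obtain ⟨d, hd⟩ := D.exists_ne (hz i)
    exact D.g_ne_symm (x := z i) (y := d) (by rw [hd]; exact one_ne_zero) (LinearMap.congr_fun h d)
  have H : ∀ (w : Fin t → Fin k → F) c, (∀ i, w i ≠ 0) → D.g c (w o) = 0 →
      pvec (Function.update w o c) ∈ par D M w := fun w c hw hc => one_site hs hz₀ hb hst hw hc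
  have hne : ∀ {x y : Fin k → F}, D.g x y ≠ 0 → x ≠ 0 := fun h h0 => h (by rw [h0]; simp)
  -- the line of `z o` at the site `o`
  have h2 : ∀ v, pvec (Function.update v o (z o)) ∈ L := by
    intro v
    refine pvec_extend (Finset.univ.erase o) (fun i => D.g.flip (z i)) (fun i _ => hgz i) _
      fun v' hv' hS => ?_
    have ho : v' o = z o := by rw [hv' o (by simp), Function.update_self]
    obtain ⟨wo, hwo, -, hwoz⟩ := D.exists_perp_avoid hk (z o) (z o) (z o)
    obtain ⟨a, ha, haz⟩ := D.exists_sep hwoz
    have hwo0 : wo ≠ 0 := fun h0 => hwoz (h0 ▸ zero_mem _)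
    have := move' (o := o) (w := Function.update v' o wo) (c := z o)
      (H _ _ (fun i => by
        rcases eq_or_ne i o with rfl | hi
        · simpa using hwo0
        · rw [Function.update_of_ne hi]; exact hne (hS i (by simp [hi])))
        (by rw [Function.update_self]; exact D.g_zero_symm hwo))
      ⟨o, by rw [Function.update_self]; exact hwo⟩ ⟨o, by rw [Function.update_self]; exact D.alt.alt _⟩
      (x := Function.update z o a) (one_site hs hz₀ hb hst hz haz)
      ⟨o, by rw [Function.update_self, Function.update_self]; exact D.g_zero_symm haz⟩ (fun i => by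
        rcases eq_or_ne i o with rfl | hi
        · simpa using D.g_ne_symm ha
        · rw [Function.update_of_ne hi, Function.update_of_ne hi]; exact hS i (by simp [hi]))
    rwa [Function.update_idem, ← ho, Function.update_eq_self] at this
  -- two hyperplanes
  have hA : ∀ (v : Fin t → Fin k → F) (j : Fin t), j ≠ o → D.g (v j) (z j) = 0 →
      D.g (v o) (z o) = 0 → pvec v ∈ L := by
    intro v j hjo hj ho
    rw [show v = Function.update v o (v o) from (Function.update_eq_self o v).symm]
    refine perp_extend hk o (fun c hc hcz => ?_) ho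
    by_cases h0 : ∃ i, Function.update v o c i = 0
    · obtain ⟨i, hi⟩ := h0
      rw [pvec_eq_zero (i := i) hi]; exact zero_mem _
    push Not at h0
    obtain ⟨wo, hwoz, hwoc⟩ := D.exists_sep (x := c) (y := z o) (fun hm => by
      obtain ⟨r, hr⟩ := Submodule.mem_span_singleton.1 hm
      have hr0 : r ≠ 0 := fun h' => hz o (by rw [← hr, h', zero_smul])
      exact hcz (Submodule.mem_span_singleton.2 ⟨r⁻¹, by rw [← hr, inv_smul_smul₀ hr0]⟩))
    choose e he using fun i => D.exists_ne (h0 i)
    have hv0 : ∀ i, i ≠ o → v i ≠ 0 := fun i hi => by simpa [hi] using h0 i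
    have := move' (o := o) (w := Function.update v o wo) (c := c)
      (H _ _ (fun i => by
        rcases eq_or_ne i o with rfl | hi
        · simpa using hne hwoz
        · rw [Function.update_of_ne hi]; exact hv0 i hi)
        (by rw [Function.update_self]; exact D.g_zero_symm hwoc))
      ⟨j, by rw [Function.update_of_ne hjo]; exact hj⟩
      ⟨j, by rw [Function.update_of_ne hjo, Function.update_of_ne hjo]; exact hj⟩
      (x := Function.update e o (z o)) (h2 e)
      ⟨o, by rw [Function.update_self, Function.update_self]; exact hc⟩ (fun i => by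
        rcases eq_or_ne i o with rfl | hi
        · simpa using hwoz
        · have := he i
          rw [Function.update_of_ne hi] at this
          rw [Function.update_of_ne hi, Function.update_of_ne hi, this]; exact one_ne_zero)
    rwa [Function.update_idem] at this
  -- one hyperplane away from `o`
  have hB : ∀ (v : Fin t → Fin k → F) (j : Fin t), j ≠ o → D.g (v j) (z j) = 0 → pvec v ∈ L := by
    intro v j hjo hj
    by_cases ho : D.g (v o) (z o) = 0
    · exact hA v j hjo hj ho
    rw [show v = Function.update v j (v j) from (Function.update_eq_self j v).symm]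
    refine perp_extend hk j (fun d hd hdz => ?_) hj
    set v' := Function.update v j d
    by_cases h0 : ∃ i, v' i = 0
    · obtain ⟨i, hi⟩ := h0
      rw [pvec_eq_zero (i := i) hi]; exact zero_mem _
    push Not at h0
    obtain ⟨a, ha, hac, haz⟩ := D.exists_perp_avoid hk (z o) (v o) (v o)
    obtain ⟨wo, hwoa, hwoc⟩ := D.exists_sep haz
    obtain ⟨xj, hxj, hxjz⟩ := D.exists_sep (x := z j) (y := d) hdz
    choose e he using fun i => D.exists_ne (h0 i)
    set x := Function.update (Function.update e j xj) o a with hx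
    have hvo : v' o = v o := by simp [v', hjo.symm]
    have := move' (o := o) (w := Function.update v' o wo) (c := v o)
      (H _ _ (fun i => by
        rcases eq_or_ne i o with rfl | hi
        · simpa using hne hwoa
        · rw [Function.update_of_ne hi]; exact h0 i)
        (by rw [Function.update_self]; exact D.g_zero_symm hwoc))
      ⟨j, by simp [hjo, v', hd]⟩ ⟨j, by simp [hjo, v', hd]⟩
      (x := x) (hA x j hjo (by simp [hx, hjo, hxjz]) (by simp [hx, ha]))
      ⟨o, by simp [hx, D.g_zero_symm hac]⟩ (fun i => by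
        rcases eq_or_ne i o with rfl | hi
        · simpa [hx] using hwoa
        · rcases eq_or_ne i j with rfl | hij
          · simpa [hx, hi, v'] using D.g_ne_symm hxj
          · have := he i
            simp only [hx, Function.update_of_ne hi, Function.update_of_ne hij, this]
            exact one_ne_zero)
    rwa [Function.update_idem, ← hvo, Function.update_eq_self] at this
  obtain ⟨i, hi⟩ := hv
  rcases eq_or_ne i o with rfl | hio
  · -- the hyperplane at `o`
    rw [show v = Function.update v i (v i) from (Function.update_eq_self i v).symm]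
    refine pvec_extend (Finset.univ.erase i) (fun l => D.g.flip (z l)) (fun l _ => hgz l) _
      fun v' hv' hS => ?_
    have ho : D.g (v' i) (z i) = 0 := by rw [hv' i (by simp), Function.update_self]; exact hi
    rcases eq_or_ne t 1 with ht | ht
    · have : v' = Function.update z i (v' i) := by
        funext l
        have : l = i := by subst ht; exact Subsingleton.elim _ _
        subst this; simp
      rw [this]
      exact one_site hs hz₀ hb hst hz ho
    obtain ⟨j, hj⟩ : ∃ j : Fin t, j ≠ i := by
      haveI : Nontrivial (Fin t) := Fin.nontrivial_iff_two_le.2 (by have := i.isLt; omega)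
      exact _root_.exists_ne i
    obtain ⟨wo, hwo, hwoc, hwoc'⟩ := D.exists_perp_avoid hk (z i) (v' i) (v' i)
    obtain ⟨a, haw, hav⟩ := D.exists_sep hwoc'
    have := move' (o := i) (w := Function.update v' i wo) (c := v' i)
      (H _ _ (fun l => by
        rcases eq_or_ne l i with rfl | hl
        · simp only [Function.update_self]; exact fun h0 => hwoc' (by rw [h0]; exact zero_mem _)
        · rw [Function.update_of_ne hl]; exact hne (hS l (by simp [hl])))
        (by rw [Function.update_self]; exact D.g_zero_symm hwoc))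
      ⟨i, by rw [Function.update_self]; exact hwo⟩ ⟨i, by rw [Function.update_self]; exact ho⟩
      (x := Function.update z i a) (hB _ j hj (by rw [Function.update_of_ne hj]; exact D.alt.alt _))
      ⟨i, by rw [Function.update_self, Function.update_self]; exact D.g_zero_symm hav⟩ (fun l => by
        rcases eq_or_ne l i with rfl | hl
        · simpa using D.g_ne_symm haw
        · rw [Function.update_of_ne hl, Function.update_of_ne hl]; exact hS l (by simp [hl]))
    rwa [Function.update_idem, Function.update_eq_self] at this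
  · exact hB v i hio hi

/-- Two dimensional factors: the changes at one site and the even permutations. -/
theorem all_perp_two (hk : k = 2) (ht : 4 ≤ t)
    (halt : ∀ π : Equiv.Perm (Fin t), Equiv.Perm.sign π = 1 →
      ∃ m ∈ M, ∀ us, m.1 (pvec us) = pvec fun i => us (π i))
    {z₀ : Fin t → Fin k → F} (hz₀ : ∀ i, z₀ i ≠ 0) {b : Fin k → F}
    (hb : b ∉ F ∙ z₀ o) (hst : pvec (Function.update z₀ o b) ∈ par D M z₀)
    {z : Fin t → Fin k → F} (hz : ∀ i, z i ≠ 0) (v : Fin t → Fin k → F)
    (hv : ∃ i, D.g (v i) (z i) = 0) : pvec v ∈ par D M z := by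
  classical
  have hspan : ∀ (x y u : Fin k → F), y ∉ F ∙ x → x ≠ 0 → ∃ r s : F, u = r • x + s • y := by
    intro x y u hy hx
    have hli : LinearIndependent F ![x, y] := LinearIndependent.pair_iff.2 fun s s' h => by
      rcases eq_or_ne s' 0 with rfl | hs'
      · exact ⟨by simpa [hx] using h, rfl⟩
      · exact absurd (Submodule.mem_span_singleton.2 ⟨-(s'⁻¹ * s), by
          rw [neg_smul, mul_smul, ← smul_neg, neg_eq_of_add_eq_zero_right h, inv_smul_smul₀ hs']⟩) hy
    have htop := hli.span_eq_top_of_card_eq_finrank (by simp [hk])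
    have hu : u ∈ Submodule.span F (Set.range ![x, y]) := htop ▸ Submodule.mem_top
    rw [show Set.range ![x, y] = {x, y} by simp [Matrix.range_cons, Matrix.range_empty, Set.pair_comm],
      Submodule.mem_span_pair] at hu
    obtain ⟨r, s, h⟩ := hu
    exact ⟨r, s, h.symm⟩
  -- all changes at every site
  have H : ∀ (w : Fin t → Fin k → F) (i : Fin t) u, (∀ l, w l ≠ 0) →
      pvec (Function.update w i u) ∈ par D M w := by
    intro w i u hw
    have hall : ∀ (w : Fin t → Fin k → F) u, (∀ l, w l ≠ 0) →
        pvec (Function.update w o u) ∈ par D M w := fun w u hw => by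
      have h1 := one_site hs hz₀ hb hst hw (u := w o) (D.alt.alt _)
      obtain ⟨r, s, rfl⟩ := hspan (z₀ o) b u hb (hz₀ o)
      have h0 : ∀ u, pvec (Function.update z₀ o u) ∈ par D M z₀ := fun u => by
        obtain ⟨r, s, rfl⟩ := hspan (z₀ o) b u hb (hz₀ o)
        rw [pvec_update_add, pvec_update_smul, pvec_update_smul]
        exact add_mem (Submodule.smul_mem _ _ (one_site hs hz₀ hb hst hz₀ (D.alt.alt _)))
          (Submodule.smul_mem _ _ hst)
      obtain ⟨m, A, hm, hmA, hAz, -⟩ := exists_move hs hz₀ hw
      generalize r • z₀ o + s • b = u'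
      obtain ⟨u', rfl⟩ := (A o).surjective u'
      have h3 := map_mem_par hm (z' := w) (by rw [hmA]; congr 1; exact funext hAz) (h0 u')
      rw [hmA] at h3
      convert h3 using 2
      funext i
      rcases eq_or_ne i o with rfl | hi
      · simp
      · simp [Function.update_of_ne hi, hAz]
    rcases eq_or_ne i o with rfl | hio
    · exact hall w u hw
    obtain ⟨l, hlo, hli⟩ : ∃ l : Fin t, l ≠ o ∧ l ≠ i := by
      obtain ⟨l, -, hl⟩ := Finset.exists_mem_notMem_of_card_lt_card
        (s := ({o, i} : Finset (Fin t))) (t := Finset.univ) (Finset.card_le_two.trans_lt (by simp; omega))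
      exact ⟨l, by simp at hl; exact hl.1, by simp at hl; exact hl.2⟩
    set π := Equiv.swap i l * Equiv.swap i o with hπ
    obtain ⟨m, hm, hmπ⟩ := halt π (by
      rw [hπ, map_mul, Equiv.Perm.sign_swap hli.symm, Equiv.Perm.sign_swap hio]; decide)
    have hπi : π i = o := by
      rw [hπ, Equiv.Perm.mul_apply, Equiv.swap_apply_left,
        Equiv.swap_apply_of_ne_of_ne hio.symm hlo.symm]
    have h3 := map_mem_par hm (z := w ∘ π.symm) (z' := w)
      (by rw [hmπ]; simp) (hall (w ∘ π.symm) u (fun l => hw _))
    rw [hmπ] at h3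
    convert h3 using 2
    funext j
    rcases eq_or_ne j i with rfl | hj
    · rw [Function.update_self, hπi, Function.update_self]
    · rw [Function.update_of_ne hj, Function.update_of_ne (fun h => hj (π.injective (h.trans hπi.symm))),
        Function.comp_apply, Equiv.symm_apply_apply]
  set L := par D M z with hL
  have hgz : ∀ i, D.g.flip (z i) ≠ 0 := fun i h => by
    obtain ⟨d, hd⟩ := D.exists_ne (hz i)
    exact D.g_ne_symm (x := z i) (y := d) (by rw [hd]; exact one_ne_zero) (LinearMap.congr_fun h d)
  have hne : ∀ {x y : Fin k → F}, D.g x y ≠ 0 → x ≠ 0 := fun h h0 => h (by rw [h0]; simp)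
  -- two sites
  have h2 : ∀ (v : Fin t → Fin k → F) (a c : Fin t), a ≠ c → v a = z a → v c = z c → pvec v ∈ L := by
    intro v a c hac ha hc
    refine pvec_extend ((Finset.univ.erase a).erase c) (fun i => D.g.flip (z i)) (fun i _ => hgz i) _
      fun v' hv' hS => ?_
    have hva : v' a = z a := by rw [hv' a (by simp), ha]
    have hvc : v' c = z c := by rw [hv' c (by simp), hc]
    obtain ⟨da, hda⟩ := D.exists_ne (hz a)
    obtain ⟨dc, hdc⟩ := D.exists_ne (hz c)
    have := move' (o := c) (w := Function.update v' c dc) (c := z c)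
      (H _ c _ (fun i => by
        rcases eq_or_ne i c with rfl | hi
        · simpa using hne (D.g_ne_symm (x := z i) (y := dc) (by rw [hdc]; exact one_ne_zero))
        · rw [Function.update_of_ne hi]
          rcases eq_or_ne i a with rfl | hia
          · rw [hva]; exact hz _
          · exact hne (hS i (by simp [hi, hia]))))
      ⟨a, by rw [Function.update_of_ne hac, hva]; exact D.alt.alt _⟩
      ⟨c, by rw [Function.update_self]; exact D.alt.alt _⟩
      (x := Function.update z a da) (H z a da hz)
      ⟨c, by rw [Function.update_self, Function.update_of_ne hac.symm]; exact D.alt.alt _⟩ (fun i => by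
        rcases eq_or_ne i a with rfl | hia
        · simp [Function.update_of_ne hac, hva, hda]
        rcases eq_or_ne i c with rfl | hic
        · rw [Function.update_self, Function.update_of_ne hia]
          exact D.g_ne_symm (by rw [hdc]; exact one_ne_zero)
        · rw [Function.update_of_ne hic, Function.update_of_ne hia]
          exact hS i (by simp [hic, hia]))
    rwa [Function.update_idem, ← hvc, Function.update_eq_self] at this
  -- one site
  have h1 : ∀ (v : Fin t → Fin k → F) (a : Fin t), v a = z a → pvec v ∈ L := by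
    intro v a ha
    obtain ⟨c, hca⟩ : ∃ c : Fin t, c ≠ a := by
      haveI : Nontrivial (Fin t) := Fin.nontrivial_iff_two_le.2 (by omega)
      exact _root_.exists_ne a
    refine pvec_extend ((Finset.univ.erase a).erase c) (fun i => D.g.flip (z i)) (fun i _ => hgz i) _
      fun v' hv' hS => ?_
    have hva : v' a = z a := by rw [hv' a (by simp), ha]
    by_cases hc0 : v' c = 0
    · rw [pvec_eq_zero (i := c) hc0]; exact zero_mem _
    have hv0 : ∀ i, v' i ≠ 0 := fun i => by
      rcases eq_or_ne i c with rfl | hic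
      · exact hc0
      rcases eq_or_ne i a with rfl | hia
      · rw [hva]; exact hz _
      · exact hne (hS i (by simp [hic, hia]))
    obtain ⟨p, q, hpq, hpa, hpc, hqa, hqc⟩ : ∃ p q : Fin t, p ≠ q ∧ p ≠ a ∧ p ≠ c ∧ q ≠ a ∧ q ≠ c := by
      obtain ⟨p, -, hp⟩ := Finset.exists_mem_notMem_of_card_lt_card
        (s := ({a, c} : Finset (Fin t))) (t := Finset.univ) (Finset.card_le_two.trans_lt (by simp; omega))
      obtain ⟨q, -, hq⟩ := Finset.exists_mem_notMem_of_card_lt_card
        (s := ({a, c, p} : Finset (Fin t))) (t := Finset.univ) (Finset.card_le_three.trans_lt (by simp; omega))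
      simp only [Finset.mem_insert, Finset.mem_singleton, not_or] at hp hq
      exact ⟨p, q, Ne.symm hq.2.2, hp.1, hp.2, hq.1, hq.2.1⟩
    choose e he using fun i => D.exists_ne (hv0 i)
    obtain ⟨wc, hwc⟩ := D.exists_ne hc0
    set x := Function.update (Function.update (Function.update e p (z p)) q (z q)) c (v' c) with hx
    have := move' (o := c) (w := Function.update v' c wc) (c := v' c)
      (H _ c _ (fun i => by
        rcases eq_or_ne i c with rfl | hi
        · simpa using hne (D.g_ne_symm (x := v' i) (y := wc) (by rw [hwc]; exact one_ne_zero))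
        · rw [Function.update_of_ne hi]; exact hv0 i))
      ⟨a, by rw [Function.update_of_ne hca.symm, hva]; exact D.alt.alt _⟩
      ⟨a, by rw [Function.update_of_ne hca.symm, Function.update_of_ne hca.symm, hva]; exact D.alt.alt _⟩
      (x := x) (h2 x p q hpq (by simp [hx, hpc, hpq]) (by simp [hx, hqc]))
      ⟨c, by simp [hx, D.alt.alt]⟩ (fun i => by
        rcases eq_or_ne i c with rfl | hic
        · simp only [hx, Function.update_self]
          exact D.g_ne_symm (by rw [hwc]; exact one_ne_zero)
        rcases eq_or_ne i q with rfl | hiq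
        · simpa [hx, hic] using hS i (by simp [hic, hqa])
        rcases eq_or_ne i p with rfl | hip
        · simpa [hx, hic, hiq] using hS i (by simp [hic, hpa])
        · simp [hx, hic, hiq, hip, he])
    rwa [Function.update_idem, Function.update_eq_self] at this
  obtain ⟨i, hi⟩ := hv
  obtain ⟨d, hd⟩ := D.exists_ne (hz i)
  obtain ⟨r, s, hrs⟩ := hspan (z i) d (v i) (fun hm => by
    obtain ⟨c, hc⟩ := Submodule.mem_span_singleton.1 hm
    rw [← hc, map_smul, D.alt.alt, smul_zero] at hd
    exact zero_ne_one hd) (hz i)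
  have hs0 : s = 0 := by
    rw [hrs] at hi
    simpa [D.alt.alt, D.alt.skew d (z i), hd] using hi
  rw [hs0, zero_smul, add_zero] at hrs
  rw [show v = Function.update v i (r • z i) by rw [← hrs, Function.update_eq_self], pvec_update_smul]
  exact Submodule.smul_mem _ r (h1 _ i (Function.update_self ..))

omit hs in
/-- The bilinear form is non-degenerate. -/
lemma bNondeg : BNondeg D.Q := fun X hX => by
  classical
  funext z
  choose d hd using fun i => D.alt.exists_dual (dotProductBilin F F (Pi.single (z i) (1 : F)))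
  have hval : ∀ i x, D.g x (d i) = -x (z i) := fun i x => by
    rw [D.alt.skew, hd i]
    simp
  have key : D.Q.polarBilin.flip (pvec d) = (D.c * (-1) ^ t) • LinearMap.proj z := ext_pvec fun us => by
    rw [LinearMap.flip_apply, QuadraticMap.polarBilin_apply_apply, D.polar_pvec, LinearMap.smul_apply,
      LinearMap.proj_apply, smul_eq_mul, mul_assoc]
    congr 1
    simp only [hval, pvec]
    rw [Finset.prod_neg, Finset.card_univ, Fintype.card_fin]
  have h1 := LinearMap.congr_fun key X
  rw [LinearMap.flip_apply, QuadraticMap.polarBilin_apply_apply, hX, LinearMap.smul_apply,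
    LinearMap.proj_apply, smul_eq_mul] at h1
  exact (mul_eq_zero.1 h1.symm).resolve_left (mul_ne_zero D.c_ne (pow_ne_zero _ (neg_ne_zero.2 one_ne_zero)))

/-- The Eichler subgroup is reached. -/
theorem commutator_le [Finite F] (hn : 5 ≤ k ^ t)
    (hk : 4 ≤ k ∨ (k = 2 ∧ 4 ≤ t ∧ ∀ π : Equiv.Perm (Fin t), Equiv.Perm.sign π = 1 →
      ∃ m ∈ M, ∀ us, m.1 (pvec us) = pvec fun i => us (π i)))
    {z₀ : Fin t → Fin k → F} (hz₀ : ∀ i, z₀ i ≠ 0) {b : Fin k → F} (hb : b ∉ F ∙ z₀ o)
    (hst : pvec (Function.update z₀ o b) ∈ par D M z₀) : commutator (OQ D.Q) ≤ M := by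
  classical
  have hfin : 5 ≤ finrank F (Ten F k t) := by simpa using hn
  rw [commutator_eq_EQ bNondeg hfin]
  have hcentre : ∀ z : Fin t → Fin k → F, (∀ i, z i ≠ 0) → pvec z ∈ siegelCentres D.Q M := fun z hz => by
    refine ⟨D.pure z, fun a ha => ?_⟩
    have hmem := all_perp_of_sites (M := M) hz (fun v hv => by
      rcases hk with hk | ⟨hk, ht, halt⟩
      · exact all_perp hs hk hz₀ hb hst hz v hv
      · exact all_perp_two hs hk ht halt hz₀ hb hst hz v hv) a ha
    obtain ⟨h, hm⟩ := hmem 1
    convert hm using 1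
    exact siegel_congr D.Q _ _ _ _ rfl (one_smul F a).symm
  choose d hd using fun i => D.exists_ne (hz₀ i)
  refine EQ_le_of_siegel_pair bNondeg hfin (hcentre z₀ hz₀)
    (hcentre d fun i h0 => by have := hd i; simp [h0] at this) ?_
  rw [D.polar_pvec]
  refine mul_ne_zero D.c_ne (Finset.prod_ne_zero_iff.2 fun i _ => ?_)
  exact D.g_ne_symm (by rw [hd]; exact one_ne_zero)

end Cfsg.Agent.MaxSub.TensorPowSp.Omega
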