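import Cfsg.Agent.MaxSub.TensorPowSp.OmegaGen
import Cfsg.Agent.MaxSub.TensorPow.Classify
import Cfsg.Agent.Forms.Alternating
import Cfsg.Agent.Forms.OmegaCrit

/-!
Elements of `Ω` stabilising a symplectic tensor power: the transvections of the factors and the
permutations of the factors.
-/

set_option autoImplicit false
set_option linter.unusedSectionVars false
set_option linter.unusedSimpArgs false
set_option linter.style.haveILetI false

namespace Cfsg.Agent.MaxSub.TensorPowSp.Omega

open Module Matrix QuadraticMap Cfsg.Agent.MaxSub.TensorPow Cfsg.Agent.Classical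
open scoped commutatorElement
open Cfsg.Agent.MaxSub.TensorMax (Alt wedge wedge_apply)
open Cfsg.Agent.GeoClasses (siegel_singular_mem_commutator pureMat pureMat_mul pureMat_one)

universe u

variable {F : Type u} [Field F] {k t : ℕ}

/-- The product of the forms as a bilinear map. -/
noncomputable def prodForm (g : (Fin k → F) →ₗ[F] (Fin k → F) →ₗ[F] F) (t : ℕ) :
    Ten F k t →ₗ[F] Ten F k t →ₗ[F] F :=
  Matrix.toLinearMap₂' F (pureMat fun _ : Fin t => LinearMap.toMatrix₂' F g)

lemma prodForm_pvec (g : (Fin k → F) →ₗ[F] (Fin k → F) →ₗ[F] F) (us vs : Fin t → Fin k → F) :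
    prodForm g t (pvec us) (pvec vs) = ∏ i, g (us i) (vs i) := by
  rw [prodForm, Matrix.toLinearMap₂'_apply', pureMat_pvec]
  refine (fprod_pvec us _).trans (Finset.prod_congr rfl fun i _ => ?_)
  rw [← Matrix.toLinearMap₂'_apply', Matrix.toLinearMap₂'_toMatrix']

lemma ext_pvec₂' {f f' : Ten F k t →ₗ[F] Ten F k t →ₗ[F] F}
    (h : ∀ us vs, f (pvec us) (pvec vs) = f' (pvec us) (pvec vs)) : f = f' :=
  ext_pvec fun us => ext_pvec fun vs => h us vs

variable (D : OData F k t)

lemma OData.polar_eq (X Y : Ten F k t) : polar D.Q X Y = D.c * prodForm D.g t X Y := by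
  have h : D.Q.polarBilin = D.c • prodForm D.g t := ext_pvec₂' fun us vs => by
    rw [QuadraticMap.polarBilin_apply_apply, D.polar_pvec, LinearMap.smul_apply,
      LinearMap.smul_apply, prodForm_pvec, smul_eq_mul]
  exact LinearMap.congr_fun₂ h X Y

/-- A linear map keeping the polar form and sending pure tensors to singular vectors is an
isometry. -/
lemma OData.map_eq {f : Ten F k t →ₗ[F] Ten F k t}
    (hp : ∀ us vs, prodForm D.g t (f (pvec us)) (f (pvec vs)) = prodForm D.g t (pvec us) (pvec vs))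
    (hs : ∀ us, D.Q (f (pvec us)) = 0) (X : Ten F k t) : D.Q (f X) = D.Q X := by
  have hpol : ∀ X Y, polar D.Q (f X) (f Y) = polar D.Q X Y := fun X Y => by
    rw [D.polar_eq, D.polar_eq]
    exact congrArg (D.c * ·) (LinearMap.congr_fun₂ (ext_pvec₂' (f := (prodForm D.g t).compl₁₂ f f)
      (f' := prodForm D.g t) hp) X Y)
  have hX : X ∈ Submodule.span F (Set.range (pvec : _ → Ten F k t)) := by rw [span_pvec]; trivial
  induction hX using Submodule.span_induction with
  | mem Y hY => obtain ⟨us, rfl⟩ := hY; rw [hs, D.pure]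
  | zero => rw [map_zero]
  | add Y Y' _ _ hY hY' => rw [map_add, qf_add, qf_add, hY, hY', hpol]
  | smul r Y _ hY => rw [map_smul, QuadraticMap.map_smul, QuadraticMap.map_smul, hY]

variable {D}

/-- The permutation of the factors, as an isometry. -/
noncomputable def permOQ (D : OData F k t) : Equiv.Perm (Fin t) →* OQ D.Q where
  toFun σ := ⟨perm F k σ, fun X => D.map_eq (f := (perm F k σ).toLinearMap) (fun us vs => by
    simp only [LinearEquiv.coe_coe, perm_pvec, prodForm_pvec]
    exact Equiv.prod_comp σ.symm (fun i => D.g (us i) (vs i)))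
    (fun us => by simp [perm_pvec, D.pure]) X⟩
  map_one' := Subtype.ext (LinearEquiv.toLinearMap_injective (ext_pvec fun us => by
    show perm F k (1 : Equiv.Perm (Fin t)) (pvec us) = pvec us
    rw [perm_pvec]; rfl))
  map_mul' σ τ := Subtype.ext (LinearEquiv.toLinearMap_injective (ext_pvec fun us => by
    show perm F k (σ * τ) (pvec us) = perm F k σ (perm F k τ (pvec us))
    simp only [perm_pvec]; rfl))

lemma permOQ_pvec (σ : Equiv.Perm (Fin t)) (us : Fin t → Fin k → F) :
    (permOQ D σ).1 (pvec us) = pvec fun i => us (σ.symm i) := perm_pvec σ us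

lemma even_perm_mem_commutator {σ : Equiv.Perm (Fin t)} (hσ : Equiv.Perm.sign σ = 1) :
    σ ∈ commutator (Equiv.Perm (Fin t)) := by
  have h : σ ∈ alternatingGroup (Fin t) := Equiv.Perm.mem_alternatingGroup.2 hσ
  rw [← Equiv.Perm.closure_three_cycles_eq_alternating] at h
  refine (Subgroup.closure_le _).2 ?_ h
  intro s hs
  obtain ⟨τ, hτ⟩ := isConj_iff.1 (Equiv.Perm.isConj_iff_cycleType_eq.2
    (show s.cycleType = s⁻¹.cycleType by rw [Equiv.Perm.cycleType_inv]))
  have h3 : s * s * s = 1 := by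
    have := pow_orderOf_eq_one s
    rw [hs.orderOf] at this
    rwa [pow_succ, pow_two] at this
  have e : ⁅τ, s⁆ = s := by
    rw [commutatorElement_def, hτ, ← _root_.mul_inv_rev, inv_eq_iff_mul_eq_one, h3]
  rw [SetLike.mem_coe, ← e]
  exact Subgroup.commutator_mem_commutator trivial trivial

/-- The even permutations of the factors lie in `Ω`. -/
lemma permOQ_mem_commutator {σ : Equiv.Perm (Fin t)} (hσ : Equiv.Perm.sign σ = 1) :
    permOQ D σ ∈ commutator (OQ D.Q) :=
  (show (commutator (Equiv.Perm (Fin t))).map (permOQ D) ≤ commutator (OQ D.Q) by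
    rw [commutator_def, Subgroup.map_commutator, commutator_def]
    exact Subgroup.commutator_mono le_top le_top) ⟨σ, even_perm_mem_commutator hσ, rfl⟩

section Site

variable {t : ℕ} {D : OData F k (t + 1)}

lemma polar_ins (a b : Fin k → F) (w w' : Ten F k t) :
    polar D.Q ((slice F k t).symm (ins a w)) ((slice F k t).symm (ins b w')) =
      D.c * D.g a b * prodForm D.g t w w' := by
  have h : D.Q.polarBilin.compl₁₂ ((slice F k t).symm.toLinearMap ∘ₗ ins a)
      ((slice F k t).symm.toLinearMap ∘ₗ ins b) = (D.c * D.g a b) • prodForm D.g t :=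
    ext_pvec₂' fun us vs => by
      simp only [LinearMap.compl₁₂_apply, LinearMap.comp_apply, LinearEquiv.coe_coe,
        slice_symm_ins_pvec, QuadraticMap.polarBilin_apply_apply, D.polar_pvec, LinearMap.smul_apply,
        prodForm_pvec, smul_eq_mul, Fin.prod_univ_succ, Fin.cons_zero, Fin.cons_succ]
      ring
  exact LinearMap.congr_fun₂ h w w'

lemma line_singular (a : Fin k → F) (w : Ten F k t) : D.Q ((slice F k t).symm (ins a w)) = 0 := by
  have hw : w ∈ Submodule.span F (Set.range (pvec : _ → Ten F k t)) := by rw [span_pvec]; trivial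
  induction hw using Submodule.span_induction with
  | mem Y hY => obtain ⟨us, rfl⟩ := hY; rw [slice_symm_ins_pvec, D.pure]
  | zero => simp
  | add Y Y' _ _ hY hY' =>
    rw [map_add, map_add, qf_add, hY, hY', polar_ins, D.alt.alt]; ring
  | smul r Y _ hY => rw [map_smul, map_smul, QuadraticMap.map_smul, hY, smul_zero]

/-- The product form on the last factors is alternating. -/
lemma tail_alt (ht : 1 ≤ t) (hsign : (-1 : F) ^ (t + 1) = 1) : Alt (prodForm D.g t) := by
  have hskew : ∀ X Y, prodForm D.g t X Y = -prodForm D.g t Y X := fun X Y => by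
    refine LinearMap.congr_fun₂ (ext_pvec₂' (f := prodForm D.g t) (f' := -(prodForm D.g t).flip)
      fun us vs => ?_) X Y
    simp only [LinearMap.neg_apply, LinearMap.flip_apply, prodForm_pvec]
    rw [Finset.prod_congr rfl fun i _ => D.alt.skew (us i) (vs i), Finset.prod_neg,
      Finset.card_univ, Fintype.card_fin]
    rw [pow_succ] at hsign
    linear_combination (-(∏ i, D.g (vs i) (us i))) * hsign
  refine ⟨fun w => ?_, fun w hw => ?_⟩
  · by_cases h2 : (2 : F) = 0
    · have hw : w ∈ Submodule.span F (Set.range (pvec : _ → Ten F k t)) := by rw [span_pvec]; trivial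
      induction hw using Submodule.span_induction with
      | mem Y hY =>
        obtain ⟨us, rfl⟩ := hY
        rw [prodForm_pvec]
        exact Finset.prod_eq_zero (Finset.mem_univ ⟨0, ht⟩) (D.alt.alt _)
      | zero => simp
      | add Y Y' _ _ hY hY' =>
        simp only [map_add, LinearMap.add_apply, hY, hY', hskew Y' Y]; ring
      | smul r Y _ hY => simp [hY]
    · have := hskew w w
      exact (mul_eq_zero.1 (show (2 : F) * prodForm D.g t w w = 0 by linear_combination this)).resolve_left h2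
  · rcases Nat.eq_zero_or_pos k with rfl | hk
    · funext z
      exact (z ⟨0, ht⟩).elim0
    obtain ⟨a, b, hab⟩ : ∃ a b, D.g a b ≠ 0 := by
      by_contra hc
      push Not at hc
      exact (show (Pi.single ⟨0, hk⟩ 1 : Fin k → F) ≠ 0 by simp) (D.alt.nd _ (hc _))
    have hX : (slice F k t).symm (ins a w) = 0 := bNondeg (D := D) _ fun Y => by
      obtain ⟨Y, rfl⟩ := (slice F k t).symm.surjective Y
      rw [eq_sum_ins (F := F) Y, map_sum]
      show D.Q.polarBilin _ _ = 0
      rw [map_sum]
      exact Finset.sum_eq_zero fun i _ => by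
        rw [QuadraticMap.polarBilin_apply_apply, polar_ins, hw, mul_zero]
    rw [LinearEquiv.map_eq_zero_iff] at hX
    exact ins_injective (fun h0 => hab (by simp [h0])) (hX.trans (map_zero _).symm)

/-- Transvections of the first factor lie in `Ω`. -/
lemma site_zero_mem_commutator [Finite F] (hn : 5 ≤ k ^ (t + 1)) (ht : 1 ≤ t) (hsign : (-1 : F) ^ (t + 1) = 1)
    (u : Fin k → F) (s : F) :
    ∃ m ∈ commutator (OQ D.Q), ∀ us : Fin (t + 1) → Fin k → F,
      m.1 (pvec us) = pvec (Function.update us 0 (us 0 + (s * D.g (us 0) u) • u)) := by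
  have hfin : 5 ≤ finrank F (Ten F k (t + 1)) := by simpa using hn
  have key := (tail_alt (D := D) ht hsign).skew_induction
    (P := fun Y => ∃ m ∈ commutator (OQ D.Q), ∀ (a : Fin k → F) (r : Ten F k t),
      m.1 ((slice F k t).symm (ins a r)) =
        (slice F k t).symm (ins a r + (D.c * D.g a u) • ins u (Y r)))
    ⟨1, one_mem _, fun a r => by simp⟩ (fun p q Y hY => ?_) ((D.c⁻¹ * s) • LinearMap.id)
    (fun r => by simp [(tail_alt (D := D) ht hsign).alt])
  · obtain ⟨m, hm, hmx⟩ := key
    refine ⟨m, hm, fun us => ?_⟩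
    have h := hmx (us 0) (pvec fun i => us i.succ)
    rw [← slice_pvec, LinearEquiv.symm_apply_apply] at h
    rw [h, LinearMap.smul_apply, LinearMap.id_apply, map_smul, smul_smul, slice_pvec, ← ins_smul,
      ← ins_add, slice_symm_ins_pvec]
    congr 1
    funext i
    refine Fin.cases ?_ (fun i => ?_) i
    · simp only [Fin.cons_zero, Function.update_self]
      congr 2
      field_simp [D.c_ne]
    · simp [Fin.succ_ne_zero]
  obtain ⟨m, hm, hmx⟩ := hY
  set A := (slice F k t).symm (ins u p) with hA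
  set B := (slice F k t).symm (ins u q) with hB
  have hAB : polar D.Q A B = 0 := by rw [polar_ins, D.alt.alt]; ring
  refine ⟨_, mul_mem (siegel_singular_mem_commutator bNondeg hfin (line_singular u p) hAB
    (line_singular u q)) hm, fun a r => ?_⟩
  show (siegel D.Q (line_singular u p) hAB).1 (m.1 _) = _
  rw [hmx]
  simp only [map_add, map_smul]
  rw [siegel_apply, siegel_apply]
  simp only [hA, hB, polar_ins, line_singular, D.alt.alt, mul_zero, zero_mul, zero_smul, add_zero,
    sub_zero, LinearMap.add_apply, map_add, wedge_apply, map_sub, map_smul,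
    D.alt.skew u a, (tail_alt (D := D) ht hsign).skew r q, (tail_alt (D := D) ht hsign).skew r p]
  module

end Site

/-- Transvections of every factor lie in `Ω`. -/
lemma site_mem_commutator [Finite F] (hn : 5 ≤ k ^ t) (ht : 2 ≤ t) (hsign : (-1 : F) ^ t = 1) (j : Fin t)
    (u : Fin k → F) (s : F) :
    ∃ m ∈ commutator (OQ D.Q), ∀ us : Fin t → Fin k → F,
      m.1 (pvec us) = pvec (Function.update us j (us j + (s * D.g (us j) u) • u)) := by
  obtain ⟨t, rfl⟩ : ∃ t', t = t' + 1 := ⟨t - 1, by have := j.isLt; omega⟩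
  obtain ⟨m, hm, hmx⟩ := site_zero_mem_commutator (D := D) hn (by omega) hsign u s
  set P := permOQ D (Equiv.swap 0 j)
  refine ⟨P * m * P⁻¹, (inferInstance : (commutator (OQ D.Q)).Normal).conj_mem m hm P, fun us => ?_⟩
  have hP : P⁻¹ = P := by
    rw [inv_eq_iff_mul_eq_one, ← map_mul, Equiv.swap_mul_self, map_one]
  rw [hP]
  show P.1 (m.1 (P.1 (pvec us))) = _
  rw [permOQ_pvec, hmx, permOQ_pvec]
  congr 1
  funext i
  rcases eq_or_ne i j with rfl | hi
  · simp
  rcases eq_or_ne i 0 with rfl | hi0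
  · simp [hi, Ne.symm hi]
  · simp [hi, Equiv.swap_apply_of_ne_of_ne hi0 hi, Function.update_of_ne hi0]

/-- A transposition of two factors is a commutator in odd characteristic. -/
lemma odd_swap_mem_commutator (h2 : (2 : F) ≠ 0) (ht : 4 ≤ t) {a b : Fin t}
    (hab : a ≠ b) : permOQ D (Equiv.swap a b) ∈ commutator (OQ D.Q) := by
  classical
  obtain ⟨c, d, hcd, hca, hcb, hda, hdb⟩ : ∃ c d : Fin t, c ≠ d ∧ c ≠ a ∧ c ≠ b ∧ d ≠ a ∧ d ≠ b := by
    obtain ⟨c, -, hc⟩ := Finset.exists_mem_notMem_of_card_lt_card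
      (s := ({a, b} : Finset (Fin t))) (t := Finset.univ) (Finset.card_le_two.trans_lt (by simp; omega))
    obtain ⟨d, -, hd⟩ := Finset.exists_mem_notMem_of_card_lt_card
      (s := ({a, b, c} : Finset (Fin t))) (t := Finset.univ) (Finset.card_le_three.trans_lt (by simp; omega))
    simp only [Finset.mem_insert, Finset.mem_singleton, not_or] at hc hd
    exact ⟨c, d, Ne.symm hd.2.2, hc.1, hc.2, hd.1, hd.2.1⟩
  -- a Lagrangian splitting
  obtain ⟨l, bs, hef, hee, hff⟩ := Forms.exists_symplectic_basis (B := D.g) (fun x => D.alt.alt x)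
    ⟨fun x h => D.alt.nd x h, fun y h => D.alt.nd y fun x => by rw [D.alt.skew, h, neg_zero]⟩
  let Pe : (Fin k → F) →ₗ[F] (Fin k → F) := bs.constr F (Sum.elim (fun i => bs (.inl i)) (fun _ => 0))
  let Pf : (Fin k → F) →ₗ[F] (Fin k → F) := bs.constr F (Sum.elim (fun _ => 0) (fun i => bs (.inr i)))
  let J : (Fin k → F) →ₗ[F] (Fin k → F) :=
    bs.constr F (Sum.elim (fun i => bs (.inr i)) (fun i => -bs (.inl i)))
  have hfe : ∀ i j, D.g (bs (.inr i)) (bs (.inl j)) = if i = j then -1 else 0 := fun i j => by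
    rw [D.alt.skew, hef]
    rcases eq_or_ne i j with rfl | h
    · simp
    · simp [h, Ne.symm h]
  have hPe : ∀ i, Pe (bs i) = Sum.elim (fun i => bs (.inl i)) (fun _ => 0) i := bs.constr_basis F _
  have hPf : ∀ i, Pf (bs i) = Sum.elim (fun _ => 0) (fun i => bs (.inr i)) i := bs.constr_basis F _
  have hJb : ∀ i, J (bs i) = Sum.elim (fun i => bs (.inr i)) (fun i => -bs (.inl i)) i :=
    bs.constr_basis F _
  have ePe : Pe + Pf = LinearMap.id := bs.ext fun i => by rcases i with i | i <;> simp [hPe, hPf]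
  have ePP : Pe ∘ₗ Pe = Pe ∧ Pf ∘ₗ Pf = Pf ∧ Pe ∘ₗ Pf = 0 ∧ Pf ∘ₗ Pe = 0 := by
    refine ⟨?_, ?_, ?_, ?_⟩ <;> refine bs.ext fun i => ?_ <;> rcases i with i | i <;> simp [hPe, hPf]
  have eJP : J ∘ₗ Pe = Pf ∘ₗ J ∧ J ∘ₗ Pf = Pe ∘ₗ J := by
    refine ⟨?_, ?_⟩ <;> refine bs.ext fun i => ?_ <;> rcases i with i | i <;> simp [hPe, hPf, hJb]
  have eJJ : J ∘ₗ J = -LinearMap.id := bs.ext fun i => by rcases i with i | i <;> simp [hJb]
  have hadj : ∀ x y, D.g (Pe x) y = D.g x (Pf y) := fun x y => by
    refine LinearMap.congr_fun₂ (f := D.g.compl₁₂ Pe LinearMap.id) (g := D.g.compl₁₂ LinearMap.id Pf)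
      (bs.ext fun i => bs.ext fun j => ?_) x y
    rcases i with i | i <;> rcases j with j | j <;> simp [hPe, hPf, hef, hee, hff, hfe]
  have hJ : ∀ x y, D.g (J x) (J y) = D.g x y := fun x y => by
    refine LinearMap.congr_fun₂ (f := D.g.compl₁₂ J J) (g := D.g)
      (bs.ext fun i => bs.ext fun j => ?_) x y
    rcases i with i | i <;> rcases j with j | j <;>
      simp [hJb, hef, hee, hff, hfe] <;> split_ifs <;> simp_all
  have hadj' : ∀ x y, D.g (Pf x) y = D.g x (Pe y) := fun x y => by
    rw [D.alt.skew, ← hadj, ← D.alt.skew]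
  -- the idempotent on two factors
  let op : Fin t → ((Fin k → F) →ₗ[F] (Fin k → F)) → Ten F k t →ₗ[F] Ten F k t := fun j f =>
    Matrix.toLin' (pos j (LinearMap.toMatrix' f))
  have op_pvec : ∀ j f us, op j f (pvec us) = pvec (Function.update us j (f (us j))) := fun j f us => by
    simp only [op, Matrix.toLin'_apply, pos_pvec, LinearMap.toMatrix'_mulVec]
  let P1 : Ten F k t →ₗ[F] Ten F k t := op c Pe ∘ₗ op d Pe + op c Pf ∘ₗ op d Pf
  let Sw : Ten F k t →ₗ[F] Ten F k t := (perm F k (Equiv.swap a b)).toLinearMap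
  have hop2 : ∀ f f' us, op c f (op d f' (pvec us)) =
      pvec (Function.update (Function.update us d (f' (us d))) c (f (us c))) := fun f f' us => by
    rw [op_pvec, op_pvec, Function.update_of_ne hcd]
  have hcomm : Sw ∘ₗ P1 = P1 ∘ₗ Sw := ext_pvec fun us => by
    simp only [Sw, P1, LinearMap.comp_apply, LinearMap.add_apply, LinearEquiv.coe_coe, map_add, hop2,
      perm_pvec, Equiv.symm_swap]
    congr 2 <;> funext i <;>
    · rcases eq_or_ne i c with rfl | hic
      · simp [Equiv.swap_apply_of_ne_of_ne hca hcb]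
      rcases eq_or_ne i d with rfl | hid
      · simp [hic, Equiv.swap_apply_of_ne_of_ne hda hdb]
      rcases eq_or_ne i a with rfl | hia
      · simp [hic, hid, hcb.symm, hdb.symm]
      rcases eq_or_ne i b with rfl | hib
      · simp [hic, hid, hca.symm, hda.symm]
      · simp [hic, hid, Equiv.swap_apply_of_ne_of_ne hia hib]
  have hidem : P1 ∘ₗ P1 = P1 := ext_pvec fun us => by
    simp only [P1, LinearMap.comp_apply, LinearMap.add_apply, map_add, hop2]
    simp only [Function.update_of_ne hcd, Function.update_self, Function.update_of_ne hcd.symm,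
      Function.update_idem, Function.update_comm hcd, ← LinearMap.comp_apply, ePP.1, ePP.2.1,
      ePP.2.2.1, ePP.2.2.2, LinearMap.zero_apply]
    simp [pvec_eq_zero (i := c)]
  have hP1adj : ∀ X Y, prodForm D.g t (P1 X) Y = prodForm D.g t X (P1 Y) := fun X Y => by
    refine LinearMap.congr_fun₂ (ext_pvec₂' (f := (prodForm D.g t).compl₁₂ P1 LinearMap.id)
      (f' := (prodForm D.g t).compl₁₂ LinearMap.id P1) fun us vs => ?_) X Y
    simp only [P1, LinearMap.compl₁₂_apply, LinearMap.comp_apply, LinearMap.id_apply, LinearMap.add_apply, map_add, hop2,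
      prodForm_pvec]
    rw [add_comm]
    congr 1 <;> refine Finset.prod_congr rfl fun i _ => ?_ <;>
    · rcases eq_or_ne i c with rfl | hic
      · simp [hadj, hadj']
      rcases eq_or_ne i d with rfl | hid
      · simp [hic, hadj, hadj']
      · simp [hic, hid]
  have hSadj : ∀ X Y, prodForm D.g t (Sw X) Y = prodForm D.g t X (Sw Y) := fun X Y => by
    refine LinearMap.congr_fun₂ (ext_pvec₂' (f := (prodForm D.g t).compl₁₂ Sw LinearMap.id)
      (f' := (prodForm D.g t).compl₁₂ LinearMap.id Sw) fun us vs => ?_) X Y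
    simp only [Sw, LinearMap.compl₁₂_apply, LinearMap.id_apply, LinearEquiv.coe_coe, perm_pvec,
      prodForm_pvec, Equiv.symm_swap]
    conv_rhs => rw [← Equiv.prod_comp (Equiv.swap a b)]
    simp
  have hSS : ∀ X, Sw (Sw X) = X := fun X => LinearMap.congr_fun (f := Sw ∘ₗ Sw) (g := LinearMap.id)
    (ext_pvec fun us => by simp [Sw, perm_pvec]) X
  have hPP : ∀ X, P1 (P1 X) = P1 X := LinearMap.congr_fun hidem
  have hSP : ∀ X, Sw (P1 X) = P1 (Sw X) := LinearMap.congr_fun hcomm
  let A : Ten F k t →ₗ[F] Ten F k t := Sw ∘ₗ P1 + (LinearMap.id - P1)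
  have hAA : A ∘ₗ A = LinearMap.id := LinearMap.ext fun X => by
    simp [A, hPP, hSS, hSP, map_sub, map_add]
  have hApol : ∀ X Y, prodForm D.g t (A X) (A Y) = prodForm D.g t X Y := fun X Y => by
    have h : ∀ X Y, prodForm D.g t (A X) Y = prodForm D.g t X (A Y) := fun X Y => by
      simp only [A, LinearMap.add_apply, LinearMap.sub_apply, LinearMap.comp_apply, LinearMap.id_apply,
        map_add, map_sub, hSadj, hP1adj, hSP]
    rw [h, show A (A Y) = Y from LinearMap.congr_fun hAA Y]
  have hQ2 : ∀ X, D.Q X = (2 : F)⁻¹ * (D.c * prodForm D.g t X X) := fun X => by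
    rw [← D.polar_eq, polar_self, two_nsmul, ← two_mul, ← mul_assoc, inv_mul_cancel₀ h2, one_mul]
  let aE : OQ D.Q := ⟨LinearEquiv.ofLinearMap A A hAA hAA, fun X => by
    show D.Q (A X) = D.Q X
    rw [hQ2, hQ2, hApol]⟩
  -- the move exchanging the two halves
  let Sd' : Ten F k t →ₗ[F] Ten F k t := op d J
  let Si : Ten F k t →ₗ[F] Ten F k t := op d (-J)
  have hSdi : Sd' ∘ₗ Si = LinearMap.id ∧ Si ∘ₗ Sd' = LinearMap.id := by
    have h1 : ∀ x, J (J x) = -x := LinearMap.congr_fun eJJ
    refine ⟨ext_pvec fun us => ?_, ext_pvec fun us => ?_⟩ <;>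
      simp [Sd', Si, op_pvec, h1]
  let sE : OQ D.Q := ⟨LinearEquiv.ofLinearMap Sd' Si hSdi.1 hSdi.2, fun X => D.map_eq (f := Sd')
    (fun us vs => by
      simp only [Sd', op_pvec, prodForm_pvec]
      refine Finset.prod_congr rfl fun i _ => ?_
      rcases eq_or_ne i d with rfl | hi
      · simp [hJ]
      · simp [hi])
    (fun us => by simp [Sd', op_pvec, D.pure]) X⟩
  have hexch : ∀ X, Sd' (P1 (Si X)) = X - P1 X := by
    refine LinearMap.congr_fun (f := Sd' ∘ₗ P1 ∘ₗ Si) (g := LinearMap.id - P1) (ext_pvec fun us => ?_)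
    have e : ∀ x, J (Pe (-J x)) = Pf x ∧ J (Pf (-J x)) = Pe x := fun x => by
      have e1 : ∀ y, J (Pe y) = Pf (J y) := LinearMap.congr_fun eJP.1
      have e2 : ∀ y, J (Pf y) = Pe (J y) := LinearMap.congr_fun eJP.2
      have h1 : ∀ x, J (J x) = -x := LinearMap.congr_fun eJJ
      simp [e1, e2, h1]
    have hsplit : ∀ x, x = Pe x + Pf x := fun x => (LinearMap.congr_fun ePe x).symm
    have hone : pvec us = op c Pe (op d Pe (pvec us)) + op c Pe (op d Pf (pvec us)) +
        (op c Pf (op d Pe (pvec us)) + op c Pf (op d Pf (pvec us))) := by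
      rw [← map_add, ← map_add, op_pvec, op_pvec, ← pvec_update_add, ← hsplit, Function.update_eq_self,
        op_pvec, op_pvec, ← pvec_update_add, ← hsplit, Function.update_eq_self]
    simp only [Sd', Si, P1, LinearMap.comp_apply, LinearMap.sub_apply, LinearMap.add_apply,
      LinearMap.id_apply, map_add, op_pvec, hop2]
    nth_rewrite 1 [hone]
    simp only [hop2, Function.update_of_ne hcd, Function.update_of_ne hcd.symm, Function.update_self,
      Function.update_comm hcd, Function.update_idem, LinearMap.neg_apply, (e _).1, (e _).2]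
    abel
  have hSS' : ∀ X, Sd' (Sw (Si X)) = Sw X := by
    refine LinearMap.congr_fun (f := Sd' ∘ₗ Sw ∘ₗ Si) (g := Sw) (ext_pvec fun us => ?_)
    have h1 : ∀ x, J (J x) = -x := LinearMap.congr_fun eJJ
    simp only [Sd', Si, Sw, LinearMap.comp_apply, op_pvec, LinearEquiv.coe_coe, perm_pvec,
      Equiv.symm_swap, Equiv.swap_apply_of_ne_of_ne hda hdb, Function.update_self]
    congr 1
    funext i
    rcases eq_or_ne i d with rfl | hi
    · simp [Equiv.swap_apply_of_ne_of_ne hda hdb, h1]
    · have : Equiv.swap a b i ≠ d := fun h => hi (by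
        rw [← Equiv.swap_apply_self a b i, h, Equiv.swap_apply_of_ne_of_ne hda hdb])
      simp [hi, this]
  have hSi : ∀ X, Sd' (Si X) = X := LinearMap.congr_fun hSdi.1
  have hprod : permOQ D (Equiv.swap a b) = ⁅aE, sE⁆ := by
    refine Subtype.ext (LinearEquiv.ext fun X => ?_)
    have ha' : aE⁻¹ = aE := inv_eq_of_mul_eq_one_left (Subtype.ext (LinearEquiv.ext fun X =>
      LinearMap.congr_fun hAA X))
    rw [commutatorElement_def, ha']
    show Sw X = A (Sd' (A (Si X)))
    have e : Sd' (A (Si X)) = Sw (X - P1 X) + P1 X := by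
      simp only [A, LinearMap.add_apply, LinearMap.sub_apply, LinearMap.comp_apply, LinearMap.id_apply,
        map_add, map_sub, hexch, hSi, sub_sub_cancel]
      congr 1
      have hx : Si (Sd' (P1 (Si X))) = P1 (Si X) := LinearMap.congr_fun hSdi.2 _
      rw [← map_sub Sw, ← hexch, ← hSS' (Sd' (P1 (Si X))), hx]
    rw [e]
    simp [A, hPP, hSS, hSP, map_sub, map_add]
  rw [hprod]
  exact Subgroup.commutator_mem_commutator trivial trivial

/-- All permutations lie in `Ω` for at least four factors in odd characteristic. -/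
lemma perm_mem_commutator (h2 : (2 : F) ≠ 0) (ht : 4 ≤ t) (σ : Equiv.Perm (Fin t)) :
    permOQ D σ ∈ commutator (OQ D.Q) := by
  refine Equiv.Perm.swap_induction_on σ (by rw [map_one]; exact one_mem _) fun f a b hab hf => ?_
  rw [map_mul]
  exact mul_mem (odd_swap_mem_commutator h2 ht hab) hf

end Cfsg.Agent.MaxSub.TensorPowSp.Omega
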