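import Cfsg.Agent.MaxSub.TensorPowSp.Core

/-!
An even number of sites: a largest root element leads to one supported on two pure vectors.
-/

set_option autoImplicit false
set_option linter.unusedSectionVars false
set_option linter.unusedSimpArgs false

namespace Cfsg.Agent.MaxSub.TensorPowSp

open Matrix Cfsg.Agent.NotMax Cfsg.Agent.GeoClasses

variable {F : Type*} [Field F] {k t : ℕ}

/-- The direction `x ↦ f(b, x) a - f(a, x) b`. -/
def A (G : Matrix (Fin k) (Fin k) F) (a b : Fin k → F) : Matrix (Fin k) (Fin k) F :=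
  vecMulVec a (b ᵥ* G) - vecMulVec b (a ᵥ* G)

lemma pureMat_update_eq (Ys : Fin t → Matrix (Fin k) (Fin k) F) (o : Fin t)
    (Z : Matrix (Fin k) (Fin k) F) :
    pureMat (Function.update Ys o Z) = site o Z * pureMat (Function.update Ys o 1) := by
  rw [← pureMat_update_mul _ (Function.update_self o 1 Ys), Function.update_idem]

lemma pureMat_update_add (Ys : Fin t → Matrix (Fin k) (Fin k) F) (o : Fin t)
    (Z Z' : Matrix (Fin k) (Fin k) F) :
    pureMat (Function.update Ys o (Z + Z')) =
      pureMat (Function.update Ys o Z) + pureMat (Function.update Ys o Z') := by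
  rw [pureMat_update_eq, site_add, add_mul, ← pureMat_update_eq, ← pureMat_update_eq]

lemma site_mul_pure (Ys : Fin t → Matrix (Fin k) (Fin k) F) (o : Fin t)
    (Z : Matrix (Fin k) (Fin k) F) :
    site o Z * pureMat Ys = pureMat (Function.update Ys o (Z * Ys o)) := by
  rw [site, pureMat_mul]
  congr 1
  funext i
  by_cases hi : i = o
  · subst hi; simp
  · simp [hi]

lemma pure_mul_site (Ys : Fin t → Matrix (Fin k) (Fin k) F) (o : Fin t)
    (Z : Matrix (Fin k) (Fin k) F) :
    pureMat Ys * site o Z = pureMat (Function.update Ys o (Ys o * Z)) := by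
  rw [site, pureMat_mul]
  congr 1
  funext i
  by_cases hi : i = o
  · subst hi; simp
  · simp [hi]

variable {G : Matrix (Fin k) (Fin k) F} {M : Subgroup (GL (Fin t → Fin k) F)}

namespace Sys

variable [NeZero k] (h : Sys G M)
include h

lemma E_mul_E' (z u : Fin k → F) : E G z * E G u = fG G z u • vecMulVec z (u ᵥ* G) := by
  rw [E, E, vec_mul_vec]

/-- A square zero element of the other half at a fixed site. -/
lemma fixed_W {W : Matrix (Fin k) (Fin k) F} (hW : IsW G W) :
    ∃ (g : GL (Fin k) F) (v : Fin k → F) (W' : Matrix (Fin k) (Fin k) F), Good G M g ∧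
      (g : Matrix (Fin k) (Fin k) F) * W * ((g⁻¹ : GL (Fin k) F) : Matrix (Fin k) (Fin k) F) = W' ∧
      fG G v ((W' * W) *ᵥ v) = -fG G v ((W * W') *ᵥ v) ∧ fG G v ((W * W') *ᵥ v) ≠ 0 ∧
      (W * W' * (W * W') = 0 ∧ W * W' * (W' * W) = 0 ∧ W' * W * (W * W') = 0 ∧
        W' * W * (W' * W) = 0) ∧
      W * W' * W = 0 ∧ W' * W * W' = 0 ∧ W' * W' = 0 := by
  obtain ⟨u, hu⟩ : ∃ u, W *ᵥ u ≠ 0 := by
    by_contra hno
    push Not at hno
    exact hW.ne (Matrix.ext_of_mulVec_single fun i => by rw [hno, zero_mulVec])
  obtain ⟨g, hg, hge, hgi⟩ := h.good_transv u 1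
  obtain ⟨v, hv⟩ := h.exists_fG_eq_one hu
  rw [one_smul] at hge hgi
  have hEWE : E G u * W * E G u = 0 := by rw [E_mul_E, h.fG_adj_self hW.adj, zero_smul]
  have hW' : (g : Matrix (Fin k) (Fin k) F) * W * ((g⁻¹ : GL (Fin k) F) : Matrix (Fin k) (Fin k) F) =
      W + E G u * W - W * E G u := by
    rw [hge, hgi, add_mul, one_mul, mul_sub, mul_one, add_mul, hEWE]; abel
  have w1 : ∀ Z, W * (W * Z) = 0 := fun Z => by rw [← mul_assoc, hW.sq, zero_mul]
  have w2 : ∀ Z, E G u * (W * (E G u * Z)) = 0 := fun Z => by
    rw [← mul_assoc, ← mul_assoc, hEWE, zero_mul]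
  have w3 : E G u * (W * E G u) = 0 := by rw [← mul_assoc, hEWE]
  have w4 : ∀ Z, E G u * (E G u * Z) = 0 := fun Z => by rw [← mul_assoc, h.E_sq, zero_mul]
  have e1 : W * (W + E G u * W - W * E G u) = W * E G u * W := by
    simp only [mul_add, mul_sub, hW.sq, w1, mul_assoc, zero_add, sub_zero]
  have e2 : (W + E G u * W - W * E G u) * W = -(W * E G u * W) := by
    simp only [add_mul, sub_mul, hW.sq, mul_assoc, mul_zero, zero_add, zero_sub]
  refine ⟨g, v, _, hg, hW', ?_, ?_, ⟨?_, ?_, ?_, ?_⟩, ?_, ?_, ?_⟩
  · rw [e1, e2, neg_mulVec, show -((W * E G u * W) *ᵥ v) = (-1 : F) • ((W * E G u * W) *ᵥ v) by simp,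
      fG_smul_right]
    ring
  · rw [e1]
    simp only [← mulVec_mulVec, E_mulVec, mulVec_smul, fG_smul_right]
    rw [h.fG_adj hW.adj, hv, one_mul, h.fG_swap (W *ᵥ u) v, hv]
    exact neg_ne_zero.2 one_ne_zero
  all_goals
    first | rw [e1, e2] | rw [e1] | rw [e2] | skip
    simp only [mul_assoc, mul_neg, neg_mul, neg_neg, mul_add, mul_sub, add_mul, sub_mul, hW.sq, w1,
      w2, w3, w4, h.E_sq, mul_zero, neg_zero, add_zero, sub_zero, zero_add]
    try abel

/-- A largest root element on an even number of sites leads to a Siegel element of two pure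
vectors. -/
theorem exists_pairShape (heven : Even t) {T : Finset (Fin t)} (hT : Cand G M T)
    (hmax : ∀ T', Cand G M T' → T'.card ≤ T.card) :
    ∃ (l : F) (p : Fin t → Fin k → F) (o : Fin t) (b : Fin k → F), l ≠ 0 ∧ (∀ i, p i ≠ 0) ∧
      (∀ c : F, b ≠ c • p o) ∧
      Root F M (l • pureMat (Function.update (fun i => E G (p i)) o (A G (p o) b))) := by
  classical
  obtain ⟨l, z, D, X, hl, hz, hdis, hXT, hXD, hX1, hsize, hroot⟩ := h.exists_shape hT hmax
  have hr := h.odd_card hl hz hXT hXD hX1 hroot
  have hne : T ≠ Finset.univ := fun e => by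
    rw [e, Finset.card_univ, Fintype.card_fin] at hr
    exact Nat.not_even_iff_odd.2 hr heven
  obtain ⟨j, hj⟩ := hT.1
  have hfinish : ∀ (U : Finset (Fin t)) (π : Equiv.Perm (Fin t)), (∀ i, π (π i) = i) →
      (∀ i ∈ U, π i = i → i ∈ T ∨ i ∈ D) → (∀ i, π i ≠ i → i ∈ U ∧ (i ∈ T ↔ π i ∉ T)) →
      (∀ i, i ∉ U → i ∉ T ∧ i ∉ D) → Odd (U.filter fun i => π i = i).card → π j ≠ j →
      T.card < U.card → False := by
    intro U π h1 h2 h3 h4 h5 h6 hU
    obtain ⟨μ, v, hμ, hv, hfin⟩ := h.enlarge_of_perm hl hz hXT hXD hX1 hroot π h1 h2 h3 h4 h5 j h6 hj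
    have hTc := Finset.card_pos.2 hT.1
    have := hmax U ⟨Finset.card_pos.1 (by omega), v, μ • 1, hv, smul_ne_zero hμ one_ne_zero,
      fun i _ Z => (Commute.one_right _).smul_right μ, Or.inl (by omega),
      by rwa [mul_smul_comm, mul_one]⟩
    omega
  have hTD := Finset.card_union_of_disjoint hdis
  have hjD : j ∉ D := Finset.disjoint_left.1 hdis hj
  have hTt : T.card < t := by
    have := Finset.card_lt_card ((Finset.ssubset_univ_iff).2 hne)
    simpa using this
  -- the common last step
  have hpair : ∀ (X' : Fin t → Matrix (Fin k) (Fin k) F) (v : Fin t → Fin k → F) (o : Fin t)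
      (p q : Fin t) (a b : Fin k → F), p ≠ q →
      Root F M (l • pureMat X') →
      (∀ i, i = p ∨ i = q → X i * X' i * (X i * X' i) = 0 ∧ X i * X' i * (X' i * X i) = 0 ∧
        X' i * X i * (X i * X' i) = 0 ∧ X' i * X i * (X' i * X i) = 0) →
      X p * X p = 0 ∨ X q * X q = 0 → X' p * X' p = 0 ∨ X' q * X' q = 0 →
      X p * X' p * X p = 0 → X' q * X q * X' q = 0 →
      ∀ s : Fin t → F, (∀ i, i ≠ o → fG G (v i) ((X' i * X i) *ᵥ v i) =
          s i * fG G (v i) ((X i * X' i) *ᵥ v i) ∧ fG G (v i) ((X i * X' i) *ᵥ v i) ≠ 0) →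
        ∏ i ∈ Finset.univ.erase o, s i = -1 →
      X o * X' o + X' o * X o = A G a b → a ≠ 0 → (∀ c : F, b ≠ c • a) →
      ∃ (l : F) (p : Fin t → Fin k → F) (o : Fin t) (b : Fin k → F), l ≠ 0 ∧ (∀ i, p i ≠ 0) ∧
        (∀ c : F, b ≠ c • p o) ∧
        Root F M (l • pureMat (Function.update (fun i => E G (p i)) o (A G (p o) b))) := by
    intro X' v o p q a b hpq hX' hanch hsq hsq' hp hq s hval hs hsum ha hb
    have h1 := h.grow_key hroot hX' (Finset.univ.erase o) v hpq hanch
      (hsq.elim (fun e => ⟨p, e⟩) fun e => ⟨q, e⟩) (hsq'.elim (fun e => ⟨p, e⟩) fun e => ⟨q, e⟩) hp hq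
    have eprod : ∏ i ∈ Finset.univ.erase o, fG G (v i) ((X' i * X i) *ᵥ v i) =
        -∏ i ∈ Finset.univ.erase o, fG G (v i) ((X i * X' i) *ᵥ v i) := by
      rw [Finset.prod_congr rfl fun i hi => (hval i (Finset.ne_of_mem_erase hi)).1,
        Finset.prod_mul_distrib, hs, neg_one_mul]
    set w := Function.update v o a
    have efun : ∀ Z : Fin t → Matrix (Fin k) (Fin k) F,
        (fun i => if i ∈ Finset.univ.erase o then E G (v i) else Z i) =
          Function.update (fun i => E G (w i)) o (Z o) := fun Z => by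
      funext i
      by_cases hi : i = o
      · subst hi; simp
      · simp [hi, w]
    rw [eprod, efun, efun, mul_neg, neg_smul, sub_neg_eq_add, ← smul_add, ← pureMat_update_add,
      hsum] at h1
    refine ⟨_, w, o, b, ?_, fun i => ?_, fun c => ?_, by
      simpa only [w, Function.update_self] using h1⟩
    · exact mul_ne_zero (mul_ne_zero hl hl) (Finset.prod_ne_zero_iff.2 fun i hi =>
        (hval i (Finset.ne_of_mem_erase hi)).2)
    · by_cases hi : i = o
      · subst hi; simpa [w] using ha
      · simp only [w, Function.update_of_ne hi]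
        intro e
        exact (hval i hi).2 (by rw [e]; simp [fG])
    · simpa [w] using hb c
  -- the matrix at a transvection site and a moved copy
  have hE : ∀ i ∈ T, ∃ (g : GL (Fin k) F) (u : Fin k → F), Good G M g ∧ fG G (z i) u = 1 ∧
      (g : Matrix (Fin k) (Fin k) F) * X i * ((g⁻¹ : GL (Fin k) F) : Matrix (Fin k) (Fin k) F) =
        E G u := by
    intro i hi
    obtain ⟨u, hu⟩ := h.exists_fG_eq_one (hz i hi)
    obtain ⟨g, hg, hge⟩ := h.exists_move (hz i hi) (x := u) fun e => by simp [e, fG] at hu
    exact ⟨g, u, hg, hu, by rw [hXT i hi, h.conj_E hg, hge]⟩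
  have hEsum : ∀ (o : Fin t) (hot : o ∈ T) (u : Fin k → F), fG G (z o) u = 1 →
      X o * E G u + E G u * X o = A G (z o) u ∧ ∀ c : F, u ≠ c • z o := by
    intro o hot u hu
    refine ⟨?_, fun c e => ?_⟩
    · rw [hXT o hot, h.E_mul_E', h.E_mul_E', h.fG_swap (z o) u, hu, one_smul, neg_one_smul, A,
        sub_eq_add_neg]
    · rw [e, fG_smul_right, h.fG_self, mul_zero] at hu
      exact zero_ne_one hu
  have hsame : ∀ (g : Fin t → GL (Fin k) F) (π : Equiv.Perm (Fin t)), (∀ i, π (π i) = i) →
      (∀ i, Good G M (g i)) → (3 ≤ t ∨ π = 1) →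
      Root F M (l • pureMat fun i => (g i : Matrix (Fin k) (Fin k) F) * X (π i) *
        (((g i)⁻¹ : GL (Fin k) F) : Matrix (Fin k) (Fin k) F)) := by
    intro g π hπ hg h3
    have hperm : glFactorPerm k π ∈ M := by
      rcases h3 with h3 | rfl
      · exact h.perm h3 π
      · convert one_mem M
        exact Units.ext (factorPerm_one (F := F) (a := k) (t := t))
    have hm : glPure g * glFactorPerm k π ∈ M := mul_mem (glPure_mem g hg) hperm
    have := hroot.conj hm
    convert this using 1
    rw [mul_smul_comm, smul_mul_assoc]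
    congr 1
    rw [Units.eq_mul_inv_iff_mul_eq, Units.val_mul]
    show pureMat _ * (pureMat _ * factorPerm k π) = pureMat _ * factorPerm k π * pureMat X
    have hπs : π.symm = π := Equiv.ext fun i => by rw [Equiv.symm_apply_eq, hπ]
    have hswap : (factorPerm k π : Matrix (Fin t → Fin k) (Fin t → Fin k) F) * pureMat X =
        pureMat (fun i => X (π i)) * factorPerm k π := by
      rw [pureMat_mul_factorPerm]
      congr 2
      funext i
      rw [hπ]
    rw [mul_assoc (pureMat _) (factorPerm k π), hswap, ← mul_assoc, ← mul_assoc, pureMat_mul,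
      pureMat_mul]
    congr 2
    funext i
    simp [mul_assoc]
  rcases Nat.even_or_odd D.card with hd | hd
  · rcases D.eq_empty_or_nonempty with rfl | ⟨m, hm⟩
    · -- no adjoint sites
      have h2T : 2 ≤ T.card := hsize.resolve_right (by simp)
      obtain ⟨j2, hj2, hj2j⟩ := Finset.exists_mem_ne (s := T) (by omega) j
      obtain ⟨i, hi⟩ : ∃ i, i ∉ T := by
        by_contra hno
        push Not at hno
        exact hne (Finset.eq_univ_of_forall hno)
      have hij : i ≠ j := fun e => hi (e ▸ hj)
      have hij2 : i ≠ j2 := fun e => hi (e ▸ hj2)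
      by_cases hc : T.card + 1 = t
      · have honly : ∀ a, a ∉ T → a = i := fun a ha => by
          by_contra hai
          have := Finset.card_le_univ (insert a (insert i T))
          rw [Finset.card_insert_of_notMem (by simp [hai, ha]), Finset.card_insert_of_notMem hi,
            Fintype.card_fin] at this
          omega
        set π := Equiv.swap j i with hπ
        have hπf : ∀ a, a ≠ j → a ≠ i → π a = a := fun a => Equiv.swap_apply_of_ne_of_ne
        have hchoice : ∀ a : Fin t, ∃ (g : GL (Fin k) F) (v : Fin k → F), Good G M g ∧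
            ((a = j ∨ a = i) → g = 1 ∧ fG G (z j) v ≠ 0) ∧
            (a ≠ j → a ≠ i →
              fG G v (((g : Matrix (Fin k) (Fin k) F) * X a * ((g⁻¹ : GL (Fin k) F) :
                Matrix (Fin k) (Fin k) F) * X a) *ᵥ v) =
              -fG G v ((X a * ((g : Matrix (Fin k) (Fin k) F) * X a * ((g⁻¹ : GL (Fin k) F) :
                Matrix (Fin k) (Fin k) F))) *ᵥ v) ∧
              fG G v ((X a * ((g : Matrix (Fin k) (Fin k) F) * X a * ((g⁻¹ : GL (Fin k) F) :
                Matrix (Fin k) (Fin k) F))) *ᵥ v) ≠ 0) := by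
          intro a
          by_cases hm' : a = j ∨ a = i
          · obtain ⟨v, hv, -⟩ := h.exists_common (hz j hj) (hz j hj)
            exact ⟨1, v, Good.one, fun _ => ⟨rfl, hv⟩, fun h1 h2 => (hm'.elim h1 h2).elim⟩
          · rw [not_or] at hm'
            have haT : a ∈ T := by
              by_contra e
              exact hm'.2 (honly a e)
            obtain ⟨g, v, hg, e1, e2⟩ := h.fixed_site (Or.inl ⟨z a, hz a haT, hXT a haT⟩)
            exact ⟨g, v, hg, fun e => (e.elim hm'.1 hm'.2).elim,
              fun _ _ => ⟨by rw [e1, neg_neg], e2⟩⟩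
        choose g v hg hmov hfix using hchoice
        obtain ⟨g₂, u, hg₂, hu, hge⟩ := hE j2 hj2
        set g' := Function.update g j2 g₂
        have hg' : ∀ a, Good G M (g' a) := fun a => by
          by_cases e : a = j2
          · subst e; simpa [g'] using hg₂
          · simpa [g', e] using hg a
        set X' := fun a => (g' a : Matrix (Fin k) (Fin k) F) * X (π a) * (((g' a)⁻¹ : GL (Fin k) F) : Matrix (Fin k) (Fin k) F)
          with hX'
        have hXi : X i = 1 := hX1 i hi (Finset.notMem_empty i)
        have hX'j : X' j = 1 := by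
          simp [hX', g', hj2j.symm, (hmov j (Or.inl rfl)).1, hπ, hXi]
        have hX'i : X' i = E G (z j) := by
          simp [hX', g', hij2, (hmov i (Or.inr rfl)).1, hπ, hXT j hj]
        have hX'2 : X' j2 = E G u := by
          simp only [hX', g', Function.update_self, hπf j2 hj2j hij2.symm, hge]
        obtain ⟨hsum, hind⟩ := hEsum j2 hj2 u hu
        refine hpair X' v j2 j i (z j2) u hij.symm (hsame g' π (Equiv.swap_apply_self j i) hg' (Or.inl (by
          have := Finset.card_le_univ ({j, i, j2} : Finset (Fin t))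
          rwa [Finset.card_eq_three.2 ⟨j, i, j2, hij.symm, hj2j.symm, hij2, rfl⟩, Fintype.card_fin] at this)))
          ?_ (Or.inl (by rw [hXT j hj, h.E_sq])) (Or.inr (by rw [hX'i, h.E_sq])) ?_ ?_
          (fun a => if a = j ∨ a = i then 1 else -1) ?_ ?_
          (by rw [hX'2]; exact hsum) (hz j2 hj2) hind
        · rintro a (rfl | rfl)
          · simp [hX'j, hXT _ hj, h.E_sq]
          · simp [hX'i, hXi, h.E_sq]
        · simp [hX'j, hXT j hj, h.E_sq]
        · simp [hX'i, hXi, h.E_sq]
        · intro a ha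
          by_cases hm' : a = j ∨ a = i
          · rw [if_pos hm', one_mul]
            have hv := (hmov a hm').2
            have hval : fG G (v a) (E G (z j) *ᵥ v a) ≠ 0 := by
              rw [E_mulVec, fG_smul_right, h.fG_swap (z j) (v a)]
              exact mul_ne_zero hv (neg_ne_zero.2 hv)
            rcases hm' with rfl | rfl
            · simp [hX'j, hXT _ hj, hval]
            · simp [hX'i, hXi, hval]
          · rw [if_neg hm', neg_one_mul]
            rw [not_or] at hm'
            obtain ⟨e1, e2⟩ := hfix a hm'.1 hm'.2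
            have : X' a = (g a : Matrix (Fin k) (Fin k) F) * X a * (((g a)⁻¹ : GL (Fin k) F) : Matrix (Fin k) (Fin k) F) := by
              simp [hX', g', ha, hπf a hm'.1 hm'.2]
            rw [this]
            exact ⟨e1, e2⟩
        · rw [Finset.prod_ite, Finset.prod_const_one, one_mul, Finset.prod_const]
          have : (Finset.univ.erase j2).filter (fun a => ¬(a = j ∨ a = i)) =
              ((Finset.univ.erase j2).erase j).erase i := by
            ext a; simp; tauto
          rw [this, Finset.card_erase_of_mem (by simp [hij, hij2]),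
            Finset.card_erase_of_mem (by simp [hj2j.symm]),
            Finset.card_erase_of_mem (Finset.mem_univ _), Finset.card_univ, Fintype.card_fin]
          refine Odd.neg_one_pow ?_
          rcases heven with ⟨b, hb⟩
          exact ⟨b - 2, by omega⟩
      obtain ⟨i2, hi2, hii⟩ : ∃ i2, i2 ∉ T ∧ i2 ≠ i := by
        by_contra hno
        push Not at hno
        have : (Finset.univ : Finset (Fin t)) ⊆ insert i T := fun a _ => by
          by_cases ha : a ∈ T
          · exact Finset.mem_insert_of_mem ha
          · simp [hno a ha]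
        have := Finset.card_le_card this
        rw [Finset.card_insert_of_notMem hi, Finset.card_univ, Fintype.card_fin] at this
        omega
      have hi2j : i2 ≠ j := fun e => hi2 (e ▸ hj)
      have hi2j2 : i2 ≠ j2 := fun e => hi2 (e ▸ hj2)
      set π : Equiv.Perm (Fin t) := Equiv.swap j i * Equiv.swap j2 i2 with hπ
      have pj : π j = i := by simp [hπ, Equiv.swap_apply_of_ne_of_ne hj2j.symm hi2j.symm]
      have pi : π i = j := by simp [hπ, Equiv.swap_apply_of_ne_of_ne hij2 hii.symm]
      have pj2 : π j2 = i2 := by simp [hπ, Equiv.swap_apply_of_ne_of_ne hi2j hii]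
      have pi2 : π i2 = j2 := by simp [hπ, Equiv.swap_apply_of_ne_of_ne hj2j hij2.symm]
      have po : ∀ a, a ≠ j → a ≠ i → a ≠ j2 → a ≠ i2 → π a = a := fun a a1 a2 a3 a4 => by
        simp [hπ, Equiv.swap_apply_of_ne_of_ne a3 a4, Equiv.swap_apply_of_ne_of_ne a1 a2]
      refine (hfinish (insert i (insert i2 T)) π (fun a => ?_) ?_ ?_ ?_ ?_ (by rw [pj]; exact hij)
        ?_).elim
      · rcases eq_or_ne a j with rfl | a1
        · rw [pj, pi]
        rcases eq_or_ne a i with rfl | a2
        · rw [pi, pj]
        rcases eq_or_ne a j2 with rfl | a3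
        · rw [pj2, pi2]
        rcases eq_or_ne a i2 with rfl | a4
        · rw [pi2, pj2]
        rw [po a a1 a2 a3 a4, po a a1 a2 a3 a4]
      · intro a ha hfx
        rcases Finset.mem_insert.1 ha with rfl | ha
        · rw [pi] at hfx; exact absurd hfx.symm hij
        rcases Finset.mem_insert.1 ha with rfl | ha
        · rw [pi2] at hfx; exact absurd hfx.symm hi2j2
        exact Or.inl ha
      · intro a ha
        rcases eq_or_ne a j with rfl | a1
        · simp [pj, hj, hi]
        rcases eq_or_ne a i with rfl | a2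
        · simp [pi, hj, hi]
        rcases eq_or_ne a j2 with rfl | a3
        · simp [pj2, hj2, hi2]
        rcases eq_or_ne a i2 with rfl | a4
        · simp [pi2, hj2, hi2]
        exact absurd (po a a1 a2 a3 a4) ha
      · intro a ha
        simp only [Finset.mem_insert, not_or] at ha
        exact ⟨ha.2.2, Finset.notMem_empty a⟩
      · have : ((insert i (insert i2 T)).filter fun a => π a = a) = (T.erase j).erase j2 := by
          ext a
          simp only [Finset.mem_filter, Finset.mem_insert, Finset.mem_erase]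
          rcases eq_or_ne a j with rfl | a1
          · simp [pj, hij]
          rcases eq_or_ne a i with rfl | a2
          · simp [pi, hij.symm, hi]
          rcases eq_or_ne a j2 with rfl | a3
          · simp [pj2, hi2j2]
          rcases eq_or_ne a i2 with rfl | a4
          · simp [pi2, hi2j2.symm, hi2]
          simp [po a a1 a2 a3 a4, a1, a2, a3, a4]
        rw [this, Finset.card_erase_of_mem (by simp [hj2, hj2j]), Finset.card_erase_of_mem hj]
        rcases hr with ⟨a, ha⟩
        exact ⟨a - 1, by omega⟩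
      · rw [Finset.card_insert_of_notMem (by simp [hi, hii.symm]),
          Finset.card_insert_of_notMem hi2]
        omega
    · -- an even positive number of adjoint sites
      have hmT : m ∉ T := fun e => Finset.disjoint_left.1 hdis e hm
      have hmj : m ≠ j := fun e => hmT (e ▸ hj)
      refine (hfinish (T ∪ D) (Equiv.swap j m) (fun a => Equiv.swap_apply_self _ _ _)
        (fun a ha _ => Finset.mem_union.1 ha) ?_ ?_ ?_ ?_ ?_).elim
      · intro a ha
        rcases eq_or_ne a j with rfl | haj
        · simp [hj, hmT]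
        rcases eq_or_ne a m with rfl | ham
        · simp [hj, hmT, hm]
        exact absurd (Equiv.swap_apply_of_ne_of_ne haj ham) ha
      · intro a ha
        simpa using ha
      · have : ((T ∪ D).filter fun a => Equiv.swap j m a = a) = ((T ∪ D).erase j).erase m := by
          ext a
          simp only [Finset.mem_filter, Finset.mem_erase, Finset.mem_union]
          rcases eq_or_ne a j with rfl | haj
          · simp [hmj]
          rcases eq_or_ne a m with rfl | ham
          · simp [hmj.symm]
          simp [Equiv.swap_apply_of_ne_of_ne haj ham, haj, ham]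
        rw [this, Finset.card_erase_of_mem (by simp [hmj, hm]),
          Finset.card_erase_of_mem (Finset.mem_union_left _ hj), hTD]
        have := Finset.card_pos.2 ⟨m, hm⟩
        rcases hr with ⟨a, ha⟩
        rcases hd with ⟨b, hb⟩
        exact ⟨a + b - 1, by omega⟩
      · simp [hmj]
      · rw [hTD]; have := Finset.card_pos.2 ⟨m, hm⟩; omega
  by_cases hcov : ∃ i, i ∉ T ∪ D
  · -- a free site
    obtain ⟨i, hi⟩ := hcov
    simp only [Finset.mem_union, not_or] at hi
    have hij : i ≠ j := fun e => hi.1 (e ▸ hj)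
    refine (hfinish (insert i (T ∪ D)) (Equiv.swap j i) (fun a => Equiv.swap_apply_self _ _ _)
      ?_ ?_ ?_ ?_ ?_ ?_).elim
    · intro a ha hfx
      rcases Finset.mem_insert.1 ha with rfl | ha
      · simp at hfx; exact absurd hfx.symm hij
      · exact Finset.mem_union.1 ha
    · intro a ha
      rcases eq_or_ne a j with rfl | haj
      · simp [hj, hi.1]
      rcases eq_or_ne a i with rfl | hai
      · simp [hj, hi.1]
      exact absurd (Equiv.swap_apply_of_ne_of_ne haj hai) ha
    · intro a ha
      simp only [Finset.mem_insert, Finset.mem_union, not_or] at ha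
      exact ⟨ha.2.1, ha.2.2⟩
    · have : ((insert i (T ∪ D)).filter fun a => Equiv.swap j i a = a) = (T ∪ D).erase j := by
        ext a
        simp only [Finset.mem_filter, Finset.mem_insert, Finset.mem_erase, Finset.mem_union]
        rcases eq_or_ne a j with rfl | haj
        · simp [hij]
        rcases eq_or_ne a i with rfl | hai
        · simp [hij.symm, hi.1, hi.2]
        simp [Equiv.swap_apply_of_ne_of_ne haj hai, haj, hai]
      rw [this, Finset.card_erase_of_mem (Finset.mem_union_left _ hj), hTD]
      exact Nat.Even.sub_odd (by have := hr.pos; omega) (hr.add_odd hd) odd_one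
    · simp [hij]
    · rw [Finset.card_insert_of_notMem (by simp [hi.1, hi.2]), hTD]; omega
  push Not at hcov
  have hcovD : ∀ a, a ∉ T → a ∈ D := fun a ha => (Finset.mem_union.1 (hcov a)).resolve_left ha
  by_cases hD1 : D.card = 1
  · -- one adjoint site
    obtain ⟨o, ho⟩ := Finset.card_eq_one.1 hD1
    have hoT : ∀ i, i ≠ o → i ∈ T := fun i hi => by
      by_contra e
      exact hi (by simpa [ho] using hcovD i e)
    have hoD : o ∈ D := by simp [ho]
    have hW := hXD o hoD
    obtain ⟨b, hb⟩ : ∃ b, X o *ᵥ b ≠ 0 := by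
      by_contra hno
      push Not at hno
      exact hW.ne (Matrix.ext_of_mulVec_single fun i => by rw [hno, zero_mulVec])
    have hb0 : b ≠ 0 := fun e => hb (by rw [e, mulVec_zero])
    obtain ⟨u, hu⟩ := h.exists_fG_eq_one hb0
    obtain ⟨a, hab, haW⟩ : ∃ a, fG G a b = 0 ∧ fG G a (X o *ᵥ b) ≠ 0 := by
      by_contra hno
      push Not at hno
      have hlam : X o *ᵥ b = fG G (X o *ᵥ b) u • b := by
        refine sub_eq_zero.1 (h.eq_zero_of_fG fun x => ?_)
        have h1 := hno (x - fG G b x • u) (by
          rw [fG_sub_left, fG_smul_left, h.fG_swap b x, h.fG_swap b u, hu]; ring)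
        rw [fG_sub_left, fG_smul_left, h.fG_swap (X o *ᵥ b) x, h.fG_swap (X o *ᵥ b) u] at h1
        rw [fG_sub_left, fG_smul_left]
        linear_combination -h1
      set c := fG G (X o *ᵥ b) u
      have h2 : X o *ᵥ (X o *ᵥ b) = 0 := by rw [mulVec_mulVec, hW.sq, zero_mulVec]
      rw [hlam, mulVec_smul, hlam, smul_smul, smul_eq_zero] at h2
      rcases h2 with h2 | h2
      · exact hb (by rw [hlam, mul_self_eq_zero.1 h2, zero_smul])
      · exact hb0 h2
    have ha0 : a ≠ 0 := fun e => haW (by rw [e]; simp [fG])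
    have hba : fG G b a = 0 := by rw [h.fG_swap, hab, neg_zero]
    have hjo : j ≠ o := fun e => hjD (e ▸ hoD)
    -- the two commutators
    have hstep : ∀ (Z : Matrix (Fin k) (Fin k) F) (c : Fin k → F),
        Root F M (l • pureMat (Function.update X o Z)) →
        Root F M (l • pureMat (Function.update X o (E G c * Z - Z * E G c))) := by
      intro Z c hZ
      set P := Function.update X o Z with hP
      have hPj : P j * P j = 0 := by rw [hP, Function.update_of_ne hjo, hXT j hj, h.E_sq]
      have hPP : (l • pureMat P) * (l • pureMat P) = 0 := by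
        rw [smul_mul_smul_comm, pureMat_mul, pureMat_eq_zero _ (i := j) hPj, smul_zero]
      have hPAP : (l • pureMat P) * site o (E G c) * (l • pureMat P) = 0 := by
        rw [smul_mul_assoc, pure_mul_site, smul_mul_smul_comm, pureMat_mul,
          pureMat_eq_zero _ (i := j) (by rw [Function.update_of_ne hjo]; exact hPj), smul_zero]
      have h1 := (hZ.diff h.two (h.rootE o c) (by rw [site_mul, h.E_sq, site_zero]) hPP hPAP).1
      convert h1 using 1
      rw [mul_smul_comm, smul_mul_assoc, site_mul_pure, pure_mul_site, ← smul_sub, hP,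
        Function.update_self, Function.update_idem, Function.update_idem, sub_eq_add_neg,
        pureMat_update_add, sub_eq_add_neg]
      congr 2
      rw [← neg_one_smul F (Z * E G c), pureMat_update_eq, site_smul, smul_mul_assoc,
        ← pureMat_update_eq, neg_one_smul]
    have h2 := hstep _ a (hstep (X o) b (by rwa [Function.update_eq_self]))
    have hval : E G a * (E G b * X o - X o * E G b) - (E G b * X o - X o * E G b) * E G a =
        (-fG G a (X o *ᵥ b)) • A G a b := by
      have e1 : E G a * (E G b * X o) = 0 := by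
        rw [← mul_assoc, h.E_mul_E', hab, zero_smul, zero_mul]
      have e2 : X o * E G b * E G a = 0 := by
        rw [mul_assoc, h.E_mul_E', hba, zero_smul, mul_zero]
      have e3 : ∀ c d : Fin k → F,
          E G c * X o * E G d = fG G c (X o *ᵥ d) • vecMulVec c (d ᵥ* G) := fun c d => by
        rw [E, E, vecMulVec_mul, vecMulVec_mul_vecMulVec, vecMulVec_smul, fG, ← dotProduct_mulVec]
      have hswap : fG G b (X o *ᵥ a) = -fG G a (X o *ᵥ b) := by
        rw [h.fG_adj hW.adj, h.fG_swap a (X o *ᵥ b)]
      rw [mul_sub, sub_mul, e1, e2, zero_sub, sub_zero, ← mul_assoc, e3, e3, hswap, A, smul_sub]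
      module
    rw [hval, pureMat_update_eq, site_smul, smul_mul_assoc, ← pureMat_update_eq, smul_smul] at h2
    refine ⟨_, Function.update z o a, o, b, mul_ne_zero hl (neg_ne_zero.2 haW), fun i => ?_,
      fun c e => ?_, ?_⟩
    · by_cases hi : i = o
      · subst hi; simpa using ha0
      · simpa [hi] using hz i (hoT i hi)
    · rw [Function.update_self] at e
      apply haW
      rw [e, mulVec_smul, fG_smul_right, h.fG_adj_self hW.adj, mul_zero]
    · convert h2 using 3
      funext i
      by_cases hi : i = o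
      · subst hi; simp
      · simp [hi, hXT i (hoT i hi)]
  -- at least three adjoint sites
  obtain ⟨p, hp, q, hq, hpq⟩ := Finset.one_lt_card.1 (show 1 < D.card by have := hd.pos; omega)
  have hchoice : ∀ a : Fin t, ∃ (g : GL (Fin k) F) (v : Fin k → F), Good G M g ∧
      fG G v (((g : Matrix (Fin k) (Fin k) F) * X a * ((g⁻¹ : GL (Fin k) F) :
        Matrix (Fin k) (Fin k) F) * X a) *ᵥ v) =
      -fG G v ((X a * ((g : Matrix (Fin k) (Fin k) F) * X a * ((g⁻¹ : GL (Fin k) F) :
        Matrix (Fin k) (Fin k) F))) *ᵥ v) ∧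
      fG G v ((X a * ((g : Matrix (Fin k) (Fin k) F) * X a * ((g⁻¹ : GL (Fin k) F) :
        Matrix (Fin k) (Fin k) F))) *ᵥ v) ≠ 0 ∧
      (a ∈ D → ∀ Z, (g : Matrix (Fin k) (Fin k) F) * X a * ((g⁻¹ : GL (Fin k) F) :
        Matrix (Fin k) (Fin k) F) = Z → (X a * Z * (X a * Z) = 0 ∧ X a * Z * (Z * X a) = 0 ∧
          Z * X a * (X a * Z) = 0 ∧ Z * X a * (Z * X a) = 0) ∧ X a * Z * X a = 0 ∧
          Z * X a * Z = 0 ∧ Z * Z = 0) := by
    intro a
    by_cases haD : a ∈ D
    · obtain ⟨g, v, W', hg, hW', e1, e2, e3⟩ := h.fixed_W (hXD a haD)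
      refine ⟨g, v, hg, ?_, ?_, fun _ Z hZ => by rw [← hZ, hW']; exact e3⟩
      · rw [hW']; exact e1
      · rw [hW']; exact e2
    · have haT : a ∈ T := by
        by_contra e
        exact haD (hcovD a e)
      obtain ⟨g, v, hg, e1, e2⟩ := h.fixed_site (Or.inl ⟨z a, hz a haT, hXT a haT⟩)
      exact ⟨g, v, hg, by rw [e1, neg_neg], e2, fun e => absurd e haD⟩
  choose g v hg hval1 hval2 hW using hchoice
  obtain ⟨g₂, u, hg₂, hu, hge⟩ := hE j hj
  set g' := Function.update g j g₂
  have hg' : ∀ a, Good G M (g' a) := fun a => by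
    by_cases e : a = j
    · subst e; simpa [g'] using hg₂
    · simpa [g', e] using hg a
  set X' := fun a => (g' a : Matrix (Fin k) (Fin k) F) * X a * (((g' a)⁻¹ : GL (Fin k) F) : Matrix (Fin k) (Fin k) F) with hX'
  have hroot' : Root F M (l • pureMat X') := by
    simpa [hX'] using hsame g' 1 (fun a => rfl) hg' (Or.inr rfl)
  have hX'a : ∀ a, a ≠ j →
      X' a = (g a : Matrix (Fin k) (Fin k) F) * X a * (((g a)⁻¹ : GL (Fin k) F) : Matrix (Fin k) (Fin k) F) := fun a ha => by
    simp [hX', g', ha]
  have hpj : p ≠ j := fun e => hjD (e ▸ hp)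
  have hqj : q ≠ j := fun e => hjD (e ▸ hq)
  obtain ⟨hsum, hind⟩ := hEsum j hj u hu
  refine hpair X' v j p q (z j) u hpq hroot' ?_ (Or.inl (hXD p hp).sq)
    (Or.inl (hW p hp _ (hX'a p hpj).symm).2.2.2) (hW p hp _ (hX'a p hpj).symm).2.1
    (hW q hq _ (hX'a q hqj).symm).2.2.1 (fun _ => -1) (fun a ha => ?_) ?_
    (by rw [show X' j = E G u by simp only [hX', g', Function.update_self, hge]]; exact hsum)
    (hz j hj) hind
  · rintro a (rfl | rfl)
    · exact (hW _ hp _ (hX'a _ hpj).symm).1
    · exact (hW _ hq _ (hX'a _ hqj).symm).1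
  · rw [hX'a a ha, neg_one_mul]
    exact ⟨hval1 a, hval2 a⟩
  · rw [Finset.prod_const, Finset.card_erase_of_mem (Finset.mem_univ _), Finset.card_univ,
      Fintype.card_fin]
    exact (Nat.Even.sub_odd h.pos heven odd_one).neg_one_pow

/-- The dichotomy for an even number of sites. -/
theorem main_even [Fintype F] (heven : Even t) (hk : Nat.card F = 3 → 4 ≤ k) :
    (∀ g ∈ M, ∃ (cs : Fin t → GL (Fin k) F) (π : Equiv.Perm (Fin t)),
      (g : Matrix (Fin t → Fin k) (Fin t → Fin k) F) =
        pureMat (fun i => (cs i : Matrix (Fin k) (Fin k) F)) * factorPerm k π) ∨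
    ∃ (l : F) (p : Fin t → Fin k → F) (o : Fin t) (b : Fin k → F), l ≠ 0 ∧ (∀ i, p i ≠ 0) ∧
      (∀ c : F, b ≠ c • p o) ∧
      Root F M (l • pureMat (Function.update (fun i => E G (p i)) o (A G (p o) b))) := by
  classical
  rcases h.param_or_sites hk with ⟨j, c, Y, hc, hY, hroot⟩ | hsites
  swap
  · exact Or.inl fun g hg => h.pure_of_sites (hsites g hg)
  refine Or.inr ?_
  have hcand : Cand G M {j} := by
    refine ⟨Finset.singleton_nonempty j, fun _ => c, emb j Y, fun _ _ => hc, fun e => ?_,
      fun i hi X => ?_, Or.inr fun a e => ?_, ?_⟩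
    · exact hY 0 (emb_injective j (by rw [e, zero_smul, map_zero]))
    · rw [Finset.mem_singleton] at hi
      subst hi
      exact site_comm_emb i X Y
    · exact hY a (emb_injective j (by rw [e, map_smul, map_one]))
    · convert hroot using 2
      rw [site]
      congr 1
      funext i
      by_cases hi : i = j
      · subst hi; simp
      · simp [hi]
  obtain ⟨T, hT, hmax⟩ := (Finset.univ.filter (Cand G M)).exists_max_image Finset.card
    ⟨{j}, by simp [hcand]⟩
  rw [Finset.mem_filter] at hT
  exact h.exists_pairShape heven hT.2 fun T' h' => hmax T' (by simp [h'])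

end Sys

end Cfsg.Agent.MaxSub.TensorPowSp
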