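import Cfsg.Agent.MaxSub.TensorPowSp.Normal

/-!
Sandwiches of root elements by site transvections.
-/

set_option autoImplicit false
set_option linter.unusedSectionVars false
set_option linter.unusedSimpArgs false

namespace Cfsg.Agent.MaxSub.TensorPowSp

open Matrix Cfsg.Agent.NotMax Cfsg.Agent.GeoClasses

variable {F : Type*} [Field F] {k t : ℕ}

section Generic

variable {R : Type*} [Ring R] [Algebra F R] {M : Subgroup Rˣ} {P A : R}

/-- The commutator and the sandwich by a root element, for a root element with commuting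
conjugates. -/
lemma Root.diff (h2 : (2 : F) ≠ 0) (hP : Root F M P) (hA : Root F M A) (hAA : A * A = 0)
    (hPP : P * P = 0) (hPAP : P * A * P = 0) :
    Root F M (A * P - P * A) ∧ Root F M (A * P * A) := by
  have hc : ∀ s : F, Root F M (P + s • (A * P - P * A) - (s * s) • (A * P * A)) := by
    intro s
    obtain ⟨g, hg, hge⟩ := hA s
    have := hP.conj hg
    rw [hge, inv_val_one_add hge (by rw [smul_mul_smul_comm, hAA, smul_zero])] at this
    convert this using 1
    simp only [add_mul, mul_sub, one_mul, mul_one, smul_mul_assoc, mul_smul_comm, smul_smul, smul_sub,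
      mul_assoc]
    module
  have e1 : ∀ z, P * (P * z) = 0 := fun z => by rw [← mul_assoc, hPP, zero_mul]
  have e2 : ∀ z, A * (A * z) = 0 := fun z => by rw [← mul_assoc, hAA, zero_mul]
  have e3 : ∀ z, P * (A * (P * z)) = 0 := fun z => by rw [← mul_assoc, ← mul_assoc, hPAP, zero_mul]
  have e4 : P * (A * P) = 0 := by rw [← mul_assoc, hPAP]
  set X := A * P - P * A with hX
  set Y := A * P * A with hY
  have mXY : X * Y = 0 ∧ Y * X = 0 ∧ Y * Y = 0 ∧ X * P = 0 ∧ P * X = 0 ∧ Y * P = 0 ∧ P * Y = 0 ∧
      X * X = 0 := by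
    refine ⟨?_, ?_, ?_, ?_, ?_, ?_, ?_, ?_⟩ <;>
      simp only [hX, hY, mul_sub, sub_mul, mul_assoc, e1, e2, e3, e4, hAA, hPP, mul_zero, sub_zero,
        zero_sub, neg_zero]
  obtain ⟨xy, yx, yy, xp, px, yp, py, xx⟩ := mXY
  have h1 := hc 1
  have h2' := hc (-1)
  simp only [one_smul, one_mul, neg_smul, mul_neg, mul_one, neg_neg] at h1 h2'
  constructor
  · have := (h1.add h2'.neg (by
      simp only [mul_neg, add_mul, sub_mul, mul_add, mul_sub, neg_mul, xy, yx, yy, xp, px, yp, py, xx,
        hPP, neg_zero, add_zero, sub_zero])).smul (2 : F)⁻¹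
    convert this using 1
    rw [show P + X - Y + -(P + -X - Y) = (2 : F) • X by rw [two_smul]; abel, smul_smul,
      inv_mul_cancel₀ h2, one_smul]
  · have := ((h1.add h2' (by
      simp only [mul_neg, add_mul, sub_mul, mul_add, mul_sub, neg_mul, xy, yx, yy, xp, px, yp, py, xx,
        hPP, neg_zero, add_zero, sub_zero])).add (hP.smul (-2 : F)) (by
      simp only [mul_neg, add_mul, sub_mul, mul_add, mul_sub, neg_mul, mul_smul_comm, xp, yp, hPP,
        neg_zero, add_zero, sub_zero, smul_zero])).smul (-2 : F)⁻¹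
    convert this using 1
    rw [show P + X - Y + (P + -X - Y) + (-2 : F) • P = (-2 : F) • Y by
      rw [neg_smul, neg_smul, two_smul, two_smul]; abel, smul_smul,
      inv_mul_cancel₀ (neg_ne_zero.2 h2), one_smul]

end Generic

lemma pureMat_eq_zero (Ys : Fin t → Matrix (Fin k) (Fin k) F) {i : Fin t} (h : Ys i = 0) :
    pureMat Ys = 0 := by
  ext x y
  exact Finset.prod_eq_zero (Finset.mem_univ i) (by rw [h]; rfl)

lemma pureMat_ne_zero (Ys : Fin t → Matrix (Fin k) (Fin k) F) (h : ∀ i, Ys i ≠ 0) :
    pureMat Ys ≠ 0 := by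
  intro e
  have hex : ∀ i, ∃ pq : Fin k × Fin k, Ys i pq.1 pq.2 ≠ 0 := fun i => by
    by_contra hno
    push Not at hno
    exact h i (Matrix.ext fun p q => hno (p, q))
  choose f hf using hex
  exact (Finset.prod_ne_zero_iff.2 fun i _ => hf i)
    (congrFun (congrFun e fun i => (f i).1) fun i => (f i).2)

lemma E_mul_E (G : Matrix (Fin k) (Fin k) F) (v : Fin k → F) (Y : Matrix (Fin k) (Fin k) F) :
    E G v * Y * E G v = fG G v (Y *ᵥ v) • E G v := by
  rw [E, vecMulVec_mul, vecMulVec_mul_vecMulVec, vecMulVec_smul, fG, ← dotProduct_mulVec]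

variable {G : Matrix (Fin k) (Fin k) F} {M : Subgroup (GL (Fin t → Fin k) F)}

/-- The commutator of two pure root elements, sandwiched at the sites of `U`. -/
theorem Sys.grow_key (h : Sys G M) {X X' : Fin t → Matrix (Fin k) (Fin k) F} {l : F}
    (hX : Root F M (l • pureMat X)) (hX' : Root F M (l • pureMat X')) (U : Finset (Fin t))
    (v : Fin t → Fin k → F) {p q : Fin t} (hpq : p ≠ q)
    (hanch : ∀ i, i = p ∨ i = q →
      X i * X' i * (X i * X' i) = 0 ∧ X i * X' i * (X' i * X i) = 0 ∧
      X' i * X i * (X i * X' i) = 0 ∧ X' i * X i * (X' i * X i) = 0)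
    (hsq : ∃ i, X i * X i = 0) (hsq' : ∃ i, X' i * X' i = 0)
    (hp : X p * X' p * X p = 0) (hq : X' q * X q * X' q = 0) :
    Root F M
      ((l * l * ∏ i ∈ U, fG G (v i) ((X i * X' i) *ᵥ v i)) •
          pureMat (fun i => if i ∈ U then E G (v i) else X i * X' i) -
       (l * l * ∏ i ∈ U, fG G (v i) ((X' i * X i) *ᵥ v i)) •
          pureMat (fun i => if i ∈ U then E G (v i) else X' i * X i)) := by
  classical
  set Y : Fin t → Matrix (Fin k) (Fin k) F := fun i => X i * X' i
  set Z : Fin t → Matrix (Fin k) (Fin k) F := fun i => X' i * X i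
  -- the commutator
  have hP : Root F M ((l * l) • (pureMat Y - pureMat Z)) := by
    intro s
    obtain ⟨iX, hiX⟩ := hsq
    obtain ⟨iX', hiX'⟩ := hsq'
    have h1 := hX 1
    have h2 := hX' s
    rw [one_smul] at h1
    have z : ∀ (A' B' : Fin t → Matrix (Fin k) (Fin k) F), ∀ i, A' i * B' i = 0 →
        pureMat A' * pureMat B' = 0 := fun A' B' i e => by
      rw [pureMat_mul]; exact pureMat_eq_zero _ (i := i) e
    have h3 := InM.comm h1 h2
      (by rw [smul_mul_smul_comm, z X X iX hiX, smul_zero])
      (by rw [smul_mul_smul_comm, smul_mul_smul_comm, z X' X' iX' hiX', smul_zero, smul_zero])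
      (by
        have : pureMat X * (pureMat X' * pureMat X) = 0 := by
          rw [pureMat_mul, pureMat_mul]
          exact pureMat_eq_zero _ (i := p) (show X p * (X' p * X p) = 0 by rw [← mul_assoc, hp])
        simp [smul_mul_assoc, mul_smul_comm, this])
      (by
        have : pureMat X' * (pureMat X * pureMat X') = 0 := by
          rw [pureMat_mul, pureMat_mul]
          exact pureMat_eq_zero _ (i := q) (show X' q * (X q * X' q) = 0 by rw [← mul_assoc, hq])
        simp [smul_mul_assoc, mul_smul_comm, this])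
    simp only [smul_mul_assoc, mul_smul_comm, pureMat_mul, smul_smul] at h3
    convert h3 using 2
    simp only [smul_sub, smul_smul, Y, Z]
    module
  -- successive sandwiches
  have key : ∀ W : Finset (Fin t), W ⊆ U → Root F M
      ((l * l * ∏ i ∈ W, fG G (v i) (Y i *ᵥ v i)) • pureMat (fun i => if i ∈ W then E G (v i) else Y i) -
       (l * l * ∏ i ∈ W, fG G (v i) (Z i *ᵥ v i)) • pureMat (fun i => if i ∈ W then E G (v i) else Z i)) := by
    intro W
    induction W using Finset.induction with
    | empty => intro _; simpa [smul_sub] using hP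
    | insert j W hj ih =>
      intro hWU
      have hW := ih ((Finset.subset_insert j W).trans hWU)
      set YW := fun i => if i ∈ W then E G (v i) else Y i with hYW
      set ZW := fun i => if i ∈ W then E G (v i) else Z i with hZW
      obtain ⟨a, haj, ha⟩ : ∃ a, a ≠ j ∧ (a = p ∨ a = q) := by
        by_cases e : p = j
        · exact ⟨q, fun e' => hpq (e.trans e'.symm), Or.inr rfl⟩
        · exact ⟨p, e, Or.inl rfl⟩
      have hz : YW a * YW a = 0 ∧ YW a * ZW a = 0 ∧ ZW a * YW a = 0 ∧ ZW a * ZW a = 0 := by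
        simp only [hYW, hZW]
        by_cases haW : a ∈ W
        · simp [haW, h.E_sq]
        · simp only [if_neg haW]; exact hanch a ha
      obtain ⟨yy, yz, zy, zz⟩ := hz
      have hkill : ∀ A' B' : Fin t → Matrix (Fin k) (Fin k) F, A' a * B' a = 0 →
          pureMat A' * pureMat B' = 0 ∧ pureMat A' * site j (E G (v j)) * pureMat B' = 0 := by
        intro A' B' e
        refine ⟨by rw [pureMat_mul]; exact pureMat_eq_zero _ (i := a) e, ?_⟩
        rw [site, pureMat_mul, pureMat_mul]
        exact pureMat_eq_zero _ (i := a) (by rw [Function.update_of_ne haj, Pi.one_apply, mul_one, e])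
      have hsand : ∀ A' : Fin t → Matrix (Fin k) (Fin k) F, (∀ i, i ∈ W → A' i = E G (v i)) →
          ∀ Y' : Fin t → Matrix (Fin k) (Fin k) F, (∀ i, i ∉ W → A' i = Y' i) →
          site j (E G (v j)) * pureMat A' * site j (E G (v j)) =
            fG G (v j) (Y' j *ᵥ v j) •
              pureMat (fun i => if i ∈ insert j W then E G (v i) else Y' i) := by
        intro A' hA' Y' hY'
        set c := fG G (v j) (Y' j *ᵥ v j) with hc
        rw [site, pureMat_mul, pureMat_mul,
          show c = ∏ i : Fin t, (if i = j then c else 1) by rw [Finset.prod_ite_eq']; simp,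
          ← pureMat_smul]
        congr 1
        funext i
        by_cases hi : i = j
        · subst hi; simp [hY' i hj, E_mul_E, hc]
        · by_cases hiW : i ∈ W
          · simp [hi, hiW, hA' i hiW]
          · simp [hi, hiW, hY' i hiW]
      have h1 := (hW.diff h.two (h.rootE j (v j)) (by rw [site_mul, h.E_sq, site_zero])
        (by simp [sub_mul, mul_sub, (hkill YW YW yy).1, (hkill YW ZW yz).1, (hkill ZW YW zy).1,
          (hkill ZW ZW zz).1])
        (by simp [sub_mul, mul_sub, (hkill YW YW yy).2, (hkill YW ZW yz).2, (hkill ZW YW zy).2,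
          (hkill ZW ZW zz).2])).2
      rw [mul_sub, sub_mul, mul_smul_comm, smul_mul_assoc, mul_smul_comm, smul_mul_assoc,
        hsand YW (fun i hi => if_pos hi) Y (fun i hi => if_neg hi),
        hsand ZW (fun i hi => if_pos hi) Z (fun i hi => if_neg hi), smul_smul, smul_smul] at h1
      rw [Finset.prod_insert hj, Finset.prod_insert hj]
      convert h1 using 2 <;> congr 1 <;> ring
  exact key U Finset.Subset.rfl

/-- Two pure root elements in good position give a root element with transvection shape on all their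
sites. -/
theorem Sys.grow (h : Sys G M) {X X' : Fin t → Matrix (Fin k) (Fin k) F} {l : F} (hl : l ≠ 0)
    (hX : Root F M (l • pureMat X)) (hX' : Root F M (l • pureMat X')) (U : Finset (Fin t))
    (v : Fin t → Fin k → F) (hout : ∀ i, i ∉ U → X i = 1 ∧ X' i = 1) {p q : Fin t} (hpq : p ≠ q)
    (hanch : ∀ i, i = p ∨ i = q →
      X i * X' i * (X i * X' i) = 0 ∧ X i * X' i * (X' i * X i) = 0 ∧
      X' i * X i * (X i * X' i) = 0 ∧ X' i * X i * (X' i * X i) = 0)
    (hsq : ∃ i, X i * X i = 0) (hsq' : ∃ i, X' i * X' i = 0)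
    (hp : X p * X' p * X p = 0) (hq : X' q * X q * X' q = 0)
    (hne : ∏ i ∈ U, fG G (v i) ((X i * X' i) *ᵥ v i) ≠ ∏ i ∈ U, fG G (v i) ((X' i * X i) *ᵥ v i)) :
    ∃ μ : F, μ ≠ 0 ∧ Root F M (μ • pureMat fun i => if i ∈ U then E G (v i) else 1) := by
  classical
  have hfin := h.grow_key hX hX' U v hpq hanch hsq hsq' hp hq
  have hY : (fun i => if i ∈ U then E G (v i) else X i * X' i) =
      fun i => if i ∈ U then E G (v i) else 1 := by
    funext i
    split_ifs with hi
    · rfl
    · simp [hout i hi]
  have hZ : (fun i => if i ∈ U then E G (v i) else X' i * X i) =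
      fun i => if i ∈ U then E G (v i) else 1 := by
    funext i
    split_ifs with hi
    · rfl
    · simp [hout i hi]
  rw [hY, hZ, ← sub_smul, ← mul_sub] at hfin
  exact ⟨_, mul_ne_zero (mul_ne_zero hl hl) (sub_ne_zero.2 hne), hfin⟩

end Cfsg.Agent.MaxSub.TensorPowSp
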