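import Cfsg.Agent.MaxSub.TensorPowSp.Blocks
import Cfsg.Agent.MaxSub.TensorPowSp.KLemma

/-!
The setting: a group of isometries of a symplectic tensor power containing all site transvections.
-/

set_option autoImplicit false
set_option linter.unusedSectionVars false
set_option linter.unusedSimpArgs false

namespace Cfsg.Agent.MaxSub.TensorPowSp

open Matrix Cfsg.Agent.NotMax Cfsg.Agent.GeoClasses

variable {F : Type*} [Field F] {k t : ℕ}

/-- The form of a Gram matrix. -/
def fG (G : Matrix (Fin k) (Fin k) F) (z x : Fin k → F) : F := (z ᵥ* G) ⬝ᵥ x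

/-- The transvection direction `x ↦ f(z, x) z`. -/
def E (G : Matrix (Fin k) (Fin k) F) (z : Fin k → F) : Matrix (Fin k) (Fin k) F :=
  vecMulVec z (z ᵥ* G)

/-- The short root direction `x ↦ f(w, x) c + f(c, x) w`. -/
def S (G : Matrix (Fin k) (Fin k) F) (c w : Fin k → F) : Matrix (Fin k) (Fin k) F :=
  vecMulVec c (w ᵥ* G) + vecMulVec w (c ᵥ* G)

/-- The Gram matrix of the tensor power. -/
def gV (G : Matrix (Fin k) (Fin k) F) (t : ℕ) : Matrix (Fin t → Fin k) (Fin t → Fin k) F :=
  pureMat fun _ => G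

/-- The hypotheses on the group. -/
structure Sys (G : Matrix (Fin k) (Fin k) F) (M : Subgroup (GL (Fin t → Fin k) F)) : Prop where
  skew : Gᵀ = -G
  det : IsUnit G.det
  two : (2 : F) ≠ 0
  pos : 0 < t
  kpos : 2 ≤ k
  rootE : ∀ (j : Fin t) (z : Fin k → F), Root F M (site j (E G z))
  perm : 3 ≤ t → ∀ π : Equiv.Perm (Fin t), glFactorPerm k π ∈ M
  iso : ∀ g ∈ M, ((g : Matrix (Fin t → Fin k) (Fin t → Fin k) F))ᵀ * gV G t *
    (g : Matrix (Fin t → Fin k) (Fin t → Fin k) F) = gV G t

lemma fG_add_left (G : Matrix (Fin k) (Fin k) F) (z z' x : Fin k → F) :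
    fG G (z + z') x = fG G z x + fG G z' x := by simp [fG, add_vecMul, add_dotProduct]

lemma fG_smul_left (G : Matrix (Fin k) (Fin k) F) (a : F) (z x : Fin k → F) :
    fG G (a • z) x = a * fG G z x := by simp [fG, smul_vecMul, smul_dotProduct]

lemma fG_add_right (G : Matrix (Fin k) (Fin k) F) (z x x' : Fin k → F) :
    fG G z (x + x') = fG G z x + fG G z x' := by simp [fG, dotProduct_add]

lemma fG_smul_right (G : Matrix (Fin k) (Fin k) F) (a : F) (z x : Fin k → F) :
    fG G z (a • x) = a * fG G z x := by simp [fG, dotProduct_smul]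

lemma fG_sub_right (G : Matrix (Fin k) (Fin k) F) (z x x' : Fin k → F) :
    fG G z (x - x') = fG G z x - fG G z x' := by simp [fG, dotProduct_sub]

lemma fG_sub_left (G : Matrix (Fin k) (Fin k) F) (z z' x : Fin k → F) :
    fG G (z - z') x = fG G z x - fG G z' x := by simp [fG, sub_vecMul, sub_dotProduct]

lemma E_mulVec (G : Matrix (Fin k) (Fin k) F) (z x : Fin k → F) : E G z *ᵥ x = fG G z x • z := by
  ext i; simp [E, fG, Matrix.vecMulVec_mulVec, mul_comm]

lemma vec_mul_vec (G : Matrix (Fin k) (Fin k) F) (a b c d : Fin k → F) :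
    vecMulVec a (b ᵥ* G) * vecMulVec c (d ᵥ* G) = fG G b c • vecMulVec a (d ᵥ* G) := by
  rw [vecMulVec_mul_vecMulVec, vecMulVec_smul]; rfl

lemma S_eq (G : Matrix (Fin k) (Fin k) F) (c w : Fin k → F) :
    S G c w = E G (c + w) - E G c - E G w := by
  simp only [S, E, add_vecMul, vecMulVec_add, add_vecMulVec]; abel

namespace Sys

variable {G : Matrix (Fin k) (Fin k) F} {M : Subgroup (GL (Fin t → Fin k) F)} (h : Sys G M)
include h

lemma fG_swap (z x : Fin k → F) : fG G x z = -fG G z x := by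
  rw [fG, fG, ← dotProduct_mulVec, dotProduct_comm x (G *ᵥ z), ← vecMul_transpose,
    h.skew, vecMul_neg, neg_dotProduct]

lemma fG_self (z : Fin k → F) : fG G z z = 0 := by
  have h0 : (2 : F) * fG G z z = 0 := by linear_combination h.fG_swap z z
  exact (mul_eq_zero.1 h0).resolve_left h.two

lemma exists_fG_eq_one {z : Fin k → F} (hz : z ≠ 0) : ∃ u, fG G z u = 1 := by
  have hne : z ᵥ* G ≠ 0 := fun e =>
    hz (Matrix.vecMul_injective_of_isUnit ((Matrix.isUnit_iff_isUnit_det _).2 h.det)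
      (show z ᵥ* G = 0 ᵥ* G by rw [e, zero_vecMul]))
  obtain ⟨i, hi⟩ := Function.ne_iff.1 hne
  exact ⟨Pi.single i ((z ᵥ* G) i)⁻¹, by rw [fG, dotProduct_single, mul_inv_cancel₀ hi]⟩

lemma eq_zero_of_fG {z : Fin k → F} (hz : ∀ u, fG G z u = 0) : z = 0 := by
  by_contra hne
  obtain ⟨u, hu⟩ := h.exists_fG_eq_one hne
  exact one_ne_zero (hu.symm.trans (hz u))

lemma E_sq (z : Fin k → F) : E G z * E G z = 0 := by
  rw [E, vec_mul_vec, h.fG_self, zero_smul]

lemma E_ne_zero {z : Fin k → F} (hz : z ≠ 0) : E G z ≠ 0 := by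
  obtain ⟨u, hu⟩ := h.exists_fG_eq_one hz
  intro e
  have := E_mulVec G z u
  rw [e, hu, one_smul, zero_mulVec] at this
  exact hz this.symm

/-- For `k ≥ 4` every line has a hyperbolic pair in its perp. -/
lemma exists_pair (hk : 4 ≤ k) (c : Fin k → F) :
    ∃ w d, fG G c w = 0 ∧ fG G c d = 0 ∧ fG G w d = 1 := by
  rcases eq_or_ne c 0 with rfl | hc
  · obtain ⟨i⟩ : Nonempty (Fin k) := ⟨⟨0, by omega⟩⟩
    obtain ⟨d, hd⟩ := h.exists_fG_eq_one (z := Pi.single i (1 : F)) (by simp)
    exact ⟨_, d, by simp [fG], by simp [fG], hd⟩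
  obtain ⟨u, hu⟩ := h.exists_fG_eq_one hc
  let φ : (Fin k → F) →ₗ[F] F × F :=
    { toFun := fun x => (fG G c x, fG G u x)
      map_add' := fun x y => by simp [fG_add_right]
      map_smul' := fun a x => by simp [fG_smul_right] }
  obtain ⟨x, hx, hx0⟩ := Submodule.exists_mem_ne_zero_of_ne_bot (p := LinearMap.ker φ) (by
    intro e
    have := LinearMap.finrank_le_finrank_of_injective (LinearMap.ker_eq_bot.1 e)
    simp at this
    omega)
  have h1 : fG G c x = 0 := congrArg Prod.fst hx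
  have h2 : fG G u x = 0 := congrArg Prod.snd hx
  obtain ⟨w0, hw0⟩ := h.exists_fG_eq_one hx0
  refine ⟨w0 - fG G c w0 • u, -x, ?_, ?_, ?_⟩
  · rw [fG_sub_right, fG_smul_right, hu, mul_one, sub_self]
  · simpa [fG] using h1
  · rw [fG_sub_left, fG_smul_left, show -x = (-1 : F) • x by simp, fG_smul_right, fG_smul_right, h2,
      h.fG_swap x w0, hw0]
    ring

end Sys

section Root

variable {R : Type*} [Ring R] [Algebra F R] {M : Subgroup Rˣ}

lemma Root.neg {B : R} (hB : Root F M B) : Root F M (-B) := fun s => by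
  simpa using hB (-s)

lemma Root.smul {B : R} (hB : Root F M B) (c : F) : Root F M (c • B) := fun s => by
  rw [smul_smul]; exact hB _

lemma Root.add {X Y : R} (hX : Root F M X) (hY : Root F M Y) (hXY : X * Y = 0) : Root F M (X + Y) := by
  intro s
  obtain ⟨u, hu, hue⟩ := hX s
  obtain ⟨v, hv, hve⟩ := hY s
  refine ⟨u * v, mul_mem hu hv, ?_⟩
  rw [Units.val_mul, hue, hve, add_mul, one_mul, mul_add, mul_one, smul_mul_smul_comm, hXY,
    smul_zero, smul_add]
  abel

lemma Root.conj {B : R} (hB : Root F M B) {g : Rˣ} (hg : g ∈ M) :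
    Root F M ((g : R) * B * ((g⁻¹ : Rˣ) : R)) := by
  intro s
  obtain ⟨u, hu, hue⟩ := hB s
  refine ⟨g * u * g⁻¹, mul_mem (mul_mem hg hu) (inv_mem hg), ?_⟩
  rw [Units.val_mul, Units.val_mul, hue, mul_add, mul_one, add_mul, Units.mul_inv, mul_smul_comm,
    smul_mul_assoc]

end Root

variable {G : Matrix (Fin k) (Fin k) F} {M : Subgroup (GL (Fin t → Fin k) F)}

lemma Sys.root_S (h : Sys G M) (j : Fin t) {c w : Fin k → F} (hcw : fG G c w = 0) :
    Root F M (site j (S G c w)) := by
  have hwc : fG G w c = 0 := by rw [h.fG_swap, hcw, neg_zero]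
  have e : site j (S G c w) = site j (E G (c + w)) + (-site j (E G c) + -site j (E G w)) := by
    rw [show S G c w = E G (c + w) + (-1 : F) • E G c + (-1 : F) • E G w by
      rw [S_eq]; simp; abel, site_add, site_add, site_smul, site_smul]
    simp [add_assoc]
  have m : ∀ a b : Fin k → F, fG G a b = 0 → site j (E G a) * site j (E G b) = 0 := fun a b hab => by
    rw [site_mul, E, E, vec_mul_vec, hab, zero_smul, site_zero]
  rw [e]
  refine (h.rootE j _).add ((h.rootE j c).neg.add (h.rootE j w).neg (by rw [neg_mul_neg, m _ _ hcw])) ?_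
  rw [mul_add, mul_neg, mul_neg, m _ _ (by rw [fG_add_left, h.fG_self, hwc, zero_add]),
    m _ _ (by rw [fG_add_left, hcw, h.fG_self, zero_add]), neg_zero, add_zero]

lemma Sys.exists_short (h : Sys G M) (hk : 4 ≤ k) (j : Fin t) (c : Fin k → F) :
    ∃ Q Q', Short F M (site j (E G c)) Q Q' := by
  obtain ⟨w, d, hcw, hcd, hwd⟩ := h.exists_pair hk c
  have hwc : fG G w c = 0 := by rw [h.fG_swap, hcw, neg_zero]
  have hdc : fG G d c = 0 := by rw [h.fG_swap, hcd, neg_zero]
  have hdw : fG G d w = -1 := by rw [h.fG_swap, hwd]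
  refine ⟨site j (S G c w), site j (S G c d), ?_, ?_, ?_, ?_, ?_, ?_, ?_, ?_, h.root_S j hcw,
    h.root_S j hcd⟩
  all_goals rw [site_mul]
  all_goals
    simp only [S, E, mul_add, add_mul, vec_mul_vec, h.fG_self, hcw, hcd, hwc, hdc, hwd, hdw, zero_smul,
      one_smul, add_zero, zero_add, neg_one_smul, site_zero]
  rw [← neg_one_smul F, site_smul, neg_one_smul]

/-- The compression of `B` at the vector `c` of the site `j`. -/
noncomputable def comp (G : Matrix (Fin k) (Fin k) F) (j : Fin t) (c : Fin k → F)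
    (B : Matrix (Fin t → Fin k) (Fin t → Fin k) F) : Matrix (Rest k j) (Rest k j) F :=
  ∑ q, ∑ r, ((c ᵥ* G) q * c r) • blk j B q r

lemma site_mul_site_E (j : Fin t) (c : Fin k → F) (B : Matrix (Fin t → Fin k) (Fin t → Fin k) F) :
    site j (E G c) * B * site j (E G c) = emb j (comp G j c B) * site j (E G c) := by
  apply (blk j).injective
  rw [← (site_comm_emb j (E G c) (comp G j c B)).eq, blk_site_mul_emb, map_mul, map_mul, blk_site]
  funext p s
  simp only [Matrix.mul_apply, Matrix.map_apply, E, Matrix.vecMulVec_apply, comp, Finset.sum_mul,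
    Finset.smul_sum]
  rw [Finset.sum_comm]
  refine Finset.sum_congr rfl fun q _ => Finset.sum_congr rfl fun r _ => ?_
  rw [mul_assoc, ← Algebra.commutes (R := F) (c r * (c ᵥ* G) s), ← mul_assoc, ← map_mul, smul_smul,
    ← Algebra.smul_def]
  congr 1; ring

/-- Non-scalar compressions of root elements give non-scalar parameters at that site. -/
lemma Sys.exists_param [Fintype F] [NeZero k] (h : Sys G M) (hk : Nat.card F = 3 → 4 ≤ k) (j : Fin t)
    (c : Fin k → F) {B : Matrix (Fin t → Fin k) (Fin t → Fin k) F} (hBB : B * B = 0)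
    (hB : Root F M B) (hC : ∀ a : F, comp G j c B ≠ a • 1) :
    ∃ Y : Matrix (Rest k j) (Rest k j) F, (∀ a : F, Y ≠ a • 1) ∧
      Root F M (site j (E G c) * emb j Y) := by
  have hp : Pair (site j (E G c)) B (emb j (comp G j c B)) :=
    ⟨by rw [site_mul, h.E_sq, site_zero], hBB, site_mul_site_E j c B, (site_comm_emb j _ _).symm⟩
  obtain ⟨r, hr, hroot⟩ := hp.exists_param (h.rootE j c) hB h.two
    (fun h3 => h.exists_short (hk h3) j c) (fun a e => hC a (emb_injective j (by
      rw [e, map_smul, map_one, Algebra.algebraMap_eq_smul_one])))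
  rw [Polynomial.aeval_algHom_apply] at hr hroot
  refine ⟨Polynomial.aeval (comp G j c B) r,
    fun a e => hr a (by rw [e, map_smul, map_one, Algebra.algebraMap_eq_smul_one]), ?_⟩
  rwa [(site_comm_emb j _ _).eq]

end Cfsg.Agent.MaxSub.TensorPowSp
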